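-- The Hall–Higman type bound for an irreducible module, without assuming that the centre of
-- the acting class-two group has prime order; the centre is shown to be cyclic.
import Mathlib
import Cfsg.Agent.Lib.Helper97.HHCore

set_option autoImplicit false

namespace Cfsg.Agent.Lib.Helper97.HH

open scoped commutatorElement

theorem hh_core_gen {M Qg : Type*} [AddCommGroup M] [Finite M] [Nontrivial M] [Group Qg]
    [Finite Qg]
    (ρ : Qg →* AddMonoid.End M) (α : Qg ≃* Qg) (ξ ξ' : AddMonoid.End M)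
    (hξ : ξ * ξ' = 1) (hξ' : ξ' * ξ = 1) (hξρ : ∀ g, ξ * ρ g = ρ (α g) * ξ)
    {p r : ℕ} (hp : p.Prime) (hr : r.Prime) (hpr : p ≠ r)
    (hQcop : ¬ p ∣ Nat.card Qg)
    (hcomm : ∀ g h : Qg, ⁅g, h⁆ ∈ Subgroup.center Qg)
    (hαr : α ^ r = 1)
    (hαfpf : ∀ g, g⁻¹ * α g ∈ Subgroup.center Qg → g ∈ Subgroup.center Qg)
    (hαZ : ∀ z ∈ Subgroup.center Qg, α z = z)
    (hξr : ξ ^ r = 1)
    (hexp : ∀ m : M, p • m = 0)
    (hfaithZ : ∀ z ∈ Subgroup.center Qg, ρ z = 1 → z = 1)
    (hfixX : ∀ m : M, ξ m = m → m = 0)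
    (hirr : ∀ W : AddSubgroup M, (∀ g, ∀ x ∈ W, ρ g x ∈ W) → (∀ x ∈ W, ξ x ∈ W) →
      W = ⊥ ∨ W = ⊤) :
    IsCyclic (Subgroup.center Qg) ∧ Nat.card (Qg ⧸ Subgroup.center Qg) ≤ (r - 1) ^ 2 := by
  classical
  have hfR : Finite (AddMonoid.End M) :=
    Finite.of_injective (fun f : AddMonoid.End M => (f : M → M)) DFunLike.coe_injective
  have hζρ : ∀ z ∈ Subgroup.center Qg, ∀ g, ρ g * ρ z = ρ z * ρ g := by
    intro z hz g
    rw [← map_mul, ← map_mul]
    congr 1
    exact Subgroup.mem_center_iff.mp hz g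
  have hζξ : ∀ z ∈ Subgroup.center Qg, ξ * ρ z = ρ z * ξ := by
    intro z hz
    rw [hξρ, hαZ z hz]
  set 𝔽 : Subring (AddMonoid.End M) :=
    Subring.closure (ρ '' (Subgroup.center Qg : Set Qg)) with h𝔽
  letI cr : CommRing 𝔽 := Subring.closureCommRingOfComm (by
    rintro a ⟨z, hz, rfl⟩ b ⟨z', hz', rfl⟩
    exact hζρ z' hz' z)
  have h𝔽comm : ∀ (a : AddMonoid.End M), a ∈ 𝔽 → (∀ g, ρ g * a = a * ρ g) ∧ ξ * a = a * ξ := by
    intro a ha
    have hle : 𝔽 ≤ Subring.centralizer (Set.range ρ ∪ {ξ}) := by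
      rw [h𝔽, Subring.closure_le]
      rintro _ ⟨z, hz, rfl⟩
      rw [SetLike.mem_coe, Subring.mem_centralizer_iff]
      rintro _ (⟨g, rfl⟩ | rfl)
      · exact hζρ z hz g
      · exact hζξ z hz
    have h1 := Subring.mem_centralizer_iff.mp (hle ha)
    exact ⟨fun g => h1 (ρ g) (Or.inl ⟨g, rfl⟩), h1 ξ (Or.inr rfl)⟩
  have hnzd : NoZeroDivisors 𝔽 := by
    refine ⟨?_⟩
    intro a b hab
    have hab' : a.1 * b.1 = 0 := congrArg Subtype.val hab
    let K₀ : AddSubgroup M :=
      { carrier := {x | a.1 x = 0}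
        add_mem' := fun {u v} hu hv => by
          change a.1 (u + v) = 0
          rw [map_add, hu, hv, add_zero]
        zero_mem' := map_zero _
        neg_mem' := fun {u} hu => by
          change a.1 (-u) = 0
          rw [map_neg, hu, neg_zero] }
    rcases hirr K₀ (by
      intro g x hx
      have hx' : a.1 x = 0 := hx
      change a.1 (ρ g x) = 0
      have h6 : a.1 (ρ g x) = (a.1 * ρ g) x := rfl
      rw [h6, ← (h𝔽comm a.1 a.2).1 g]
      change ρ g (a.1 x) = 0
      rw [hx', map_zero]) (by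
      intro x hx
      have hx' : a.1 x = 0 := hx
      change a.1 (ξ x) = 0
      have h6 : a.1 (ξ x) = (a.1 * ξ) x := rfl
      rw [h6, ← (h𝔽comm a.1 a.2).2]
      change ξ (a.1 x) = 0
      rw [hx', map_zero]) with hk | hk
    · right
      apply Subtype.ext
      ext m
      have h6 : b.1 m ∈ K₀ := by
        change (a.1 * b.1) m = 0
        rw [hab']
        rfl
      rw [hk] at h6
      exact AddSubgroup.mem_bot.mp h6
    · left
      apply Subtype.ext
      ext m
      have h6 : m ∈ K₀ := by rw [hk]; trivial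
      exact h6
  have hnA : Nontrivial 𝔽 := by
    refine ⟨⟨0, 1, ?_⟩⟩
    intro h01
    obtain ⟨m, hm⟩ := exists_ne (0 : M)
    apply hm
    have h6 : ((0 : 𝔽) : AddMonoid.End M) m = ((1 : 𝔽) : AddMonoid.End M) m := by rw [h01]
    exact h6.symm
  have hdomF : IsDomain 𝔽 := NoZeroDivisors.to_isDomain 𝔽
  have hmemF : ∀ z ∈ Subgroup.center Qg, ρ z ∈ 𝔽 := fun z hz =>
    Subring.subset_closure ⟨z, hz, rfl⟩
  -- the centre is cyclic
  have hcyc : IsCyclic (Subgroup.center Qg) := by
    let f : Subgroup.center Qg →* 𝔽 :=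
      { toFun := fun z => ⟨ρ z.1, hmemF z.1 z.2⟩
        map_one' := Subtype.ext (map_one ρ)
        map_mul' := fun a b => Subtype.ext (map_mul ρ a.1 b.1) }
    have hf : Function.Injective f := by
      rw [injective_iff_map_eq_one]
      intro z hz
      have h1 : ρ z.1 = 1 := congrArg Subtype.val hz
      exact Subtype.ext (hfaithZ z.1 z.2 h1)
    exact isCyclic_of_injective_ringHom f hf
  refine ⟨hcyc, ?_⟩
  have hfin : Fintype 𝔽 := Fintype.ofFinite 𝔽
  letI fld : Field 𝔽 := Fintype.fieldOfDomain 𝔽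
  have hscal : ∀ z ∈ Subgroup.center Qg, ∃ k : 𝔽, ρ z = 𝔽.subtype k :=
    fun z hz => ⟨⟨ρ z, hmemF z hz⟩, rfl⟩
  have hfixZ : ∀ z ∈ Subgroup.center Qg, z ≠ 1 → ∀ m : M, ρ z m = m → m = 0 := by
    intro z hz hz1 m hm
    let K₁ : AddSubgroup M :=
      { carrier := {x | ρ z x = x}
        add_mem' := fun {u v} hu hv => by
          have hu' : ρ z u = u := hu
          have hv' : ρ z v = v := hv
          change ρ z (u + v) = u + v
          rw [map_add, hu', hv']
        zero_mem' := map_zero _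
        neg_mem' := fun {u} hu => by
          have hu' : ρ z u = u := hu
          change ρ z (-u) = -u
          rw [map_neg, hu'] }
    rcases hirr K₁ (by
      intro g x hx
      have hx' : ρ z x = x := hx
      change ρ z (ρ g x) = ρ g x
      have h6 : ρ z (ρ g x) = (ρ z * ρ g) x := rfl
      rw [h6, ← hζρ z hz g]
      change ρ g (ρ z x) = ρ g x
      rw [hx']) (by
      intro x hx
      have hx' : ρ z x = x := hx
      change ρ z (ξ x) = ξ x
      have h6 : ρ z (ξ x) = (ρ z * ξ) x := rfl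
      rw [h6, ← hζξ z hz]
      change ξ (ρ z x) = ξ x
      rw [hx']) with hk | hk
    · have h6 : m ∈ K₁ := hm
      rw [hk] at h6
      exact AddSubgroup.mem_bot.mp h6
    · exfalso
      apply hz1
      apply hfaithZ z hz
      ext m'
      have h6 : m' ∈ K₁ := by rw [hk]; trivial
      exact h6
  exact field_core (K := 𝔽) 𝔽.subtype ρ α ξ ξ' hξ hξ' hξρ
    (fun k g => ((h𝔽comm k.1 k.2).1 g).symm) (fun k => ((h𝔽comm k.1 k.2).2).symm)
    hscal hp hr hpr hQcop hcomm hαr hαfpf hξr hexp hfixZ hfixX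

section
variable {H V : Type*} [Group H] [CommGroup V] [MulDistribMulAction H V]

/-- The endomorphisms of `Additive V` induced by the acting group. -/
def actEndAll : H →* AddMonoid.End (Additive V) where
  toFun s :=
    { toFun := fun m => Additive.ofMul (s • (Additive.toMul m : V))
      map_zero' := congrArg Additive.ofMul (smul_one _)
      map_add' := fun _ _ => congrArg Additive.ofMul (smul_mul' _ _ _) }
  map_one' := AddMonoidHom.ext (fun _ => congrArg Additive.ofMul (one_smul H _))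
  map_mul' := fun s t => AddMonoidHom.ext (fun _ => congrArg Additive.ofMul (mul_smul s t _))

theorem actEndAll_apply (s : H) (m : Additive V) :
    Additive.toMul (actEndAll (V := V) s m) = s • (Additive.toMul m : V) := rfl

end

theorem hh_mul_irr {H V Qg : Type*} [Group H] [CommGroup V] [Finite V] [Nontrivial V]
    [MulDistribMulAction H V] [Group Qg] [Finite Qg]
    (ι : Qg →* H) (x : H) (α : Qg ≃* Qg)
    (hα : ∀ g, x * ι g * x⁻¹ = ι (α g))
    {p r : ℕ} (hp : p.Prime) (hr : r.Prime) (hpr : p ≠ r)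
    (hQcop : ¬ p ∣ Nat.card Qg)
    (hcomm : ∀ g h : Qg, ⁅g, h⁆ ∈ Subgroup.center Qg)
    (hαr : α ^ r = 1)
    (hαfpf : ∀ g, g⁻¹ * α g ∈ Subgroup.center Qg → g ∈ Subgroup.center Qg)
    (hαZ : ∀ z ∈ Subgroup.center Qg, α z = z)
    (hxr : x ^ r = 1)
    (hexp : ∀ v : V, v ^ p = 1)
    (hfaithZ : ∀ z ∈ Subgroup.center Qg, (∀ v : V, ι z • v = v) → z = 1)
    (hfixX : ∀ v : V, x • v = v → v = 1)
    (hirr : ∀ W : Subgroup V, (∀ g : Qg, ∀ w ∈ W, ι g • w ∈ W) → (∀ w ∈ W, x • w ∈ W) →
      W = ⊥ ∨ W = ⊤) :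
    IsCyclic (Subgroup.center Qg) ∧ Nat.card (Qg ⧸ Subgroup.center Qg) ≤ (r - 1) ^ 2 := by
  classical
  have hxι : ∀ g, x * ι g = ι (α g) * x := by
    intro g
    rw [← hα g, inv_mul_cancel_right]
  have hfinM : Finite (Additive V) := inferInstanceAs (Finite V)
  have hntM : Nontrivial (Additive V) := inferInstanceAs (Nontrivial V)
  refine hh_core_gen (M := Additive V) ((actEndAll (V := V)).comp ι) α (actEndAll (V := V) x)
    (actEndAll (V := V) x⁻¹) ?_ ?_ ?_ hp hr hpr hQcop hcomm hαr hαfpf hαZ ?_ ?_ ?_ ?_ ?_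
  · rw [← map_mul, mul_inv_cancel, map_one]
  · rw [← map_mul, inv_mul_cancel, map_one]
  · intro g
    rw [MonoidHom.comp_apply, MonoidHom.comp_apply, ← map_mul, ← map_mul, hxι g]
  · rw [← map_pow, hxr, map_one]
  · intro m
    exact congrArg Additive.ofMul (hexp (Additive.toMul m))
  · intro z hz h1
    apply hfaithZ z hz
    intro v
    have h2 := congrArg (fun T : AddMonoid.End (Additive V) => Additive.toMul (T (Additive.ofMul v))) h1
    exact h2
  · intro m hm
    exact congrArg Additive.ofMul (hfixX (Additive.toMul m) (congrArg Additive.toMul hm))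
  · intro W' hρ hξW
    let W'' : Subgroup V := AddSubgroup.toSubgroup' W'
    have hmem : ∀ y : V, y ∈ W'' ↔ Additive.ofMul y ∈ W' := fun y => Iff.rfl
    rcases hirr W'' (fun g w hw => hρ g _ hw) (fun w hw => hξW _ hw) with h | h
    · left
      rw [AddSubgroup.eq_bot_iff_forall]
      intro m hm
      have h1 : Additive.toMul m ∈ W'' := hm
      rw [h] at h1
      have h2 : (Additive.toMul m : V) = 1 := Subgroup.mem_bot.mp h1
      exact congrArg Additive.ofMul h2
    · right
      rw [AddSubgroup.eq_top_iff']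
      intro m
      have h1 : Additive.toMul m ∈ W'' := by
        rw [h]
        trivial
      exact h1

end Cfsg.Agent.Lib.Helper97.HH
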