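-- Structure of a `q`-group with an automorphism of prime order `r ≠ q` that centralizes every
-- proper invariant subgroup but is not trivial.
import Mathlib
import Cfsg.Agent.S0095
import Cfsg.Agent.Lib.Helper97.SectMod

set_option autoImplicit false

namespace Cfsg.Agent.Lib.Helper97.HH

open scoped commutatorElement

section
variable {P : Type*} [Group P]

theorem aut_pow_apply (α : P ≃* P) (g c : P) (hc : α g = g * c) (hcc : α c = c) (k : ℕ) :
    (α ^ k) g = g * c ^ k := by
  induction k with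
  | zero => simp
  | succ k ih =>
    rw [pow_succ', MulAut.mul_apply, ih, map_mul, map_pow, hc, hcc, mul_assoc, ← pow_succ']

/-- An automorphism of order dividing `r` of a `q`-group that is trivial on `N` and on the cosets
of `N` is trivial. -/
theorem aut_trivial_of_quot [Finite P] {q r : ℕ} (hq : q.Prime) (hr : r.Prime) (hqr : q ≠ r)
    (hP : IsPGroup q P) (α : P ≃* P) (hαr : α ^ r = 1) (N : Subgroup P)
    (hfixN : ∀ c ∈ N, α c = c) (hN : ∀ g, g⁻¹ * α g ∈ N) : ∀ g, α g = g := by
  intro g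
  have hc : α g = g * (g⁻¹ * α g) := by rw [mul_inv_cancel_left]
  have h1 := aut_pow_apply α g (g⁻¹ * α g) hc (hfixN _ (hN g)) r
  rw [hαr, MulAut.one_apply] at h1
  have hcr : (g⁻¹ * α g) ^ r = 1 := by
    have : g * (g⁻¹ * α g) ^ r = g * 1 := by rw [← h1, mul_one]
    exact mul_left_cancel this
  obtain ⟨j, hj⟩ := hP (g⁻¹ * α g)
  have h3 : orderOf (g⁻¹ * α g) ∣ r := orderOf_dvd_of_pow_eq_one hcr
  have h4 : orderOf (g⁻¹ * α g) ∣ q ^ j := orderOf_dvd_of_pow_eq_one hj
  have h5 : orderOf (g⁻¹ * α g) ∣ Nat.gcd r (q ^ j) := Nat.dvd_gcd h3 h4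
  have h6 : Nat.gcd r (q ^ j) = 1 :=
    Nat.Coprime.pow_right j ((Nat.coprime_primes hr hq).mpr hqr.symm)
  rw [h6] at h5
  have h7 : g⁻¹ * α g = 1 := orderOf_eq_one_iff.mp (Nat.dvd_one.mp h5)
  rw [hc, h7, mul_one]

end

section
variable {P : Type*} [Group P] [Finite P] {q r : ℕ}

theorem eq_top_of_min (hq : q.Prime) (hr : r.Prime) (hqr : q ≠ r) (hP : IsPGroup q P)
    (α : P ≃* P) (hαr : α ^ r = 1)
    (hmin : ∀ N : Subgroup P, (∀ g ∈ N, α g ∈ N) → N ≠ ⊤ → ∀ g ∈ N, α g = g)
    (hα1 : ∃ g, α g ≠ g) (N : Subgroup P) (hNinv : ∀ g ∈ N, α g ∈ N)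
    (hN : ∀ g, g⁻¹ * α g ∈ N) : N = ⊤ := by
  by_contra hne
  obtain ⟨g, hg⟩ := hα1
  exact hg (aut_trivial_of_quot hq hr hqr hP α hαr N (hmin N hNinv hne) hN g)

/-- The abelian case: no fixed points. -/
theorem fix_trivial_of_comm (hq : q.Prime) (hr : r.Prime) (hqr : q ≠ r) (hP : IsPGroup q P)
    (α : P ≃* P) (hαr : α ^ r = 1)
    (hmin : ∀ N : Subgroup P, (∀ g ∈ N, α g ∈ N) → N ≠ ⊤ → ∀ g ∈ N, α g = g)
    (hα1 : ∃ g, α g ≠ g) (hab : ∀ a b : P, a * b = b * a) :
    ∀ g, α g = g → g = 1 := by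
  let δ : P →* P :=
    { toFun := fun g => g⁻¹ * α g
      map_one' := by simp
      map_mul' := fun a b => by
        rw [map_mul, mul_inv_rev, hab b⁻¹ a⁻¹, mul_assoc, mul_assoc, ← mul_assoc b⁻¹,
          hab b⁻¹ (α a), mul_assoc] }
  have hδ : ∀ g, δ g = g⁻¹ * α g := fun g => rfl
  have htop : δ.range = ⊤ := by
    apply eq_top_of_min hq hr hqr hP α hαr hmin hα1
    · rintro _ ⟨g, rfl⟩
      refine ⟨α g, ?_⟩
      rw [hδ, hδ, map_mul, map_inv]
    · intro g
      exact ⟨g, rfl⟩
  have hsurj : Function.Surjective δ := MonoidHom.range_eq_top.mp htop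
  have hinj : Function.Injective δ := Finite.injective_iff_surjective.mpr hsurj
  intro g hg
  apply hinj
  rw [map_one, hδ, hg, inv_mul_cancel]

/-- The nonabelian case: class two, the automorphism is trivial on the centre and fixed point
free modulo the centre, and the centre has exponent `q`. -/
theorem min_structure_nonab (hq : q.Prime) (hr : r.Prime) (hqr : q ≠ r) (hP : IsPGroup q P)
    (α : P ≃* P) (hαr : α ^ r = 1)
    (hmin : ∀ N : Subgroup P, (∀ g ∈ N, α g ∈ N) → N ≠ ⊤ → ∀ g ∈ N, α g = g)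
    (hα1 : ∃ g, α g ≠ g) (hnab : ∃ a b : P, a * b ≠ b * a) :
    (∀ g h : P, ⁅g, h⁆ ∈ Subgroup.center P) ∧
    (∀ z ∈ Subgroup.center P, α z = z) ∧
    (∀ g, g⁻¹ * α g ∈ Subgroup.center P → g ∈ Subgroup.center P) ∧
    (∀ z ∈ Subgroup.center P, z ^ q = 1) := by
  classical
  have hfq : Fact q.Prime := ⟨hq⟩
  have htopmin := eq_top_of_min hq hr hqr hP α hαr hmin hα1
  -- the centre
  have hZinv : ∀ z ∈ Subgroup.center P, α z ∈ Subgroup.center P := by
    intro z hz
    rw [Subgroup.mem_center_iff] at hz ⊢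
    intro g
    have := congrArg α (hz (α.symm g))
    rw [map_mul, map_mul, MulEquiv.apply_symm_apply] at this
    exact this
  have hZne : Subgroup.center P ≠ ⊤ := by
    intro h
    obtain ⟨a, b, hab⟩ := hnab
    apply hab
    have : b ∈ Subgroup.center P := by rw [h]; trivial
    exact (Subgroup.mem_center_iff.mp this a)
  have hαZ : ∀ z ∈ Subgroup.center P, α z = z := hmin _ hZinv hZne
  -- the commutator subgroup
  have hNilp : Group.IsNilpotent P := hP.isNilpotent
  have hnt : Nontrivial P := by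
    obtain ⟨a, b, hab⟩ := hnab
    exact ⟨⟨a * b, b * a, hab⟩⟩
  have hC1ne : commutator P ≠ ⊤ := (Group.IsSolvable.commutator_lt_top_of_nontrivial P).ne
  have hC1inv : ∀ c ∈ commutator P, α c ∈ commutator P := by
    intro c hc
    have hchar : (commutator P).Characteristic := by
      rw [commutator_def]; infer_instance
    exact (Subgroup.characteristic_iff_le_comap.mp hchar α) hc
  have hC1fix : ∀ c ∈ commutator P, α c = c := hmin _ hC1inv hC1ne
  have hCtop : Subgroup.centralizer ((commutator P : Subgroup P) : Set P) = ⊤ := by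
    apply htopmin
    · intro g hg
      rw [Subgroup.mem_centralizer_iff] at hg ⊢
      intro c hc
      have := congrArg α (hg c hc)
      rw [map_mul, map_mul, hC1fix c hc] at this
      exact this
    · intro g
      rw [Subgroup.mem_centralizer_iff]
      intro c hc
      have hn : (commutator P).Normal := inferInstance
      have h1 : g * c * g⁻¹ ∈ commutator P := hn.conj_mem c hc g
      have h2 := hC1fix _ h1
      rw [map_mul, map_mul, map_inv, hC1fix c hc] at h2
      have h3 : α g * c = g * c * g⁻¹ * α g := by rw [← h2, inv_mul_cancel_right]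
      calc c * (g⁻¹ * α g) = g⁻¹ * (g * c * g⁻¹ * α g) := by group
        _ = g⁻¹ * (α g * c) := by rw [h3]
        _ = g⁻¹ * α g * c := by rw [mul_assoc]
  have hcomm : ∀ g h : P, ⁅g, h⁆ ∈ Subgroup.center P := by
    intro g h
    have h1 : ⁅g, h⁆ ∈ commutator P := by
      rw [commutator_def]
      exact Subgroup.commutator_mem_commutator (Subgroup.mem_top g) (Subgroup.mem_top h)
    rw [Subgroup.mem_center_iff]
    intro k
    have h2 : k ∈ Subgroup.centralizer ((commutator P : Subgroup P) : Set P) := by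
      rw [hCtop]; trivial
    exact (Subgroup.mem_centralizer_iff.mp h2 _ h1).symm
  -- fixed points modulo the centre
  let D : Subgroup P :=
    { carrier := {g | g⁻¹ * α g ∈ Subgroup.center P}
      one_mem' := by
        change (1 : P)⁻¹ * α 1 ∈ Subgroup.center P
        rw [map_one, inv_one, mul_one]
        exact Subgroup.one_mem _
      mul_mem' := fun {a b} ha hb => by
        have ha' : a⁻¹ * α a ∈ Subgroup.center P := ha
        have hb' : b⁻¹ * α b ∈ Subgroup.center P := hb
        change (a * b)⁻¹ * α (a * b) ∈ Subgroup.center P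
        have h1 : (a * b)⁻¹ * α (a * b) = b⁻¹ * (a⁻¹ * α a) * α b := by
          rw [map_mul, mul_inv_rev]; group
        rw [h1, Subgroup.mem_center_iff.mp ha' b⁻¹, mul_assoc]
        exact Subgroup.mul_mem _ ha' hb'
      inv_mem' := fun {a} ha => by
        have ha' : a⁻¹ * α a ∈ Subgroup.center P := ha
        change (a⁻¹)⁻¹ * α a⁻¹ ∈ Subgroup.center P
        have h1 : (a⁻¹)⁻¹ * α a⁻¹ = a * (a⁻¹ * α a)⁻¹ * a⁻¹ := by
          rw [map_inv]; group
        rw [h1, Subgroup.mem_center_iff.mp (Subgroup.inv_mem _ ha') a, mul_inv_cancel_right]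
        exact Subgroup.inv_mem _ ha' }
  have hDmem : ∀ g, g ∈ D ↔ g⁻¹ * α g ∈ Subgroup.center P := fun g => Iff.rfl
  have hDinv : ∀ g ∈ D, α g ∈ D := by
    intro g hg
    rw [hDmem] at hg ⊢
    have h1 : (α g)⁻¹ * α (α g) = α (g⁻¹ * α g) := by rw [map_mul, map_inv]
    rw [h1]
    exact hZinv _ hg
  have hDne : D ≠ ⊤ := by
    intro h
    obtain ⟨g, hg⟩ := hα1
    apply hg
    apply aut_trivial_of_quot hq hr hqr hP α hαr (Subgroup.center P) hαZ
    intro g'
    have : g' ∈ D := by rw [h]; trivial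
    exact this
  have hDfix : ∀ d ∈ D, α d = d := hmin D hDinv hDne
  have hZD : Subgroup.center P ≤ D := by
    intro z hz
    rw [hDmem, hαZ z hz, inv_mul_cancel]
    exact Subgroup.one_mem _
  have hDnorm : ∀ d ∈ D, ∀ h : P, h * d * h⁻¹ ∈ D := by
    intro d hd h
    have h1 : h * d * h⁻¹ = ⁅h, d⁆ * d := by rw [commutatorElement_def]; group
    rw [h1]
    exact D.mul_mem (hZD (hcomm h d)) hd
  have hEtop : Subgroup.centralizer (D : Set P) = ⊤ := by
    apply htopmin
    · intro g hg
      rw [Subgroup.mem_centralizer_iff] at hg ⊢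
      intro d hd
      have := congrArg α (hg d hd)
      rw [map_mul, map_mul, hDfix d hd] at this
      exact this
    · intro g
      rw [Subgroup.mem_centralizer_iff]
      intro d hd
      have h1 : g * d * g⁻¹ ∈ D := hDnorm d hd g
      have h2 := hDfix _ h1
      rw [map_mul, map_mul, map_inv, hDfix d hd] at h2
      have h3 : α g * d = g * d * g⁻¹ * α g := by rw [← h2, inv_mul_cancel_right]
      calc d * (g⁻¹ * α g) = g⁻¹ * (g * d * g⁻¹ * α g) := by group
        _ = g⁻¹ * (α g * d) := by rw [h3]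
        _ = g⁻¹ * α g * d := by rw [mul_assoc]
  have hαfpf : ∀ g, g⁻¹ * α g ∈ Subgroup.center P → g ∈ Subgroup.center P := by
    intro g hg
    have hgD : g ∈ D := hg
    rw [Subgroup.mem_center_iff]
    intro k
    have h2 : k ∈ Subgroup.centralizer (D : Set P) := by rw [hEtop]; trivial
    exact (Subgroup.mem_centralizer_iff.mp h2 g hgD).symm
  -- the norm map to the abelianization
  let π : P →* Abelianization P := Abelianization.of
  let ν : P →* Abelianization P :=
    { toFun := fun g => ∏ i ∈ Finset.range r, π ((α ^ i) g)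
      map_one' := Finset.prod_eq_one (fun i _ => by rw [map_one, map_one])
      map_mul' := fun a b => by
        rw [← Finset.prod_mul_distrib]
        exact Finset.prod_congr rfl (fun i _ => by rw [map_mul, map_mul]) }
  have hνdef : ∀ g, ν g = ∏ i ∈ Finset.range r, π ((α ^ i) g) := fun g => rfl
  have hνα : ∀ g, ν (α g) = ν g := by
    intro g
    have h1 : ∀ i : ℕ, (α ^ i) (α g) = (α ^ (i + 1)) g := by
      intro i; rw [pow_succ, MulAut.mul_apply]
    have h2 := (Finset.prod_range_succ' (fun i => π ((α ^ i) g)) r).symm.trans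
      (Finset.prod_range_succ (fun i => π ((α ^ i) g)) r)
    simp only [hαr, pow_zero] at h2
    rw [hνdef, hνdef]
    have h3 : ∏ i ∈ Finset.range r, π ((α ^ i) (α g)) =
        ∏ i ∈ Finset.range r, π ((α ^ (i + 1)) g) :=
      Finset.prod_congr rfl (fun i _ => by rw [h1])
    rw [h3]
    exact mul_right_cancel h2
  have hνker : ν.ker = ⊤ := by
    apply htopmin
    · intro g hg
      rw [MonoidHom.mem_ker] at hg ⊢
      rw [hνα, hg]
    · intro g
      rw [MonoidHom.mem_ker, map_mul, map_inv, hνα, inv_mul_cancel]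
  have hαpowZ : ∀ z ∈ Subgroup.center P, ∀ i : ℕ, (α ^ i) z = z := by
    intro z hz i
    induction i with
    | zero => simp
    | succ i ih => rw [pow_succ, MulAut.mul_apply, hαZ z hz, ih]
  have hZle : Subgroup.center P ≤ commutator P := by
    intro z hz
    have h1 : ν z = 1 := by
      have : z ∈ ν.ker := by rw [hνker]; trivial
      exact this
    rw [hνdef] at h1
    have h2 : ∏ i ∈ Finset.range r, π ((α ^ i) z) = ∏ _i ∈ Finset.range r, π z :=
      Finset.prod_congr rfl (fun i _ => by rw [hαpowZ z hz i])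
    rw [h2, Finset.prod_const, Finset.card_range, ← map_pow] at h1
    have h3 : z ^ r ∈ commutator P := by
      rw [← Abelianization.ker_of]
      exact h1
    obtain ⟨j, hj⟩ := hP z
    have hcop : (orderOf z).Coprime r := by
      have h4 : orderOf z ∣ q ^ j := orderOf_dvd_of_pow_eq_one hj
      exact Nat.Coprime.coprime_dvd_left h4
        (Nat.Coprime.pow_left j ((Nat.coprime_primes hq hr).mpr hqr))
    have h5 : Subgroup.zpowers (z ^ r) = Subgroup.zpowers z := by
      apply Subgroup.eq_of_le_of_card_ge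
      · rw [Subgroup.zpowers_le]
        exact Subgroup.pow_mem _ (Subgroup.mem_zpowers _) _
      · rw [Nat.card_zpowers, Nat.card_zpowers, Nat.Coprime.orderOf_pow hcop]
    have h6 : z ∈ Subgroup.zpowers (z ^ r) := by rw [h5]; exact Subgroup.mem_zpowers _
    exact (Subgroup.zpowers_le.mpr h3) h6
  -- `q`-th powers are central
  have hpowZ : ∀ g : P, g ^ q ∈ Subgroup.center P := by
    have hsolvTop : Group.IsSolvable (⊤ : Subgroup P) := inferInstance
    obtain ⟨ℓ, hℓ, hℓdvd, hfrat⟩ :=
      Cfsg.Agent.Lib.Helper97.SectMod.exists_frat_ne (⊤ : Subgroup P) hsolvTop top_ne_bot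
    have hℓq : ℓ = q := by
      rw [Subgroup.card_top] at hℓdvd
      obtain ⟨k, hk⟩ := IsPGroup.iff_card.mp hP
      rw [hk] at hℓdvd
      exact (Nat.prime_dvd_prime_iff_eq hℓ hq).mp (hℓ.dvd_of_dvd_pow hℓdvd)
    rw [hℓq] at hfrat
    have hfinv : ∀ g ∈ Cfsg.Agent.Lib.Helper97.SectMod.frat q (⊤ : Subgroup P),
        α g ∈ Cfsg.Agent.Lib.Helper97.SectMod.frat q (⊤ : Subgroup P) := by
      intro g hg
      have h1 : (Cfsg.Agent.Lib.Helper97.SectMod.frat q (⊤ : Subgroup P)).map α.toMonoidHom ≤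
          Cfsg.Agent.Lib.Helper97.SectMod.frat q (⊤ : Subgroup P) := by
        unfold Cfsg.Agent.Lib.Helper97.SectMod.frat
        rw [Subgroup.map_sup, Subgroup.map_commutator, MonoidHom.map_closure]
        apply sup_le_sup
        · exact Subgroup.commutator_mono le_top le_top
        · apply Subgroup.closure_mono
          rintro _ ⟨y, ⟨x, hx, rfl⟩, rfl⟩
          exact ⟨α x, Subgroup.mem_top _, (map_pow α x q).symm⟩
      exact h1 ⟨g, hg, rfl⟩
    have hffix := hmin _ hfinv hfrat
    intro g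
    apply hαfpf
    have h2 : g ^ q ∈ Cfsg.Agent.Lib.Helper97.SectMod.frat q (⊤ : Subgroup P) :=
      Cfsg.Agent.Lib.Helper97.SectMod.pow_mem_frat q ⊤ g (Subgroup.mem_top g)
    rw [hffix _ h2, inv_mul_cancel]
    exact Subgroup.one_mem _
  -- commutators have order dividing `q`
  have hc' : ∀ a b : P, a * b * a⁻¹ * b⁻¹ ∈ Subgroup.center P := by
    intro a b
    have := hcomm a b
    rwa [commutatorElement_def] at this
  have hcpow : ∀ a b : P, ⁅a, b⁆ ^ q = 1 := by
    intro a b
    have h1 : Cfsg.Agent.S0095.commHom hc' b (a ^ q) = 1 := by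
      rw [Cfsg.Agent.S0095.commHom_eq_one_iff]
      exact (Subgroup.mem_center_iff.mp (hpowZ a) b).symm
    rw [map_pow] at h1
    have h2 := congrArg Subtype.val h1
    rw [Subgroup.coe_pow, Cfsg.Agent.S0095.commHom_coe] at h2
    rw [commutatorElement_def]
    exact h2
  have hZexp : ∀ z ∈ Subgroup.center P, z ^ q = 1 := by
    let T : Subgroup P :=
      { carrier := {z | z ∈ Subgroup.center P ∧ z ^ q = 1}
        one_mem' := ⟨Subgroup.one_mem _, one_pow q⟩
        mul_mem' := fun {a b} ha hb => ⟨Subgroup.mul_mem _ ha.1 hb.1, by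
          have hcm : Commute a b := (Subgroup.mem_center_iff.mp hb.1 a)
          rw [hcm.mul_pow, ha.2, hb.2, one_mul]⟩
        inv_mem' := fun {a} ha => ⟨Subgroup.inv_mem _ ha.1, by rw [inv_pow, ha.2, inv_one]⟩ }
    have h1 : commutator P ≤ T := by
      rw [commutator_def, Subgroup.commutator_le]
      intro a _ b _
      exact ⟨hcomm a b, hcpow a b⟩
    intro z hz
    exact (h1 (hZle hz)).2
  exact ⟨hcomm, hαZ, hαfpf, hZexp⟩

end

end Cfsg.Agent.Lib.Helper97.HH
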