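-- The Hall–Higman type reduction: an element `x` of prime order `r` normalizing a `q`-group `Q`
-- and acting fixed point freely on a module of characteristic `p` centralizes the action of `Q`
-- (unless `q = 2`, `r` is a Fermat prime and `Q` is nonabelian).
import Mathlib
import Cfsg.Agent.S0095
import Cfsg.Agent.Lib.Helper90.Maschke
import Cfsg.Agent.Lib.Helper91.Coprime2
import Cfsg.Agent.Lib.Helper97.FrobActMain
import Cfsg.Agent.Lib.Helper97.FrobCountMod
import Cfsg.Agent.Lib.Helper97.HHOrbit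
import Cfsg.Agent.Lib.Helper97.HHRing
import Cfsg.Agent.Lib.Helper97.HHGen
import Cfsg.Agent.Lib.Helper97.HHMin

set_option autoImplicit false

namespace Cfsg.Agent.Lib.Helper97.HH

open scoped commutatorElement
open Cfsg.Agent.Lib.Helper97.FrobAct (invStab mem_invStab_of fp_lemma)

universe u

section
variable {U : Type*} [CommGroup U]

/-- Restriction of the automorphisms stabilizing `W`. -/
def resAut (W : Subgroup U) : ↥(invStab (G := MulAut U) W) →* MulAut ↥W where
  toFun t :=
    { toFun := fun w => ⟨(t : MulAut U) w, (t.2 w).mpr w.2⟩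
      invFun := fun w => ⟨(t : MulAut U)⁻¹ w, ((Subgroup.inv_mem _ t.2) w).mpr w.2⟩
      left_inv := fun w => Subtype.ext (by
        change (t : MulAut U)⁻¹ ((t : MulAut U) w) = w
        rw [← MulAut.mul_apply, inv_mul_cancel, MulAut.one_apply])
      right_inv := fun w => Subtype.ext (by
        change (t : MulAut U) ((t : MulAut U)⁻¹ w) = w
        rw [← MulAut.mul_apply, mul_inv_cancel, MulAut.one_apply])
      map_mul' := fun a b => Subtype.ext (map_mul (t : MulAut U) (a : U) (b : U)) }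
  map_one' := MulEquiv.ext (fun _ => Subtype.ext rfl)
  map_mul' := fun _ _ => MulEquiv.ext (fun _ => Subtype.ext rfl)

theorem resAut_apply (W : Subgroup U) (t : ↥(invStab (G := MulAut U) W)) (w : ↥W) :
    ((resAut W t w : ↥W) : U) = (t : MulAut U) w := rfl

theorem inv_eq_pow_of_pow_eq_one {M : Type*} [Group M] (x : M) {r : ℕ} (hr : 0 < r)
    (hxr : x ^ r = 1) : x⁻¹ = x ^ (r - 1) := by
  symm
  apply eq_inv_of_mul_eq_one_left
  rw [← pow_succ, Nat.sub_add_cancel hr, hxr]

theorem pow_apply_mem (x : MulAut U) (W : Subgroup U) (hWx : ∀ w ∈ W, x w ∈ W) (k : ℕ) :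
    ∀ w ∈ W, (x ^ k) w ∈ W := by
  induction k with
  | zero => intro w hw; simpa using hw
  | succ k ih => intro w hw; rw [pow_succ, MulAut.mul_apply]; exact ih _ (hWx w hw)

theorem mem_invStab_of_pow (x : MulAut U) {r : ℕ} (hr : 0 < r) (hxr : x ^ r = 1)
    (W : Subgroup U) (hWx : ∀ w ∈ W, x w ∈ W) : x ∈ invStab (G := MulAut U) W :=
  mem_invStab_of W x hWx (fun w hw => by
    rw [inv_eq_pow_of_pow_eq_one x hr hxr]
    exact pow_apply_mem x W hWx _ w hw)

end

theorem restrict_step {p q r : ℕ} {U : Type u} [CommGroup U] [Finite U]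
    (ih : ∀ (U' : Type u) [CommGroup U'] [Finite U'], Nat.card U' < Nat.card U →
      ∀ (x' : MulAut U'), x' ^ r = 1 → (∀ u : U', x' u = u → u = 1) → (∀ u : U', u ^ p = 1) →
      ∀ (P' : Subgroup (MulAut U')), IsPGroup q P' → (∀ g ∈ P', x' * g * x'⁻¹ ∈ P') →
      (q = 2 → (∃ n : ℕ, r = 2 ^ n + 1) → ∀ a ∈ P', ∀ b ∈ P', a * b = b * a) →
      ∀ g ∈ P', x' * g * x'⁻¹ = g)
    (x : MulAut U) (hxr : x ^ r = 1) (hr : 0 < r) (hfix : ∀ u : U, x u = u → u = 1)
    (hexp : ∀ u : U, u ^ p = 1)
    (P : Subgroup (MulAut U)) (hP : IsPGroup q P) (hxP : ∀ g ∈ P, x * g * x⁻¹ ∈ P)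
    (hexc : q = 2 → (∃ n : ℕ, r = 2 ^ n + 1) → ∀ a ∈ P, ∀ b ∈ P, a * b = b * a)
    (W : Subgroup U) (hWlt : Nat.card W < Nat.card U)
    (hWP : ∀ g ∈ P, ∀ w ∈ W, g w ∈ W) (hWx : ∀ w ∈ W, x w ∈ W) :
    ∀ g ∈ P, ∀ w ∈ W, (x * g * x⁻¹) w = g w := by
  have hPT : ∀ g ∈ P, g ∈ invStab (G := MulAut U) W := fun g hg =>
    mem_invStab_of W g (hWP g hg) (hWP g⁻¹ (P.inv_mem hg))
  have hxT : x ∈ invStab (G := MulAut U) W := mem_invStab_of_pow x hr hxr W hWx
  let xT : ↥(invStab (G := MulAut U) W) := ⟨x, hxT⟩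
  let P' : Subgroup (MulAut ↥W) :=
    (P.subgroupOf (invStab (G := MulAut U) W)).map (resAut W)
  have hP' : IsPGroup q P' := (hP.comap_subtype).map (resAut W)
  have hkey := ih ↥W hWlt (resAut W xT)
    (by
      rw [← map_pow]
      have : xT ^ r = 1 := Subtype.ext hxr
      rw [this, map_one])
    (by
      intro w hw
      have h1 := congrArg Subtype.val hw
      rw [resAut_apply] at h1
      exact Subtype.ext (hfix _ h1))
    (by
      intro w
      exact Subtype.ext (by rw [Subgroup.coe_pow]; exact hexp _))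
    P' hP'
    (by
      rintro _ ⟨t, ht, rfl⟩
      refine ⟨xT * t * xT⁻¹, ?_, ?_⟩
      · rw [SetLike.mem_coe, Subgroup.mem_subgroupOf] at ht ⊢
        exact hxP _ ht
      · rw [map_mul, map_mul, map_inv])
    (by
      rintro hq2 hF _ ⟨s, hs, rfl⟩ _ ⟨t, ht, rfl⟩
      rw [SetLike.mem_coe, Subgroup.mem_subgroupOf] at hs ht
      rw [← map_mul, ← map_mul]
      congr 1
      exact Subtype.ext (hexc hq2 hF _ hs _ ht))
  intro g hg w hw
  have h1 := hkey (resAut W ⟨g, hPT g hg⟩)
    ⟨⟨g, hPT g hg⟩, Subgroup.mem_subgroupOf.mpr hg, rfl⟩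
  rw [← map_inv, ← map_mul, ← map_mul] at h1
  have h2 := congrArg (fun f : MulAut ↥W => ((f ⟨w, hw⟩ : ↥W) : U)) h1
  exact h2

theorem hh_min_case {U : Type u} [CommGroup U] [Finite U] [Nontrivial U] {p q r : ℕ}
    (hp : p.Prime) (hq : q.Prime) (hr : r.Prime) (hpq : p ≠ q) (hpr : p ≠ r) (hqr : q ≠ r)
    (x : MulAut U) (hxr : x ^ r = 1) (hfix : ∀ u : U, x u = u → u = 1)
    (hexp : ∀ u : U, u ^ p = 1)
    (P : Subgroup (MulAut U)) (hP : IsPGroup q P) (hxP : ∀ g ∈ P, x * g * x⁻¹ ∈ P)
    (hirr : ∀ W : Subgroup U, (∀ g ∈ P, ∀ w ∈ W, g w ∈ W) → (∀ w ∈ W, x w ∈ W) →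
      W = ⊥ ∨ W = ⊤)
    (hmin : ∀ N : Subgroup (MulAut U), N ≤ P → N ≠ P → (∀ g ∈ N, x * g * x⁻¹ ∈ N) →
      ∀ g ∈ N, x * g * x⁻¹ = g)
    (hne : ∃ g ∈ P, x * g * x⁻¹ ≠ g) :
    q = 2 ∧ (∃ n : ℕ, r = 2 ^ n + 1) ∧ ∃ a ∈ P, ∃ b ∈ P, a * b ≠ b * a := by
  classical
  have hfq : Fact q.Prime := ⟨hq⟩
  have hxinv : x⁻¹ = x ^ (r - 1) := inv_eq_pow_of_pow_eq_one x hr.pos hxr
  have hxpowP : ∀ k : ℕ, ∀ g ∈ P, x ^ k * g * (x ^ k)⁻¹ ∈ P := by
    intro k
    induction k with
    | zero => intro g hg; simpa using hg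
    | succ k ih =>
      intro g hg
      have h1 : x ^ (k + 1) * g * (x ^ (k + 1))⁻¹ = x ^ k * (x * g * x⁻¹) * (x ^ k)⁻¹ := by
        rw [pow_succ]; group
      rw [h1]
      exact ih _ (hxP g hg)
  have hxinvP : ∀ g ∈ P, x⁻¹ * g * x ∈ P := by
    intro g hg
    have := hxpowP (r - 1) g hg
    rw [← hxinv, inv_inv] at this
    exact this
  have hnorm : ∀ e ∈ Subgroup.normalizer (P : Set (MulAut U)), ∀ z ∈ P, e * z * e⁻¹ ∈ P :=
    fun e he z hz => (Subgroup.mem_normalizer_iff.mp he z).mp hz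
  have hxN : x ∈ Subgroup.normalizer (P : Set (MulAut U)) := by
    rw [Subgroup.mem_normalizer_iff]
    intro h
    constructor
    · exact hxP h
    · intro hh
      have := hxinvP _ hh
      have h2 : x⁻¹ * (x * h * x⁻¹) * x = h := by group
      rwa [h2] at this
  let α : ↥P ≃* ↥P := Cfsg.Agent.Lib.Helper97.FrobCount.conjOn
    (Subgroup.normalizer (P : Set (MulAut U))) P hnorm ⟨x, hxN⟩
  have hαv : ∀ g : ↥P, ((α g : ↥P) : MulAut U) = x * g * x⁻¹ := fun _ => rfl
  have hαr : α ^ r = 1 := by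
    change (Cfsg.Agent.Lib.Helper97.FrobCount.conjOn _ P hnorm ⟨x, hxN⟩) ^ r = 1
    rw [← map_pow]
    have h1 : (⟨x, hxN⟩ : Subgroup.normalizer (P : Set (MulAut U))) ^ r = 1 := Subtype.ext hxr
    rw [h1, map_one]
  have hPt : IsPGroup q ↥P := hP
  have hmin' : ∀ N : Subgroup ↥P, (∀ g ∈ N, α g ∈ N) → N ≠ ⊤ → ∀ g ∈ N, α g = g := by
    intro N hNinv hNne g hg
    have h1 := hmin (N.map P.subtype) (by
        rintro _ ⟨n, -, rfl⟩
        exact n.2) (by
        intro h
        apply hNne
        rw [eq_top_iff]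
        intro y _
        have h2 : (y : MulAut U) ∈ N.map P.subtype := by rw [h]; exact y.2
        obtain ⟨n, hn, hny⟩ := h2
        have : n = y := Subtype.ext hny
        rw [← this]
        exact hn) (by
        rintro _ ⟨n, hn, rfl⟩
        exact ⟨α n, hNinv n hn, rfl⟩) (g : MulAut U) ⟨g, hg, rfl⟩
    exact Subtype.ext h1
  have hα1 : ∃ g : ↥P, α g ≠ g := by
    obtain ⟨g, hg, hne'⟩ := hne
    exact ⟨⟨g, hg⟩, fun h => hne' (congrArg Subtype.val h)⟩
  obtain ⟨k, hk⟩ := IsPGroup.iff_card.mp hPt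
  by_cases hab : ∀ a b : ↥P, a * b = b * a
  · exfalso
    have hfixP := fix_trivial_of_comm hq hr hqr hPt α hαr hmin' hα1 hab
    have hbot : (⊤ : Subgroup U) = ⊥ := by
      apply fp_lemma (G := MulAut U) (V := U) P x hr hxr hxinvP
      · intro y hy hxy
        have h1 : α ⟨y, hy⟩ = ⟨y, hy⟩ := Subtype.ext (by
          rw [hαv]
          change x * y * x⁻¹ = y
          rw [hxy, mul_inv_cancel_right])
        exact congrArg Subtype.val (hfixP _ h1)
      · intro y _ w _; trivial
      · intro w _; trivial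
      · intro w _ hw
        rw [hk] at hw
        have h3 : orderOf w ∣ p := orderOf_dvd_of_pow_eq_one (hexp w)
        have h4 : orderOf w ∣ q ^ k := orderOf_dvd_of_pow_eq_one hw
        have h5 : orderOf w ∣ Nat.gcd p (q ^ k) := Nat.dvd_gcd h3 h4
        have h6 : Nat.gcd p (q ^ k) = 1 :=
          Nat.Coprime.pow_right k ((Nat.coprime_primes hp hq).mpr hpq)
        rw [h6] at h5
        exact orderOf_eq_one_iff.mp (Nat.dvd_one.mp h5)
      · intro w _ hw
        let C : Subgroup U :=
          { carrier := {w | ∀ y ∈ P, y w = w}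
            one_mem' := fun y _ => map_one y
            mul_mem' := fun {a b} ha hb y hy => by rw [map_mul, ha y hy, hb y hy]
            inv_mem' := fun {a} ha y hy => by rw [map_inv, ha y hy] }
        rcases hirr C (by
            intro g hg w' hw' y hy
            have h1 : g⁻¹ * y * g ∈ P := P.mul_mem (P.mul_mem (P.inv_mem hg) hy) hg
            have h2 := hw' _ h1
            have h3 : y (g w') = g ((g⁻¹ * y * g) w') := by
              simp [MulAut.mul_apply]
            rw [h3, h2]) (by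
            intro w' hw' y hy
            have h1 : x⁻¹ * y * x ∈ P := hxinvP y hy
            have h2 := hw' _ h1
            have h3 : y (x w') = x ((x⁻¹ * y * x) w') := by
              simp [MulAut.mul_apply]
            rw [h3, h2]) with hC | hC
        · have h1 : w ∈ C := fun y hy => hw y hy
          rw [hC] at h1
          exact Subgroup.mem_bot.mp h1
        · exfalso
          obtain ⟨g, hg, hne'⟩ := hne
          apply hne'
          have h1 : ∀ y ∈ P, y = 1 := by
            intro y hy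
            ext u
            have : u ∈ C := by rw [hC]; trivial
            exact this y hy
          rw [h1 g hg, mul_one, mul_inv_cancel]
      · intro w _ hw
        exact hfix w hw
    obtain ⟨u, hu⟩ := exists_ne (1 : U)
    apply hu
    have h1 : u ∈ (⊤ : Subgroup U) := trivial
    rw [hbot] at h1
    exact Subgroup.mem_bot.mp h1
  · push Not at hab
    obtain ⟨a, b, hab⟩ := hab
    obtain ⟨hcomm, hαZ, hαfpf, hZexp⟩ :=
      min_structure_nonab hq hr hqr hPt α hαr hmin' hα1 ⟨a, b, hab⟩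
    have hQcop : ¬ p ∣ Nat.card ↥P := by
      intro h
      rw [hk] at h
      exact hpq ((Nat.prime_dvd_prime_iff_eq hp hq).mp (hp.dvd_of_dvd_pow h))
    obtain ⟨hcyc, hbound⟩ := hh_mul_irr (H := MulAut U) (V := U) (Qg := ↥P) P.subtype x α
      (fun g => rfl) hp hr hpr hQcop hcomm hαr hαfpf hαZ hxr hexp
      (by
        intro z _ hz
        apply Subtype.ext
        ext u
        exact hz u)
      hfix
      (by
        intro W h1 h2
        exact hirr W (fun g hg w hw => h1 ⟨g, hg⟩ w hw) h2)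
    -- the centre has order q
    have hZcard : Nat.card (Subgroup.center ↥P) = q := by
      obtain ⟨z₀, hz₀⟩ := hcyc.exists_generator
      have h1 : orderOf z₀ = Nat.card (Subgroup.center ↥P) :=
        orderOf_eq_card_of_forall_mem_zpowers hz₀
      have h2 : z₀ ^ q = 1 := Subtype.ext (by
        rw [Subgroup.coe_pow]
        exact hZexp z₀.1 z₀.2)
      have h3 : orderOf z₀ ∣ q := orderOf_dvd_of_pow_eq_one h2
      rcases (Nat.dvd_prime hq).mp h3 with h4 | h4
      · exfalso
        have h5 : ⁅a, b⁆ ∈ Subgroup.center ↥P := hcomm a b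
        have h6 : Nat.card (Subgroup.center ↥P) = 1 := by rw [← h1, h4]
        have h7 : Subsingleton (Subgroup.center ↥P) := (Nat.card_eq_one_iff_unique.mp h6).1
        have h8 : (⟨⁅a, b⁆, h5⟩ : Subgroup.center ↥P) = 1 := Subsingleton.elim _ _
        have h9 : ⁅a, b⁆ = 1 := congrArg Subtype.val h8
        exact hab (commutatorElement_eq_one_iff_commute.mp h9).eq
      · rw [← h1, h4]
    have hc' : ∀ a b : ↥P, a * b * a⁻¹ * b⁻¹ ∈ Subgroup.center ↥P := by
      intro a b
      have := hcomm a b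
      rwa [commutatorElement_def] at this
    obtain ⟨n, hPcard, hn1⟩ := Cfsg.Agent.S0095.key (p := q) (Nat.card ↥P) ↥P rfl hZcard hc'
    have hn1' : 1 ≤ n := hn1 ⟨a, b, hab⟩
    have hquot : Nat.card (↥P ⧸ Subgroup.center ↥P) = q ^ (2 * n) := by
      have h1 := Subgroup.card_eq_card_quotient_mul_card_subgroup (Subgroup.center ↥P)
      rw [hPcard, hZcard, pow_succ] at h1
      exact (Nat.eq_of_mul_eq_mul_right hq.pos h1).symm
    have hdvd := card_sub_one_dvd (quotPerm α) hr (quotPerm_pow_eq_one α hαr) 1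
      (quotPerm_one α) (quotPerm_fix α hαfpf)
    rw [hquot] at hbound hdvd
    have hq2 := hq.two_le
    have hr2 := hr.two_le
    have hqn : 2 ≤ q ^ n := by
      calc 2 ≤ q := hq2
        _ = q ^ 1 := (pow_one q).symm
        _ ≤ q ^ n := Nat.pow_le_pow_right hq.pos hn1'
    have hle : q ^ n ≤ r - 1 := by
      have h1 : (q ^ n) ^ 2 ≤ (r - 1) ^ 2 := by
        rw [← pow_mul, mul_comm]
        exact hbound
      exact (Nat.pow_le_pow_iff_left (by norm_num)).mp h1
    have hfac : q ^ (2 * n) - 1 = (q ^ n - 1) * (q ^ n + 1) := by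
      have h1 : q ^ (2 * n) = q ^ n * q ^ n := by rw [two_mul, pow_add]
      rw [h1]
      obtain ⟨m, hm⟩ : ∃ m, q ^ n = m + 1 := ⟨q ^ n - 1, by omega⟩
      rw [hm]
      simp only [Nat.add_sub_cancel]
      have : (m + 1) * (m + 1) = m * (m + 1 + 1) + 1 := by ring
      rw [this, Nat.add_sub_cancel]
    rw [hfac] at hdvd
    have hreq : r = q ^ n + 1 := by
      rcases (Nat.Prime.dvd_mul hr).mp hdvd with h | h
      · have := Nat.le_of_dvd (by omega) h
        omega
      · have := Nat.le_of_dvd (by omega) h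
        omega
    have hq2' : q = 2 := by
      rcases hq.eq_two_or_odd with h | h
      · exact h
      · exfalso
        have hodd : (q ^ n) % 2 = 1 := by
          rw [Nat.pow_mod, h, one_pow]
          rfl
        rcases hr.eq_two_or_odd with h' | h'
        · omega
        · omega
    exact ⟨hq2', ⟨n, by rw [hreq, hq2']⟩, a.1, a.2, b.1, b.2, fun h => hab (Subtype.ext h)⟩

theorem hh_aut {p q r : ℕ} (hp : p.Prime) (hq : q.Prime) (hr : r.Prime) (hpq : p ≠ q)
    (hpr : p ≠ r) (hqr : q ≠ r) :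
    ∀ (n : ℕ) (U : Type u) [CommGroup U] [Finite U], Nat.card U = n →
    ∀ (x : MulAut U), x ^ r = 1 → (∀ u : U, x u = u → u = 1) → (∀ u : U, u ^ p = 1) →
    ∀ (P : Subgroup (MulAut U)), IsPGroup q P → (∀ g ∈ P, x * g * x⁻¹ ∈ P) →
      (q = 2 → (∃ n : ℕ, r = 2 ^ n + 1) → ∀ a ∈ P, ∀ b ∈ P, a * b = b * a) →
      ∀ g ∈ P, x * g * x⁻¹ = g := by
  have hfp : Fact p.Prime := ⟨hp⟩
  have hfq : Fact q.Prime := ⟨hq⟩
  intro n
  induction n using Nat.strong_induction_on with
  | _ n ihU =>
    intro U _ _ hn x hxr hfix hexp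
    have ihU' : ∀ (U' : Type u) [CommGroup U'] [Finite U'], Nat.card U' < Nat.card U →
        ∀ (x' : MulAut U'), x' ^ r = 1 → (∀ u : U', x' u = u → u = 1) → (∀ u : U', u ^ p = 1) →
        ∀ (P' : Subgroup (MulAut U')), IsPGroup q P' → (∀ g ∈ P', x' * g * x'⁻¹ ∈ P') →
        (q = 2 → (∃ n : ℕ, r = 2 ^ n + 1) → ∀ a ∈ P', ∀ b ∈ P', a * b = b * a) →
        ∀ g ∈ P', x' * g * x'⁻¹ = g :=
      fun U' _ _ hlt => ihU (Nat.card U') (hn ▸ hlt) U' rfl
    have inner : ∀ (m : ℕ) (P : Subgroup (MulAut U)), Nat.card P = m → IsPGroup q P →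
        (∀ g ∈ P, x * g * x⁻¹ ∈ P) →
        (q = 2 → (∃ n : ℕ, r = 2 ^ n + 1) → ∀ a ∈ P, ∀ b ∈ P, a * b = b * a) →
        ∀ g ∈ P, x * g * x⁻¹ = g := by
      intro m
      induction m using Nat.strong_induction_on with
      | _ m ihP =>
        intro P hm hP hxP hexc
        by_contra hcon
        push Not at hcon
        obtain ⟨g₀, hg₀, hne₀⟩ := hcon
        have hnt : Nontrivial U := by
          by_contra h
          rw [not_nontrivial_iff_subsingleton] at h
          apply hne₀
          ext u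
          exact Subsingleton.elim _ _
        by_cases hW : ∃ W : Subgroup U, W ≠ ⊥ ∧ W ≠ ⊤ ∧ (∀ g ∈ P, ∀ w ∈ W, g w ∈ W) ∧
            (∀ w ∈ W, x w ∈ W)
        · obtain ⟨W, hWbot, hWtop, hWP, hWx⟩ := hW
          let Z : Subgroup (MulAut U) := Subgroup.zpowers x
          let S : Subgroup (MulAut U) := P ⊔ Z
          have hxinv : x⁻¹ = x ^ (r - 1) := inv_eq_pow_of_pow_eq_one x hr.pos hxr
          have hxpowP : ∀ k : ℕ, ∀ g ∈ P, x ^ k * g * (x ^ k)⁻¹ ∈ P := by
            intro k
            induction k with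
            | zero => intro g hg; simpa using hg
            | succ k ih =>
              intro g hg
              have h1 : x ^ (k + 1) * g * (x ^ (k + 1))⁻¹ =
                  x ^ k * (x * g * x⁻¹) * (x ^ k)⁻¹ := by
                rw [pow_succ]; group
              rw [h1]
              exact ih _ (hxP g hg)
          have hxinvP : ∀ g ∈ P, x⁻¹ * g * x ∈ P := by
            intro g hg
            have := hxpowP (r - 1) g hg
            rw [← hxinv, inv_inv] at this
            exact this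
          have hZnorm : Z ≤ Subgroup.normalizer (P : Set (MulAut U)) := by
            rw [Subgroup.zpowers_le, Subgroup.mem_normalizer_iff]
            intro h
            constructor
            · exact hxP h
            · intro hh
              have := hxinvP _ hh
              have h2 : x⁻¹ * (x * h * x⁻¹) * x = h := by group
              rwa [h2] at this
          have hcardS : Nat.card S ∣ Nat.card P * Nat.card Z :=
            Dvd.intro _ (Cfsg.Agent.Lib.Helper91.card_sup_mul_card_inf_of_le_normalizer P Z hZnorm)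
          have hcopS : (Nat.card S).Coprime (Nat.card U) := by
            obtain ⟨k, hk⟩ := IsPGroup.iff_card.mp hP
            have hU : IsPGroup p U := fun v => ⟨1, by rw [pow_one]; exact hexp v⟩
            obtain ⟨j, hj⟩ := IsPGroup.iff_card.mp hU
            have hZc : Nat.card Z ∣ r := by
              rw [Nat.card_zpowers]; exact orderOf_dvd_of_pow_eq_one hxr
            rw [hj]
            apply Nat.Coprime.pow_right
            apply Nat.Coprime.coprime_dvd_left hcardS
            rw [hk]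
            apply Nat.Coprime.mul_left
            · exact Nat.Coprime.pow_left k ((Nat.coprime_primes hq hp).mpr (Ne.symm hpq))
            · exact Nat.Coprime.coprime_dvd_left hZc
                ((Nat.coprime_primes hr hp).mpr (Ne.symm hpr))
          have hSle : S ≤ invStab (G := MulAut U) W := by
            apply sup_le
            · intro g hg
              exact mem_invStab_of W g (hWP g hg) (hWP g⁻¹ (P.inv_mem hg))
            · rw [Subgroup.zpowers_le]
              exact mem_invStab_of_pow x hr.pos hxr W hWx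
          have hWS : ∀ a : ↥S, ∀ w ∈ W, a • w ∈ W := by
            intro a w hw
            exact ((hSle a.2) w).mpr hw
          obtain ⟨W', hW'inv, hdisj, hsup⟩ :=
            Cfsg.Agent.Lib.Helper90.maschke_elementary (A := ↥S) hp hexp hcopS W hWS
          have hW'P : ∀ g ∈ P, ∀ w ∈ W', g w ∈ W' := fun g hg w hw =>
            hW'inv ⟨g, Subgroup.mem_sup_left hg⟩ w hw
          have hW'x : ∀ w ∈ W', x w ∈ W' := fun w hw =>
            hW'inv ⟨x, Subgroup.mem_sup_right (Subgroup.mem_zpowers x)⟩ w hw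
          have hlt_of_ne_top : ∀ W₀ : Subgroup U, W₀ ≠ ⊤ → Nat.card W₀ < Nat.card U := by
            intro W₀ h0
            by_contra h
            exact h0 (Subgroup.eq_top_of_card_eq W₀
              (le_antisymm (Subgroup.card_le_card_group W₀) (not_lt.mp h)))
          have hW'top : W' ≠ ⊤ := by
            intro h
            rw [h, inf_top_eq] at hdisj
            exact hWbot hdisj
          have e1 := restrict_step ihU' x hxr hr.pos hfix hexp P hP hxP hexc W
            (hlt_of_ne_top W hWtop) hWP hWx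
          have e2 := restrict_step ihU' x hxr hr.pos hfix hexp P hP hxP hexc W'
            (hlt_of_ne_top W' hW'top) hW'P hW'x
          apply hne₀
          ext u
          have hu : u ∈ W ⊔ W' := by rw [hsup]; trivial
          obtain ⟨w, hw, w', hw', rfl⟩ := Subgroup.mem_sup.mp hu
          rw [map_mul, map_mul, e1 g₀ hg₀ w hw, e2 g₀ hg₀ w' hw']
        · have hirr : ∀ W : Subgroup U, (∀ g ∈ P, ∀ w ∈ W, g w ∈ W) → (∀ w ∈ W, x w ∈ W) →
              W = ⊥ ∨ W = ⊤ := by
            intro W h1 h2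
            by_contra h3
            push Not at h3
            exact hW ⟨W, h3.1, h3.2, h1, h2⟩
          have hmin : ∀ N : Subgroup (MulAut U), N ≤ P → N ≠ P →
              (∀ g ∈ N, x * g * x⁻¹ ∈ N) → ∀ g ∈ N, x * g * x⁻¹ = g := by
            intro N hle hneP hxN
            have hlt : Nat.card N < m := by
              rw [← hm]
              by_contra h
              exact hneP (Subgroup.eq_of_le_of_card_ge hle (not_lt.mp h))
            exact ihP (Nat.card N) hlt N rfl (hP.to_le hle) hxN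
              (fun h2 hF a ha b hb => hexc h2 hF a (hle ha) b (hle hb))
          obtain ⟨hq2, hF, a, ha, b, hb, hab⟩ := hh_min_case hp hq hr hpq hpr hqr x hxr hfix
            hexp P hP hxP hirr hmin ⟨g₀, hg₀, hne₀⟩
          exact hab (hexc hq2 hF a ha b hb)
    intro P hP hxP hexc
    exact inner (Nat.card P) P rfl hP hxP hexc

/-- **Hall–Higman type reduction**, module form. -/
theorem hh_centralize {H : Type*} {V : Type u} [Group H] [CommGroup V] [Finite V]
    [MulDistribMulAction H V]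
    {p q r : ℕ} (hp : p.Prime) (hq : q.Prime) (hr : r.Prime) (hpq : p ≠ q) (hpr : p ≠ r)
    (hqr : q ≠ r)
    (Q : Subgroup H) (hQ : IsPGroup q Q) (x : H) (hxr : x ^ r = 1)
    (hxQ : ∀ g ∈ Q, x * g * x⁻¹ ∈ Q)
    (hexc : q = 2 → (∃ n : ℕ, r = 2 ^ n + 1) → ∀ a ∈ Q, ∀ b ∈ Q, a * b = b * a)
    (hexp : ∀ v : V, v ^ p = 1) (hfix : ∀ v : V, x • v = v → v = 1) :
    ∀ g ∈ Q, ∀ v : V, (x * g * x⁻¹) • v = g • v := by
  let φ : H →* MulAut V := MulDistribMulAction.toMulAut H V
  have key := hh_aut hp hq hr hpq hpr hqr (Nat.card V) V rfl (φ x)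
    (by rw [← map_pow, hxr, map_one]) (fun u hu => hfix u hu) hexp (Q.map φ) (hQ.map φ)
    (by
      rintro _ ⟨g, hg, rfl⟩
      exact ⟨x * g * x⁻¹, hxQ g hg, by rw [map_mul, map_mul, map_inv]⟩)
    (by
      rintro h2 hF _ ⟨a, ha, rfl⟩ _ ⟨b, hb, rfl⟩
      rw [← map_mul, ← map_mul, hexc h2 hF a ha b hb])
  intro g hg v
  have h1 := key (φ g) ⟨g, hg, rfl⟩
  rw [← map_inv, ← map_mul, ← map_mul] at h1
  have h2 := congrArg (fun f : MulAut V => f v) h1
  exact h2

end Cfsg.Agent.Lib.Helper97.HH
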