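-- The Hall–Higman reduction applied to a normal `s`-subgroup `L`: a `t`-group `T` normalized by
-- an element `x` of prime order `r` acting fixed point freely on `L` has `[T, x] ≤ C(L)`.
import Mathlib
import Cfsg.Agent.S0029
import Cfsg.Agent.Lib.Helper1.BurnsideBasis
import Cfsg.Agent.Lib.Helper97.SectMod
import Cfsg.Agent.Lib.Helper97.HHRed

set_option autoImplicit false

namespace Cfsg.Agent.Lib.Helper97.HH

open Cfsg.Agent.Lib.Helper97.SectMod

universe u

theorem frat_le_frattini {X : Type*} [Group X] [Finite X] {s : ℕ} [Fact s.Prime]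
    (L : Subgroup X) (hL : IsPGroup s L) : frat s L ≤ (frattini ↥L).map L.subtype := by
  unfold frat
  apply sup_le
  · rw [← Subgroup.map_subtype_commutator]
    exact Subgroup.map_mono (Cfsg.Agent.Lib.Helper1.commutator_le_frattini_of_pGroup s hL)
  · rw [Subgroup.closure_le]
    rintro _ ⟨x, hx, rfl⟩
    exact ⟨(⟨x, hx⟩ : ↥L) ^ s, Cfsg.Agent.Lib.Helper1.pow_mem_frattini_of_pGroup s hL _, rfl⟩

theorem section_step {X : Type u} [Group X] [Finite X] (L : Subgroup X) [hLn : L.Normal]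
    {s t r : ℕ} (hs : s.Prime) (ht : t.Prime) (hr : r.Prime) (hst : s ≠ t) (hsr : s ≠ r)
    (htr : t ≠ r) (ht2 : t ≠ 2) (hL : IsPGroup s L) (hLsolv : Group.IsSolvable L)
    (T : Subgroup X) (hT : IsPGroup t T) (x : X) (hxr : x ^ r = 1)
    (hxT : ∀ g ∈ T, x * g * x⁻¹ ∈ T)
    (hfix : ∀ y ∈ L, x * y = y * x → y = 1) :
    ∀ g ∈ T, g⁻¹ * (x * g * x⁻¹) ∈ Subgroup.centralizer (L : Set X) := by
  classical
  have hfs : Fact s.Prime := ⟨hs⟩
  have hft : Fact t.Prime := ⟨ht⟩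
  have hNL : frat s L ≤ L := frat_le s L
  have hGL : (⊤ : Subgroup X) ≤ Subgroup.normalizer (L : Set X) := by
    rw [Subgroup.normalizer_eq_top_iff.mpr hLn]
  have hGN : (⊤ : Subgroup X) ≤ Subgroup.normalizer (frat s L : Set X) :=
    hGL.trans (normalizer_le_normalizer_frat s L)
  have hLN : L ≤ Subgroup.normalizer (frat s L : Set X) := le_top.trans hGN
  haveI hNn : ((frat s L).subgroupOf L).Normal :=
    (Subgroup.normal_subgroupOf_iff_le_normalizer hNL).mpr hLN
  letI act : MulDistribMulAction ↥(⊤ : Subgroup X) (↥L ⧸ (frat s L).subgroupOf L) :=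
    sectAct ⊤ L (frat s L) hGL hGN
  letI cg : CommGroup (↥L ⧸ (frat s L).subgroupOf L) :=
    { (inferInstance : Group (↥L ⧸ (frat s L).subgroupOf L)) with
      mul_comm := section_comm L (frat s L) (comm_le_frat s L) }
  let x' : ↥(⊤ : Subgroup X) := ⟨x, trivial⟩
  have hxr' : x' ^ r = 1 := Subtype.ext (by rw [Subgroup.coe_pow]; exact hxr)
  have hexp : ∀ v : ↥L ⧸ (frat s L).subgroupOf L, v ^ s = 1 :=
    section_exp L (frat s L) s (fun y hy => pow_mem_frat s L y hy)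
  obtain ⟨k, hk⟩ := IsPGroup.iff_card.mp hL
  have hcop : (Nat.card (Subgroup.zpowers x)).Coprime (Nat.card L) := by
    rw [hk, Nat.card_zpowers]
    apply Nat.Coprime.pow_right
    exact Nat.Coprime.coprime_dvd_left (orderOf_dvd_of_pow_eq_one hxr)
      ((Nat.coprime_primes hr hs).mpr (Ne.symm hsr))
  have hpowfix : ∀ (a : ↥(⊤ : Subgroup X)) (v : ↥L ⧸ (frat s L).subgroupOf L),
      a • v = v → ∀ n : ℕ, (a ^ n) • v = v := by
    intro a v hv n
    induction n with
    | zero => rw [pow_zero, one_smul]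
    | succ n ih => rw [pow_succ, mul_smul, hv, ih]
  have hfixSec : ∀ v : ↥L ⧸ (frat s L).subgroupOf L, x' • v = v → v = 1 := by
    intro v hv
    obtain ⟨c, hc, hvc⟩ := fixed_section_lift ⊤ L (frat s L) (Subgroup.zpowers x) hNL hLN hGL hGN
      le_top hcop (Or.inr hLsolv) v (by
        intro a ha
        obtain ⟨n, hn⟩ := mem_powers_iff_mem_zpowers.mpr ha
        have h1 : a = x' ^ n := Subtype.ext (by rw [Subgroup.coe_pow]; exact hn.symm)
        rw [h1]
        exact hpowfix x' v hv n)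
    have h2 : x * (c : X) = (c : X) * x :=
      Subgroup.mem_centralizer_iff.mp hc x (Subgroup.mem_zpowers x)
    have h3 : (c : X) = 1 := hfix _ c.2 h2
    have h4 : c = 1 := Subtype.ext h3
    rw [hvc, h4]
    rfl
  have hc := hh_centralize (H := ↥(⊤ : Subgroup X)) (V := ↥L ⧸ (frat s L).subgroupOf L)
    hs ht hr hst hsr htr (T.subgroupOf ⊤) hT.comap_subtype x' hxr'
    (by
      intro g hg
      rw [Subgroup.mem_subgroupOf] at hg ⊢
      exact hxT _ hg)
    (fun h => absurd h ht2) hexp hfixSec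
  intro g hg
  let g' : ↥(⊤ : Subgroup X) := ⟨g, trivial⟩
  have hg' : g' ∈ T.subgroupOf ⊤ := Subgroup.mem_subgroupOf.mpr hg
  have htriv : ∀ v : ↥L ⧸ (frat s L).subgroupOf L, (g'⁻¹ * (x' * g' * x'⁻¹)) • v = v := by
    intro v
    rw [mul_smul, hc g' hg' v, inv_smul_smul]
  have hcT : g⁻¹ * (x * g * x⁻¹) ∈ T := T.mul_mem (T.inv_mem hg) (hxT g hg)
  have hA : Subgroup.zpowers (g⁻¹ * (x * g * x⁻¹)) ≤ Subgroup.normalizer (L : Set X) :=
    le_top.trans hGL
  have hcopA : (Nat.card (Subgroup.zpowers (g⁻¹ * (x * g * x⁻¹)))).Coprime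
      (Nat.card (frattini ↥L)) := by
    obtain ⟨j, hj⟩ := hT ⟨_, hcT⟩
    have hj' : (g⁻¹ * (x * g * x⁻¹)) ^ t ^ j = 1 := by
      have := congrArg Subtype.val hj
      rwa [Subgroup.coe_pow] at this
    rw [Nat.card_zpowers]
    apply Nat.Coprime.coprime_dvd_left (orderOf_dvd_of_pow_eq_one hj')
    apply Nat.Coprime.coprime_dvd_right (Subgroup.card_subgroup_dvd_card (frattini ↥L))
    rw [hk]
    exact Nat.Coprime.pow _ _ ((Nat.coprime_primes ht hs).mpr (Ne.symm hst))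
  have htrivA : ∀ a ∈ Subgroup.zpowers (g⁻¹ * (x * g * x⁻¹)), ∀ y ∈ L,
      a * y * a⁻¹ * y⁻¹ ∈ (frattini ↥L).map L.subtype := by
    intro a ha y hy
    obtain ⟨n, hn⟩ := mem_powers_iff_mem_zpowers.mpr ha
    have h1 := comm_mem_of_trivial ⊤ L (frat s L) hLN hGL hGN ((g'⁻¹ * (x' * g' * x'⁻¹)) ^ n)
      (fun v => hpowfix _ v (htriv v) n) y hy
    have h2 : (((g'⁻¹ * (x' * g' * x'⁻¹)) ^ n : ↥(⊤ : Subgroup X)) : X) = a := by
      rw [Subgroup.coe_pow]
      exact hn
    rw [h2] at h1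
    exact frat_le_frattini L hL h1
  exact Cfsg.Agent.S0029.result (Subgroup.zpowers (g⁻¹ * (x * g * x⁻¹))) L hA hcopA htrivA
    (Subgroup.mem_zpowers _)

end Cfsg.Agent.Lib.Helper97.HH
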