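-- Invariant Sylow subgroups under a coprime `r`-group of operators, and generation by Sylow
-- subgroups.
import Mathlib
import Cfsg.Agent.Lib.Helper97.SectMod

set_option autoImplicit false

namespace Cfsg.Agent.Lib.Helper97.HH

open scoped Pointwise

/-- An `r`-group `R` normalizing `K` with `r ∤ |K|` normalizes some Sylow `q`-subgroup of `K`. -/
theorem exists_invariant_sylow {X : Type*} [Group X] [Finite X] (K R : Subgroup X)
    (hRK : R ≤ Subgroup.normalizer (K : Set X)) {r q : ℕ} [Fact r.Prime] [Fact q.Prime]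
    (hR : IsPGroup r R) (hcop : ¬ r ∣ Nat.card K) :
    ∃ Q : Subgroup X, Q ≤ K ∧ IsPGroup q Q ∧ (∀ y ∈ R, ∀ g ∈ Q, y * g * y⁻¹ ∈ Q) ∧
      ¬ q ∣ Q.relIndex K := by
  classical
  letI act : MulDistribMulAction ↥R ↥K := Cfsg.Agent.Lib.Helper97.SectMod.conjAct R K hRK
  have hact : ∀ (y : ↥R) (g : ↥K), ((y • g : ↥K) : X) = (y : X) * g * (y : X)⁻¹ := fun _ _ => rfl
  have hcard : ¬ r ∣ Nat.card (Sylow q ↥K) := by
    intro h
    obtain P₀ : Sylow q ↥K := default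
    exact hcop ((h.trans P₀.card_dvd_index).trans (Subgroup.index_dvd_card _))
  obtain ⟨Q₀, hQ₀⟩ := hR.nonempty_fixed_point_of_prime_not_dvd_card (Sylow q ↥K) hcard
  have hfixed : ∀ y : ↥R, y • (Q₀ : Subgroup ↥K) = (Q₀ : Subgroup ↥K) := by
    intro y
    have h1 : y • Q₀ = Q₀ := hQ₀ y
    exact congrArg (fun S : Sylow q ↥K => (S : Subgroup ↥K)) h1
  refine ⟨(Q₀ : Subgroup ↥K).map K.subtype, ?_, Q₀.2.map _, ?_, ?_⟩
  · rintro _ ⟨g, -, rfl⟩
    exact g.2
  · rintro y hy _ ⟨g, hg, rfl⟩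
    have h1 : (⟨y, hy⟩ : ↥R) • g ∈ (⟨y, hy⟩ : ↥R) • (Q₀ : Subgroup ↥K) :=
      Subgroup.smul_mem_pointwise_smul g _ _ hg
    rw [hfixed] at h1
    exact ⟨_, h1, rfl⟩
  · have h1 : ((Q₀ : Subgroup ↥K).map K.subtype).relIndex K = (Q₀ : Subgroup ↥K).index := by
      unfold Subgroup.relIndex Subgroup.subgroupOf
      rw [Subgroup.comap_map_eq_self_of_injective K.subtype_injective]
    rw [h1]
    exact Q₀.not_dvd_index

/-- A subgroup `M` containing, for every prime `q`, a subgroup of `K` of index prime to `q`,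
contains `K`. -/
theorem le_of_forall_prime_sylow {X : Type*} [Group X] [Finite X] (K M : Subgroup X)
    (h : ∀ q : ℕ, q.Prime → ∃ Q : Subgroup X, Q ≤ K ∧ Q ≤ M ∧ ¬ q ∣ Q.relIndex K) :
    K ≤ M := by
  rw [← Subgroup.relIndex_eq_one]
  by_contra hne
  obtain ⟨q, hq, hdvd⟩ := Nat.exists_prime_and_dvd hne
  obtain ⟨Q, hQK, hQM, hnd⟩ := h q hq
  apply hnd
  have h1 := Subgroup.relIndex_mul_relIndex Q (K ⊓ M) K (le_inf hQK hQM) inf_le_left
  rw [Subgroup.inf_relIndex_left] at h1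
  rw [← h1]
  exact Dvd.dvd.mul_left hdvd _

end Cfsg.Agent.Lib.Helper97.HH
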