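-- TEAM PROJECT S1444 (B-G Theorem 3.6), package P5 (`LemmaFpf`, B-G Theorem 3.4 in internal form).
import Mathlib
import Cfsg.Agent.Lib.Helper23.BG36.Defs
import Cfsg.Agent.Lib.Helper97.HHSect
import Cfsg.Agent.Lib.Helper97.HHSylow

set_option autoImplicit false

namespace Cfsg.Agent.Lib.Helper97.BG36

universe u

/-- Conjugating an element of the centralizer of `V` by an element normalizing `V`. -/
theorem conj_mem_centralizer_of_mem_normalizer {X : Type*} [Group X] (V : Subgroup X) {h c : X}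
    (hh : h ∈ Subgroup.normalizer (V : Set X)) (hc : c ∈ Subgroup.centralizer (V : Set X)) :
    h * c * h⁻¹ ∈ Subgroup.centralizer (V : Set X) := by
  rw [Subgroup.mem_centralizer_iff] at hc ⊢
  intro v hv
  have h1 : h⁻¹ * v * h ∈ V := by
    have h2 := (Subgroup.mem_normalizer_iff'' (H := V)).mp hh v
    exact h2.mp hv
  have h3 := hc _ h1
  calc v * (h * c * h⁻¹) = h * ((h⁻¹ * v * h) * c) * h⁻¹ := by group
    _ = h * (c * (h⁻¹ * v * h)) * h⁻¹ := by rw [h3]
    _ = h * c * h⁻¹ * v := by group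

/-- The subgroup of `Q` of the elements `g` with `g⁻¹ * (a * g * a⁻¹) ∈ C(V)`. -/
def fixMod {X : Type*} [Group X] (V Q : Subgroup X) (a : X)
    (hQV : Q ≤ Subgroup.normalizer (V : Set X)) (haV : a ∈ Subgroup.normalizer (V : Set X))
    (haQ : a ∈ Subgroup.normalizer (Q : Set X)) : Subgroup X where
  carrier := {g | g ∈ Q ∧ g⁻¹ * (a * g * a⁻¹) ∈ Subgroup.centralizer (V : Set X)}
  one_mem' := ⟨Q.one_mem, by simp⟩
  mul_mem' := by
    rintro g h ⟨hg, hg'⟩ ⟨hh, hh'⟩
    refine ⟨Q.mul_mem hg hh, ?_⟩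
    have h1 : (g * h)⁻¹ * (a * (g * h) * a⁻¹) =
        (h⁻¹ * (g⁻¹ * (a * g * a⁻¹)) * h⁻¹⁻¹) * (h⁻¹ * (a * h * a⁻¹)) := by group
    rw [h1]
    exact Subgroup.mul_mem _
      (conj_mem_centralizer_of_mem_normalizer V (Subgroup.inv_mem _ (hQV hh)) hg') hh'
  inv_mem' := by
    rintro g ⟨hg, hg'⟩
    refine ⟨Q.inv_mem hg, ?_⟩
    have h1 : g⁻¹⁻¹ * (a * g⁻¹ * a⁻¹) = (g * (g⁻¹ * (a * g * a⁻¹)) * g⁻¹)⁻¹ := by group
    rw [h1]
    exact Subgroup.inv_mem _ (conj_mem_centralizer_of_mem_normalizer V (hQV hg) hg')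

theorem lemmaFpf : Cfsg.Agent.Lib.Helper23.BG36.LemmaFpf.{u} := by
  intro X _ _ p r hp hr hpr V Q a hV hQV haV haQ har hQs hQodd hQp hQr hfix
  classical
  have hfp : Fact p.Prime := ⟨hp⟩
  have hfr : Fact r.Prime := ⟨hr⟩
  -- the ambient group: the normalizer of `V`
  let Y : Subgroup X := Subgroup.normalizer (V : Set X)
  have hVY : V ≤ Y := Subgroup.le_normalizer
  let L : Subgroup ↥Y := V.subgroupOf Y
  haveI hLn : L.Normal := by
    refine ⟨fun n hn g => ?_⟩
    rw [Subgroup.mem_subgroupOf] at hn ⊢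
    have h2 := (Subgroup.mem_normalizer_iff (H := V)).mp g.2 (n : X)
    exact h2.mp hn
  have hLp : IsPGroup p L := hV.comap_subtype
  have hLsolv : Group.IsSolvable L := by
    haveI := hLp.isNilpotent
    infer_instance
  let x : ↥Y := ⟨a, haV⟩
  have hxr : x ^ r = 1 := Subtype.ext (by rw [Subgroup.coe_pow]; exact har)
  have hfixL : ∀ y ∈ L, x * y = y * x → y = 1 := by
    intro y hy hxy
    have h1 := hfix (y : X) (Subgroup.mem_subgroupOf.mp hy) (congrArg Subtype.val hxy)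
    exact Subtype.ext h1
  -- the cyclic group generated by `a`
  have hRp : IsPGroup r (Subgroup.zpowers a) := by
    have h1 : Nat.card (Subgroup.zpowers a) ∣ r := by
      rw [Nat.card_zpowers]
      exact orderOf_dvd_of_pow_eq_one har
    rcases (Nat.dvd_prime hr).mp h1 with h2 | h2
    · exact IsPGroup.of_card (n := 0) (by rw [h2, pow_zero])
    · exact IsPGroup.of_card (n := 1) (by rw [h2, pow_one])
  have hRQ : Subgroup.zpowers a ≤ Subgroup.normalizer (Q : Set X) := by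
    rw [Subgroup.zpowers_le]
    exact haQ
  have hrQ : ¬ r ∣ Nat.card Q := by
    intro hdvd
    have h1 : r ∣ Nat.gcd (Nat.card Q) r := Nat.dvd_gcd hdvd dvd_rfl
    rw [hQr] at h1
    exact hr.one_lt.ne' (Nat.dvd_one.mp h1)
  have hpQ : ¬ p ∣ Nat.card Q := by
    intro hdvd
    have h1 : p ∣ Nat.gcd (Nat.card Q) p := Nat.dvd_gcd hdvd dvd_rfl
    rw [hQp] at h1
    exact hp.one_lt.ne' (Nat.dvd_one.mp h1)
  have h2Q : ¬ 2 ∣ Nat.card Q := by
    intro hdvd
    exact (Nat.not_even_iff_odd.mpr hQodd) (even_iff_two_dvd.mpr hdvd)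
  -- all of `Q` lies in `fixMod`
  have hle : Q ≤ fixMod V Q a hQV haV haQ := by
    apply Cfsg.Agent.Lib.Helper97.HH.le_of_forall_prime_sylow
    intro t ht
    by_cases htQ : t ∣ Nat.card Q
    · have hft : Fact t.Prime := ⟨ht⟩
      have htp : t ≠ p := fun h => hpQ (h ▸ htQ)
      have htr : t ≠ r := fun h => hrQ (h ▸ htQ)
      have ht2 : t ≠ 2 := fun h => h2Q (h ▸ htQ)
      obtain ⟨T, hTQ, hTt, hTinv, hTidx⟩ :=
        Cfsg.Agent.Lib.Helper97.HH.exists_invariant_sylow (q := t) Q (Subgroup.zpowers a) hRQ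
          hRp hrQ
      refine ⟨T, hTQ, ?_, hTidx⟩
      have hTY : T ≤ Y := hTQ.trans hQV
      have hTt' : IsPGroup t (T.subgroupOf Y) := hTt.comap_subtype
      have hxT : ∀ g ∈ T.subgroupOf Y, x * g * x⁻¹ ∈ T.subgroupOf Y := by
        intro g hg
        rw [Subgroup.mem_subgroupOf] at hg ⊢
        exact hTinv a (Subgroup.mem_zpowers a) (g : X) hg
      have key := Cfsg.Agent.Lib.Helper97.HH.section_step L hp ht hr (Ne.symm htp) hpr htr ht2
        hLp hLsolv (T.subgroupOf Y) hTt' x hxr hxT hfixL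
      intro g hg
      refine ⟨hTQ hg, ?_⟩
      have h1 := key ⟨g, hTY hg⟩ (Subgroup.mem_subgroupOf.mpr hg)
      rw [Subgroup.mem_centralizer_iff] at h1 ⊢
      intro v hv
      have h2 := h1 ⟨v, hVY hv⟩ (Subgroup.mem_subgroupOf.mpr hv)
      exact congrArg Subtype.val h2
    · refine ⟨⊥, bot_le, bot_le, ?_⟩
      rw [Subgroup.relIndex_bot_left]
      exact htQ
  intro g hg v hv
  have h1 := (hle hg).2
  have h2 : a * g * a⁻¹ * g⁻¹ = g * (g⁻¹ * (a * g * a⁻¹)) * g⁻¹ := by group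
  have h3 : a * g * a⁻¹ * g⁻¹ ∈ Subgroup.centralizer (V : Set X) := by
    rw [h2]
    exact conj_mem_centralizer_of_mem_normalizer V (hQV hg) h1
  exact ((Subgroup.mem_centralizer_iff.mp h3) v hv).symm

end Cfsg.Agent.Lib.Helper97.BG36
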