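-- A Cauchy-Schwarz bound for the centralizer of a semisimple operator over a finite field:
-- if `g(ξ) = 0` with `g` squarefree, then `(dim M)^2 ≤ deg g * dim C(ξ)`.
import Mathlib

set_option autoImplicit false

universe u v

namespace Cfsg.Agent.Lib.Helper97.HH

open Polynomial Module

theorem cs_arith (δ n₁ N₂ s c₂ : ℕ) (h : N₂ * N₂ ≤ s * c₂) :
    (δ * n₁ + N₂) * (δ * n₁ + N₂) ≤ (δ + s) * (δ * (n₁ * n₁) + c₂) := by
  have key : 2 * n₁ * N₂ ≤ c₂ + s * (n₁ * n₁) := by
    by_contra hcon
    push Not at hcon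
    have h1 : (c₂ + s * (n₁ * n₁)) * (c₂ + s * (n₁ * n₁)) < (2 * n₁ * N₂) * (2 * n₁ * N₂) :=
      Nat.mul_lt_mul'' hcon hcon
    have h2 : (2 * n₁ * N₂) * (2 * n₁ * N₂) ≤ 4 * (n₁ * n₁) * (s * c₂) := by
      have := Nat.mul_le_mul_left (4 * (n₁ * n₁)) h
      calc (2 * n₁ * N₂) * (2 * n₁ * N₂) = 4 * (n₁ * n₁) * (N₂ * N₂) := by ring
        _ ≤ 4 * (n₁ * n₁) * (s * c₂) := this
    have h3 : 4 * (n₁ * n₁) * (s * c₂) ≤ (c₂ + s * (n₁ * n₁)) * (c₂ + s * (n₁ * n₁)) := by
      zify
      nlinarith [sq_nonneg ((c₂ : ℤ) - s * (n₁ * n₁))]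
    omega
  have h4 := Nat.mul_le_mul_left δ key
  nlinarith [h4, h]

section
variable {K : Type u} [Field K]

theorem aeval_restrict_apply {M : Type v} [AddCommGroup M] [Module K M] (ξ : Module.End K M)
    (p : Submodule K M) (h : ∀ x ∈ p, ξ x ∈ p) (P : K[X]) :
    ∀ x : p, ((aeval (ξ.restrict h) P x : p) : M) = aeval ξ P (x : M) := by
  induction P using Polynomial.induction_on with
  | C a =>
    intro x
    simp
  | add f g hf hg =>
    intro x
    rw [map_add, map_add, LinearMap.add_apply, LinearMap.add_apply, Submodule.coe_add, hf, hg]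
  | monomial n a ih =>
    intro x
    have e1 : (C a : K[X]) * X ^ (n + 1) = (C a * X ^ n) * X := by rw [pow_succ, mul_assoc]
    have e2 : aeval (ξ.restrict h) ((C a : K[X]) * X ^ (n + 1)) =
        aeval (ξ.restrict h) (C a * X ^ n) * (ξ.restrict h) := by
      rw [e1, map_mul, aeval_X]
    have e3 : aeval ξ ((C a : K[X]) * X ^ (n + 1)) = aeval ξ (C a * X ^ n) * ξ := by
      rw [e1, map_mul, aeval_X]
    rw [e2, e3, Module.End.mul_apply, Module.End.mul_apply, ih]
    rfl

theorem centralizer_bound_irreducible {M : Type v} [AddCommGroup M] [Module K M] [Finite M]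
    (ξ : Module.End K M) (f : K[X]) (hf : Irreducible f) (hξ : aeval ξ f = 0) :
    ∃ n : ℕ, Nat.card M = Nat.card K ^ (f.natDegree * n) ∧
      Nat.card K ^ (f.natDegree * (n * n)) ≤
        Nat.card {T : Module.End K M // T * ξ = ξ * T} := by
  classical
  haveI : Fact (Irreducible f) := ⟨hf⟩
  let φ : AdjoinRoot f →+* Module.End K M :=
    Ideal.Quotient.lift (Ideal.span {f}) (aeval ξ : K[X] →ₐ[K] Module.End K M).toRingHom (by
      intro a ha
      obtain ⟨b, rfl⟩ := Ideal.mem_span_singleton.mp ha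
      change aeval ξ (f * b) = 0
      rw [map_mul, hξ, zero_mul])
  have hφmk : ∀ P : K[X], φ (AdjoinRoot.mk f P) = aeval ξ P := fun P => rfl
  letI modL : Module (AdjoinRoot f) M := Module.compHom M φ
  have hsmul : ∀ (a : AdjoinRoot f) (m : M), a • m = φ a m := fun _ _ => rfl
  have hof : ∀ (c : K) (m : M), (AdjoinRoot.of f c) • m = c • m := by
    intro c m
    have h1 : AdjoinRoot.of f c = AdjoinRoot.mk f (C c) := rfl
    rw [hsmul, h1, hφmk, aeval_C]
    rfl
  have hroot : ∀ m : M, (AdjoinRoot.root f) • m = ξ m := by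
    intro m
    have h1 : AdjoinRoot.root f = AdjoinRoot.mk f X := rfl
    rw [hsmul, h1, hφmk, aeval_X]
  have hcardL : Nat.card (AdjoinRoot f) = Nat.card K ^ f.natDegree := by
    have h1 : Module.finrank K (AdjoinRoot f) = f.natDegree := by
      rw [PowerBasis.finrank (AdjoinRoot.powerBasis hf.ne_zero), AdjoinRoot.powerBasis_dim]
    haveI : Module.Finite K (AdjoinRoot f) := PowerBasis.finite (AdjoinRoot.powerBasis hf.ne_zero)
    rw [Module.natCard_eq_pow_finrank (K := K) (V := AdjoinRoot f), h1]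
  have hfinM : Module.Finite (AdjoinRoot f) M := Module.Finite.of_finite
  have hfinE : Finite (Module.End K M) :=
    Finite.of_injective (fun f : Module.End K M => (f : M → M)) DFunLike.coe_injective
  refine ⟨Module.finrank (AdjoinRoot f) M, ?_, ?_⟩
  · rw [Module.natCard_eq_pow_finrank (K := AdjoinRoot f) (V := M), hcardL, pow_mul]
  · let Ψ : (M →ₗ[AdjoinRoot f] M) → {T : Module.End K M // T * ξ = ξ * T} := fun S =>
      ⟨{ toFun := S
         map_add' := S.map_add
         map_smul' := fun c m => by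
           rw [RingHom.id_apply, ← hof, S.map_smul, hof] },
       by
         apply LinearMap.ext
         intro m
         change S (ξ m) = ξ (S m)
         rw [← hroot, S.map_smul, hroot]⟩
    have hΨinj : Function.Injective Ψ := by
      intro S S' h
      apply LinearMap.ext
      intro m
      have := congrArg (fun T : {T : Module.End K M // T * ξ = ξ * T} => T.1 m) h
      exact this
    have h1 := Nat.card_le_card_of_injective Ψ hΨinj
    have h2 : Nat.card (M →ₗ[AdjoinRoot f] M) = Nat.card K ^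
        (f.natDegree * (Module.finrank (AdjoinRoot f) M * Module.finrank (AdjoinRoot f) M)) := by
      rw [Module.natCard_eq_pow_finrank (K := AdjoinRoot f) (V := M →ₗ[AdjoinRoot f] M),
        Module.finrank_linearMap, hcardL, ← pow_mul]
    rw [← h2]
    exact h1

theorem centralizer_bound_aux [Finite K] : ∀ (n : ℕ) (M : Type v) [AddCommGroup M] [Module K M]
    [Finite M] (ξ : Module.End K M) (g : K[X]), g.natDegree = n → Squarefree g →
    aeval ξ g = 0 →
    ∃ N c : ℕ, Nat.card M = Nat.card K ^ N ∧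
      Nat.card K ^ c ≤ Nat.card {T : Module.End K M // T * ξ = ξ * T} ∧ N * N ≤ n * c := by
  intro n
  induction n using Nat.strong_induction_on with
  | _ n ih =>
    intro M _ _ _ ξ g hdeg hsq hξ
    classical
    have hfinE : Finite (Module.End K M) :=
      Finite.of_injective (fun f : Module.End K M => (f : M → M)) DFunLike.coe_injective
    by_cases hsub : Subsingleton M
    · refine ⟨0, 0, ?_, ?_, by simp⟩
      · rw [pow_zero]
        exact Nat.card_eq_one_iff_unique.mpr ⟨hsub, ⟨0⟩⟩
      · rw [pow_zero]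
        haveI : Nonempty {T : Module.End K M // T * ξ = ξ * T} := ⟨⟨0, by simp⟩⟩
        exact Nat.card_pos
    · rw [not_subsingleton_iff_nontrivial] at hsub
      have hg0 : g ≠ 0 := hsq.ne_zero
      have hgu : ¬ IsUnit g := by
        intro hu
        have h1 : IsUnit (aeval ξ g) := hu.map (aeval ξ)
        rw [hξ, isUnit_zero_iff] at h1
        obtain ⟨m, hm⟩ := exists_ne (0 : M)
        apply hm
        have h2 := congrArg (fun T : Module.End K M => T m) h1
        simpa using h2.symm
      obtain ⟨f, hfirr, g₁, rfl⟩ := WfDvdMonoid.exists_irreducible_factor hgu hg0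
      have hf0 : f ≠ 0 := hfirr.ne_zero
      have hg₁0 : g₁ ≠ 0 := right_ne_zero_of_mul hg0
      have hnd : ¬ f ∣ g₁ := by
        intro hd
        exact hfirr.not_isUnit (hsq f (mul_dvd_mul_left f hd))
      have hcop : IsCoprime f g₁ := (Irreducible.coprime_iff_not_dvd hfirr).mpr hnd
      have hdeg' : f.natDegree + g₁.natDegree = n := by
        rw [← hdeg, Polynomial.natDegree_mul hf0 hg₁0]
      have hδ : 0 < f.natDegree := Irreducible.natDegree_pos hfirr
      have hsq₁ : Squarefree g₁ := hsq.of_mul_right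
      have hc : ∀ P : K[X], aeval ξ P * ξ = ξ * aeval ξ P := by
        intro P
        have h1 : aeval ξ (P * X) = aeval ξ (X * P) := by rw [mul_comm]
        rwa [map_mul, map_mul, aeval_X] at h1
      have hker : ∀ P : K[X], ∀ x ∈ LinearMap.ker (aeval ξ P), ξ x ∈ LinearMap.ker (aeval ξ P) := by
        intro P x hx
        rw [LinearMap.mem_ker] at hx ⊢
        have h1 : aeval ξ P (ξ x) = (aeval ξ P * ξ) x := rfl
        rw [h1, hc]
        change ξ (aeval ξ P x) = 0
        rw [hx, map_zero]
      set M₁ := LinearMap.ker (aeval ξ f) with hM₁def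
      set M₂ := LinearMap.ker (aeval ξ g₁) with hM₂def
      have hcompl : IsCompl M₁ M₂ := by
        refine ⟨disjoint_ker_aeval_of_isCoprime ξ hcop, ?_⟩
        rw [codisjoint_iff, hM₁def, hM₂def, sup_ker_aeval_eq_ker_aeval_mul_of_coprime ξ hcop, hξ]
        exact LinearMap.ker_zero
      let ξ₁ : Module.End K M₁ := ξ.restrict (hker f)
      let ξ₂ : Module.End K M₂ := ξ.restrict (hker g₁)
      have hξ₁ : aeval ξ₁ f = 0 := by
        apply LinearMap.ext
        intro x
        apply Subtype.ext
        rw [aeval_restrict_apply ξ M₁ (hker f) f x]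
        exact LinearMap.mem_ker.mp x.2
      have hξ₂ : aeval ξ₂ g₁ = 0 := by
        apply LinearMap.ext
        intro x
        apply Subtype.ext
        rw [aeval_restrict_apply ξ M₂ (hker g₁) g₁ x]
        exact LinearMap.mem_ker.mp x.2
      obtain ⟨n₁, hcM₁, hC₁⟩ := centralizer_bound_irreducible ξ₁ f hfirr hξ₁
      obtain ⟨N₂, c₂, hcM₂, hC₂, hNc₂⟩ := ih g₁.natDegree (by omega) ↥M₂ ξ₂ g₁ rfl hsq₁ hξ₂
      let e : (M₁ × M₂) ≃ₗ[K] M := Submodule.prodEquivOfIsCompl M₁ M₂ hcompl
      have he : ∀ x : M₁ × M₂, e x = (x.1 : M) + (x.2 : M) := fun x => rfl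
      let E : Module.End K (M₁ × M₂) ≃+* Module.End K M := LinearEquiv.conjRingEquiv e
      have hE : ∀ (P : Module.End K (M₁ × M₂)) (m : M), E P m = e (P (e.symm m)) := fun _ _ => rfl
      have hξe : E (ξ₁.prodMap ξ₂) = ξ := by
        apply LinearMap.ext
        intro m
        obtain ⟨x, rfl⟩ := e.surjective m
        rw [hE, LinearEquiv.symm_apply_apply, he, he, map_add]
        rfl
      let Θ : {T : Module.End K M₁ // T * ξ₁ = ξ₁ * T} × {T : Module.End K M₂ // T * ξ₂ = ξ₂ * T} →
          {T : Module.End K M // T * ξ = ξ * T} := fun T =>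
        ⟨E (T.1.1.prodMap T.2.1), by
          have h1 : (T.1.1.prodMap T.2.1) * (ξ₁.prodMap ξ₂) =
              (ξ₁.prodMap ξ₂) * (T.1.1.prodMap T.2.1) := by
            rw [LinearMap.prodMap_mul, LinearMap.prodMap_mul, T.1.2, T.2.2]
          calc E (T.1.1.prodMap T.2.1) * ξ
              = E (T.1.1.prodMap T.2.1) * E (ξ₁.prodMap ξ₂) := by rw [hξe]
            _ = E ((T.1.1.prodMap T.2.1) * (ξ₁.prodMap ξ₂)) := (map_mul E _ _).symm
            _ = E ((ξ₁.prodMap ξ₂) * (T.1.1.prodMap T.2.1)) := by rw [h1]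
            _ = E (ξ₁.prodMap ξ₂) * E (T.1.1.prodMap T.2.1) := map_mul E _ _
            _ = ξ * E (T.1.1.prodMap T.2.1) := by rw [hξe]⟩
      have hΘinj : Function.Injective Θ := by
        rintro ⟨T₁, T₂⟩ ⟨T₁', T₂'⟩ h
        have h1 : E (T₁.1.prodMap T₂.1) = E (T₁'.1.prodMap T₂'.1) :=
          congrArg Subtype.val h
        have h2 : T₁.1.prodMap T₂.1 = T₁'.1.prodMap T₂'.1 := E.injective h1
        have h3 : T₁ = T₁' := by
          apply Subtype.ext
          apply LinearMap.ext
          intro x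
          have := congrArg (fun P : Module.End K (M₁ × M₂) => (P (x, 0)).1) h2
          simpa using this
        have h4 : T₂ = T₂' := by
          apply Subtype.ext
          apply LinearMap.ext
          intro x
          have := congrArg (fun P : Module.End K (M₁ × M₂) => (P (0, x)).2) h2
          simpa using this
        rw [h3, h4]
      have hfinE₁ : Finite (Module.End K M₁) :=
        Finite.of_injective (fun f : Module.End K M₁ => (f : M₁ → M₁)) DFunLike.coe_injective
      have hfinE₂ : Finite (Module.End K M₂) :=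
        Finite.of_injective (fun f : Module.End K M₂ => (f : M₂ → M₂)) DFunLike.coe_injective
      have hcardΘ := Nat.card_le_card_of_injective Θ hΘinj
      rw [Nat.card_prod] at hcardΘ
      have hcardM : Nat.card M = Nat.card M₁ * Nat.card M₂ := by
        rw [← Nat.card_prod]
        exact (Nat.card_congr e.toEquiv).symm
      refine ⟨f.natDegree * n₁ + N₂, f.natDegree * (n₁ * n₁) + c₂, ?_, ?_, ?_⟩
      · rw [hcardM, hcM₁, hcM₂, pow_add]
      · rw [pow_add]
        exact (Nat.mul_le_mul hC₁ hC₂).trans hcardΘ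
      · rw [← hdeg']
        exact cs_arith _ _ _ _ _ hNc₂

theorem centralizer_bound [Finite K] {M : Type v} [AddCommGroup M] [Module K M] [Finite M]
    (ξ : Module.End K M) (g : K[X]) (hsq : Squarefree g) (hξ : aeval ξ g = 0) :
    ∃ N c : ℕ, Nat.card M = Nat.card K ^ N ∧
      Nat.card K ^ c ≤ Nat.card {T : Module.End K M // T * ξ = ξ * T} ∧
      N * N ≤ g.natDegree * c :=
  centralizer_bound_aux g.natDegree M ξ g rfl hsq hξ

end

end Cfsg.Agent.Lib.Helper97.HH
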