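import Mathlib
import Cfsg.Prelude.Def_GeometricClasses
import Cfsg.Agent.Lib.Helper97.Clifford

set_option autoImplicit false

namespace Cfsg.Agent.Lib.Helper97

open scoped commutatorElement

section FixedSpace

variable {F : Type*} [Field F] {n : ℕ}

/-- The action of invertible matrices on column vectors, as a monoid hom into endomorphisms. -/
def glEnd (n : ℕ) (F : Type*) [Field F] :
    Matrix.GeneralLinearGroup (Fin n) F →* Module.End F (Fin n → F) where
  toFun h := Matrix.toLin' (h : Matrix (Fin n) (Fin n) F)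
  map_one' := by
    rw [Units.val_one, Matrix.toLin'_one]
    rfl
  map_mul' a b := by
    rw [Units.val_mul, Matrix.toLin'_mul]
    rfl

theorem glEnd_apply (h : Matrix.GeneralLinearGroup (Fin n) F) :
    glEnd n F h = Matrix.toLin' (h : Matrix (Fin n) (Fin n) F) := rfl

theorem glEnd_injective : Function.Injective (glEnd n F) := by
  intro a b hab
  apply Units.ext
  exact Matrix.toLin'.injective hab

/-- The fixed space of an invertible matrix. -/
def fixSp (g : Matrix.GeneralLinearGroup (Fin n) F) : Submodule F (Fin n → F) :=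
  Module.End.eigenspace (Matrix.toLin' (g : Matrix (Fin n) (Fin n) F)) 1

theorem mem_fixSp {g : Matrix.GeneralLinearGroup (Fin n) F} {v : Fin n → F} :
    v ∈ fixSp g ↔ glEnd n F g v = v := by
  unfold fixSp
  rw [Module.End.mem_eigenspace_iff, one_smul]
  rfl

theorem fixSp_eq_ker (g : Matrix.GeneralLinearGroup (Fin n) F) :
    fixSp g = LinearMap.ker (glEnd n F g - 1) := by
  ext v
  rw [mem_fixSp, LinearMap.mem_ker]
  have : (glEnd n F g - 1) v = glEnd n F g v - v := rfl
  rw [this, sub_eq_zero]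

theorem fixSp_inf_map_le (a b : Matrix.GeneralLinearGroup (Fin n) F) :
    fixSp a ⊓ (fixSp a).map (glEnd n F b) ≤ fixSp ⁅b, a⁆ := by
  intro v hv
  obtain ⟨hv1, hv2⟩ := Submodule.mem_inf.1 hv
  obtain ⟨w, hw, rfl⟩ := Submodule.mem_map.1 hv2
  rw [mem_fixSp] at hv1 hw ⊢
  have h1 : glEnd n F a⁻¹ (glEnd n F b w) = glEnd n F b w := by
    have := congrArg (glEnd n F a⁻¹) hv1
    rw [rho_inv_apply] at this
    exact this.symm
  have h2 : glEnd n F ⁅b, a⁆ (glEnd n F b w) =
      glEnd n F b (glEnd n F a (glEnd n F b⁻¹ (glEnd n F a⁻¹ (glEnd n F b w)))) := by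
    rw [commutatorElement_def, map_mul, map_mul, map_mul]
    rfl
  rw [h2, h1, rho_inv_apply, hw]

theorem two_finrank_fixSp_le (a b : Matrix.GeneralLinearGroup (Fin n) F) :
    2 * Module.finrank F (fixSp a) ≤ n + Module.finrank F (fixSp ⁅b, a⁆) := by
  have h1 := Submodule.finrank_sup_add_finrank_inf_eq (fixSp a) ((fixSp a).map (glEnd n F b))
  have h2 : Module.finrank F ((fixSp a).map (glEnd n F b)) = Module.finrank F (fixSp a) :=
    (Submodule.equivMapOfInjective (glEnd n F b) (rho_injective (glEnd n F) b)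
      (fixSp a)).finrank_eq.symm
  have h3 : Module.finrank F (fixSp a ⊔ (fixSp a).map (glEnd n F b) : Submodule F (Fin n → F)) ≤ n := by
    have := Submodule.finrank_le (fixSp a ⊔ (fixSp a).map (glEnd n F b))
    rwa [Module.finrank_fin_fun] at this
  have h4 := Submodule.finrank_mono (fixSp_inf_map_le a b)
  omega

end FixedSpace

section Fpf

variable {F : Type*} [Field F] [Fintype F] {n : ℕ}

/-- In an irreducible primitive linear group, a non-identity element of an abelian normal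
subgroup has no non-zero fixed vector. -/
theorem fixSp_eq_bot_of_abelian_normal (G : Subgroup (Matrix.GeneralLinearGroup (Fin n) F))
    (hirr : Cfsg.Geo.ActsIrreducibly (Cfsg.Geo.matrixSet G))
    (hprim : ∀ (m t : ℕ) (D : Fin t → Submodule F (Fin n → F)), 2 ≤ t →
      Cfsg.Geo.IsMDecomposition m D → ¬ G ≤ Cfsg.Geo.decompositionStabilizer D)
    (N : Subgroup (Matrix.GeneralLinearGroup (Fin n) F))
    (hNab : ∀ x ∈ N, ∀ y ∈ N, x * y = y * x)
    (hNn : ∀ h ∈ G, ∀ x ∈ N, h * x * h⁻¹ ∈ N)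
    {a : Matrix.GeneralLinearGroup (Fin n) F} (ha : a ∈ N) (ha1 : a ≠ 1) : fixSp a = ⊥ := by
  let ρ : G →* Module.End F (Fin n → F) := (glEnd n F).comp G.subtype
  let gens : Set (Module.End F (Fin n → F)) :=
    (glEnd n F) '' (N : Set (Matrix.GeneralLinearGroup (Fin n) F))
  let E : Subalgebra F (Module.End F (Fin n → F)) := Algebra.adjoin F gens
  have hgen : ∀ x ∈ gens, ∀ y ∈ gens, x * y = y * x := by
    rintro _ ⟨x, hx, rfl⟩ _ ⟨y, hy, rfl⟩
    rw [← map_mul, ← map_mul, hNab x hx y hy]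
  have hc : ∀ e₁ ∈ E, ∀ e₂ ∈ E, e₁ * e₂ = e₂ * e₁ := by
    intro e₁ he₁ e₂ he₂
    have h1 : ∀ y ∈ gens, Commute e₁ y := by
      intro y hy
      exact (Algebra.commute_of_mem_adjoin_of_forall_mem_commute he₁
        (fun x hx => (hgen y hy x hx))).symm
    exact Algebra.commute_of_mem_adjoin_of_forall_mem_commute he₂ h1
  have hE : ∀ h : G, ∀ e ∈ E, ρ h * e * ρ h⁻¹ ∈ E := by
    intro h e he
    induction he using Algebra.adjoin_induction with
    | mem x hx =>
      obtain ⟨x, hx, rfl⟩ := hx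
      apply Algebra.subset_adjoin
      refine ⟨(h : Matrix.GeneralLinearGroup (Fin n) F) * x *
        (h : Matrix.GeneralLinearGroup (Fin n) F)⁻¹, hNn h h.2 x hx, ?_⟩
      rw [map_mul, map_mul]
      rfl
    | algebraMap r =>
      have h1 : ρ h * algebraMap F _ r * ρ h⁻¹ = algebraMap F _ r := by
        rw [← Algebra.commutes, mul_assoc, rho_mul_inv, mul_one]
      rw [h1]
      exact Subalgebra.algebraMap_mem _ r
    | add x y _ _ hx hy =>
      have h1 : ρ h * (x + y) * ρ h⁻¹ = ρ h * x * ρ h⁻¹ + ρ h * y * ρ h⁻¹ := by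
        rw [mul_add, add_mul]
      rw [h1]
      exact Subalgebra.add_mem _ hx hy
    | mul x y _ _ hx hy =>
      have h1 : ρ h * (x * y) * ρ h⁻¹ = (ρ h * x * ρ h⁻¹) * (ρ h * y * ρ h⁻¹) := by
        have h2 : (ρ h * x * ρ h⁻¹) * (ρ h * y * ρ h⁻¹) =
            ρ h * x * (ρ h⁻¹ * ρ h) * y * ρ h⁻¹ := by
          simp only [mul_assoc]
        rw [h2, rho_inv_mul, mul_one, mul_assoc (ρ h) x y]
      rw [h1]
      exact Subalgebra.mul_mem _ hx hy
  have hirr' : ∀ W : Submodule F (Fin n → F), (∀ h : G, W.map (ρ h) ≤ W) → W = ⊥ ∨ W = ⊤ := by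
    intro W hW
    apply hirr W
    rintro s ⟨g, hg, rfl⟩
    exact hW ⟨g, hg⟩
  have hprim' : ∀ (t : ℕ) (D : Fin t → Submodule F (Fin n → F)), 2 ≤ t → iSupIndep D →
      iSup D = ⊤ → (∀ i, 0 < Module.finrank F (D i)) →
      (∀ i j, Module.finrank F (D i) = Module.finrank F (D j)) →
      ¬ ∀ h : G, ∃ σ : Equiv.Perm (Fin t), ∀ i, (D i).map (ρ h) = D (σ i) := by
    intro t D h2 hind hsup hpos heq hperm
    have i0 : Fin t := ⟨0, by omega⟩
    refine hprim (Module.finrank F (D i0)) t D h2 ⟨h2, hpos i0, fun i => heq i i0, hind, hsup⟩ ?_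
    intro g hg
    exact hperm ⟨g, hg⟩
  have he : glEnd n F a - 1 ∈ E := E.sub_mem (Algebra.subset_adjoin ⟨a, ha, rfl⟩) E.one_mem
  have hne : glEnd n F a - 1 ≠ 0 := by
    intro h
    apply ha1
    apply glEnd_injective
    rw [map_one]
    exact sub_eq_zero.1 h
  rw [fixSp_eq_ker]
  exact clifford_comm ρ E hc hE hirr' hprim' he hne

end Fpf

end Cfsg.Agent.Lib.Helper97
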