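import Mathlib
import Cfsg.Agent.Lib.Helper97.FixedSpace

set_option autoImplicit false

namespace Cfsg.Agent.Lib.Helper97

open scoped commutatorElement

section Indep

variable {F : Type*} [Field F] {M : Type*} [AddCommGroup M] [Module F M] [FiniteDimensional F M]

theorem sum_finrank_eq_of_indep {ι : Type*} (V : ι → Submodule F M) (hV : iSupIndep V)
    (s : Finset ι) : ∑ i ∈ s, Module.finrank F (V i) = Module.finrank F (s.sup V : Submodule F M) := by
  classical
  induction s using Finset.induction_on with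
  | empty =>
    rw [Finset.sum_empty, Finset.sup_empty, finrank_bot]
  | insert a s ha ih =>
    rw [Finset.sum_insert ha, Finset.sup_insert, ih]
    have hdis : Disjoint (V a) (s.sup V) := by
      rw [Finset.sup_eq_iSup]
      exact hV.disjoint_biSup (y := (s : Set ι)) (by simpa using ha)
    have h1 := Submodule.finrank_sup_add_finrank_inf_eq (V a) (s.sup V)
    rw [disjoint_iff.1 hdis, finrank_bot, add_zero] at h1
    exact h1.symm

theorem sum_finrank_le_of_indep {ι : Type*} (V : ι → Submodule F M) (hV : iSupIndep V)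
    (U : Submodule F M) (hU : ∀ i, V i ≤ U) (s : Finset ι) :
    ∑ i ∈ s, Module.finrank F (V i) ≤ Module.finrank F U := by
  rw [sum_finrank_eq_of_indep V hV s]
  exact Submodule.finrank_mono (Finset.sup_le (fun i _ => hU i))

end Indep

section EigSpace

variable {F : Type*} [Field F] {n : ℕ}

/-- The eigenspace of an invertible matrix. -/
def eigSp (h : Matrix.GeneralLinearGroup (Fin n) F) (c : F) : Submodule F (Fin n → F) :=
  Module.End.eigenspace (Matrix.toLin' (h : Matrix (Fin n) (Fin n) F)) c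

theorem mem_eigSp {h : Matrix.GeneralLinearGroup (Fin n) F} {c : F} {v : Fin n → F} :
    v ∈ eigSp h c ↔ glEnd n F h v = c • v := by
  unfold eigSp
  rw [Module.End.mem_eigenspace_iff]
  rfl

theorem eigSp_one_eq_fixSp (h : Matrix.GeneralLinearGroup (Fin n) F) : eigSp h 1 = fixSp h := rfl

theorem eigSp_iSupIndep (h : Matrix.GeneralLinearGroup (Fin n) F) :
    iSupIndep (fun c : F => eigSp h c) :=
  Module.End.eigenspaces_iSupIndep (Matrix.toLin' (h : Matrix (Fin n) (Fin n) F))

theorem sum_finrank_eigSp_le (h : Matrix.GeneralLinearGroup (Fin n) F) (s : Finset F) :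
    ∑ c ∈ s, Module.finrank F (eigSp h c) ≤ n := by
  have := sum_finrank_le_of_indep (fun c : F => eigSp h c) (eigSp_iSupIndep h) ⊤
    (fun _ => le_top) s
  rwa [finrank_top, Module.finrank_fin_fun] at this

theorem sum_finrank_inf_eigSp_le (h : Matrix.GeneralLinearGroup (Fin n) F)
    (U : Submodule F (Fin n → F)) (s : Finset F) :
    ∑ c ∈ s, Module.finrank F (U ⊓ eigSp h c : Submodule F (Fin n → F)) ≤ Module.finrank F U :=
  sum_finrank_le_of_indep (fun c : F => U ⊓ eigSp h c)
    ((eigSp_iSupIndep h).mono (fun _ => inf_le_right)) U (fun _ => inf_le_left) s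

theorem eigSp_zero (h : Matrix.GeneralLinearGroup (Fin n) F) : eigSp h 0 = ⊥ := by
  rw [Submodule.eq_bot_iff]
  intro v hv
  rw [mem_eigSp, zero_smul] at hv
  have := congrArg (glEnd n F h⁻¹) hv
  rwa [rho_inv_apply, map_zero] at this

theorem eigSp_map (u h : Matrix.GeneralLinearGroup (Fin n) F) (c : F) :
    (eigSp h c).map (glEnd n F u) = eigSp (u * h * u⁻¹) c := by
  ext v
  constructor
  · rintro ⟨w, hw, rfl⟩
    have hw' := mem_eigSp.1 hw
    rw [mem_eigSp]
    have h1 : glEnd n F (u * h * u⁻¹) (glEnd n F u w) =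
        glEnd n F u (glEnd n F h (glEnd n F u⁻¹ (glEnd n F u w))) := by
      rw [map_mul, map_mul]
      rfl
    rw [h1, rho_inv_apply, hw', map_smul]
  · intro hv
    rw [mem_eigSp] at hv
    refine ⟨glEnd n F u⁻¹ v, ?_, rho_apply_inv _ u v⟩
    show glEnd n F u⁻¹ v ∈ eigSp h c
    rw [mem_eigSp]
    have h1 : glEnd n F (u * h * u⁻¹) v = glEnd n F u (glEnd n F h (glEnd n F u⁻¹ v)) := by
      rw [map_mul, map_mul]
      rfl
    rw [h1] at hv
    have h2 := congrArg (glEnd n F u⁻¹) hv
    rwa [rho_inv_apply, map_smul] at h2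

theorem finrank_eigSp_conj (u h : Matrix.GeneralLinearGroup (Fin n) F) (c : F) :
    Module.finrank F (eigSp (u * h * u⁻¹) c) = Module.finrank F (eigSp h c) := by
  rw [← eigSp_map]
  exact (Submodule.equivMapOfInjective (glEnd n F u) (rho_injective (glEnd n F) u)
    (eigSp h c)).finrank_eq.symm

/-- `z` is the scalar matrix `ζ • 1`. -/
def IsScal (z : Matrix.GeneralLinearGroup (Fin n) F) (ζ : F) : Prop :=
  (z : Matrix (Fin n) (Fin n) F) = ζ • (1 : Matrix (Fin n) (Fin n) F)

theorem IsScal.apply {z : Matrix.GeneralLinearGroup (Fin n) F} {ζ : F} (hz : IsScal z ζ)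
    (v : Fin n → F) : glEnd n F z v = ζ • v := by
  rw [glEnd_apply, hz, Matrix.toLin'_apply, Matrix.smul_mulVec, Matrix.one_mulVec]

theorem eigSp_scal_mul {z : Matrix.GeneralLinearGroup (Fin n) F} {ζ : F} (hz : IsScal z ζ)
    (hζ : ζ ≠ 0) (h : Matrix.GeneralLinearGroup (Fin n) F) (c : F) :
    eigSp (z * h) c = eigSp h (ζ⁻¹ * c) := by
  ext v
  rw [mem_eigSp, mem_eigSp]
  have h1 : glEnd n F (z * h) v = ζ • glEnd n F h v := by
    rw [map_mul]
    exact hz.apply _
  rw [h1]
  constructor
  · intro hv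
    have := congrArg (fun w => ζ⁻¹ • w) hv
    simp only [smul_smul, inv_mul_cancel₀ hζ, one_smul] at this
    exact this
  · intro hv
    rw [hv, smul_smul, mul_inv_cancel_left₀ hζ]

end EigSpace

end Cfsg.Agent.Lib.Helper97
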