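import Mathlib
import Cfsg.Agent.Lib.Helper97.EigSpace

set_option autoImplicit false

namespace Cfsg.Agent.Lib.Helper97

open scoped commutatorElement

section EigBounds

variable {F : Type*} [Field F] {n : ℕ}

theorem glEnd_pow_apply_of_mem {h : Matrix.GeneralLinearGroup (Fin n) F} {c : F}
    {v : Fin n → F} (hv : v ∈ eigSp h c) (k : ℕ) : glEnd n F (h ^ k) v = c ^ k • v := by
  induction k with
  | zero => simp
  | succ k ih =>
    rw [pow_succ, map_mul, Module.End.mul_apply, mem_eigSp.1 hv, map_smul, ih, smul_smul,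
      pow_succ']

theorem glEnd_inv_apply_of_mem {h : Matrix.GeneralLinearGroup (Fin n) F} {c : F} (hc : c ≠ 0)
    {v : Fin n → F} (hv : v ∈ eigSp h c) : glEnd n F h⁻¹ v = c⁻¹ • v := by
  have h1 := congrArg (glEnd n F h⁻¹) (mem_eigSp.1 hv)
  rw [rho_inv_apply, map_smul] at h1
  calc glEnd n F h⁻¹ v = c⁻¹ • (c • glEnd n F h⁻¹ v) := by
        rw [smul_smul, inv_mul_cancel₀ hc, one_smul]
    _ = c⁻¹ • v := by rw [← h1]

theorem IsScal.comm {z : Matrix.GeneralLinearGroup (Fin n) F} {ζ : F} (hz : IsScal z ζ)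
    (h : Matrix.GeneralLinearGroup (Fin n) F) : h * z = z * h := by
  apply Units.ext
  rw [Units.val_mul, Units.val_mul, hz, Matrix.mul_smul, Matrix.mul_one, Matrix.smul_mul,
    Matrix.one_mul]

theorem IsScal.one : IsScal (1 : Matrix.GeneralLinearGroup (Fin n) F) (1 : F) := by
  unfold IsScal
  rw [one_smul]
  rfl

theorem IsScal.pow {z : Matrix.GeneralLinearGroup (Fin n) F} {ζ : F} (hz : IsScal z ζ) (k : ℕ) :
    IsScal (z ^ k) (ζ ^ k) := by
  induction k with
  | zero =>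
    rw [pow_zero, pow_zero]
    exact IsScal.one
  | succ k ih =>
    unfold IsScal at *
    rw [pow_succ, Units.val_mul, ih, hz, Matrix.smul_mul, Matrix.one_mul, smul_smul, pow_succ]

theorem IsScal.eq_of_pos (hn : 0 < n) {z : Matrix.GeneralLinearGroup (Fin n) F} {ζ ζ' : F}
    (h1 : IsScal z ζ) (h2 : IsScal z ζ') : ζ = ζ' := by
  unfold IsScal at h1 h2
  have h3 := congrFun (congrFun (h1.symm.trans h2) ⟨0, hn⟩) ⟨0, hn⟩
  simpa using h3

theorem IsScal.ne_zero (hn : 0 < n) {z : Matrix.GeneralLinearGroup (Fin n) F} {ζ : F}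
    (hz : IsScal z ζ) : ζ ≠ 0 := by
  rintro rfl
  unfold IsScal at hz
  rw [zero_smul] at hz
  have h1 : (z : Matrix (Fin n) (Fin n) F) * ((z⁻¹ : Matrix.GeneralLinearGroup (Fin n) F) :
      Matrix (Fin n) (Fin n) F) = 1 := by
    rw [← Units.val_mul, mul_inv_cancel]
    rfl
  rw [hz, Matrix.zero_mul] at h1
  have h3 := congrFun (congrFun h1 ⟨0, hn⟩) ⟨0, hn⟩
  simp at h3

theorem IsScal.eq_one_of_one {z : Matrix.GeneralLinearGroup (Fin n) F}
    (hz : IsScal z 1) : z = 1 := by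
  apply Units.ext
  unfold IsScal at hz
  rw [hz, one_smul]
  rfl

theorem IsScal.pow_eq_one (hn : 0 < n) {z : Matrix.GeneralLinearGroup (Fin n) F} {ζ : F}
    (hz : IsScal z ζ) {k : ℕ} (hk : z ^ k = 1) : ζ ^ k = 1 := by
  have h1 := hz.pow k
  rw [hk] at h1
  exact IsScal.eq_of_pos hn h1 IsScal.one

theorem fixSp_scal_eq_bot {z : Matrix.GeneralLinearGroup (Fin n) F} {ζ : F} (hz : IsScal z ζ)
    (hζ : ζ ≠ 1) : fixSp z = ⊥ := by
  rw [Submodule.eq_bot_iff]
  intro v hv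
  rw [mem_fixSp, hz.apply] at hv
  have h1 : (ζ - 1) • v = 0 := by rw [sub_smul, one_smul, hv, sub_self]
  rcases smul_eq_zero.1 h1 with h | h
  · exact absurd (sub_eq_zero.1 h) hζ
  · exact h

/-! ### Conjugation to a scalar multiple -/

theorem finrank_eigSp_scal_conj {u h z : Matrix.GeneralLinearGroup (Fin n) F} {ζ : F}
    (hz : IsScal z ζ) (hζ : ζ ≠ 0) (hconj : u * h * u⁻¹ = z * h) (c : F) :
    Module.finrank F (eigSp h (ζ⁻¹ * c)) = Module.finrank F (eigSp h c) := by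
  rw [← eigSp_scal_mul hz hζ, ← hconj, finrank_eigSp_conj]

theorem finrank_eigSp_scal_conj_pow {u h z : Matrix.GeneralLinearGroup (Fin n) F} {ζ : F}
    (hz : IsScal z ζ) (hζ : ζ ≠ 0) (hconj : u * h * u⁻¹ = z * h) (c : F) (i : ℕ) :
    Module.finrank F (eigSp h (ζ⁻¹ ^ i * c)) = Module.finrank F (eigSp h c) := by
  induction i with
  | zero => rw [pow_zero, one_mul]
  | succ i ih =>
    rw [pow_succ', mul_assoc, finrank_eigSp_scal_conj hz hζ hconj, ih]

theorem scal_conj_bound {u h z : Matrix.GeneralLinearGroup (Fin n) F} {ζ : F}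
    (hz : IsScal z ζ) (hζ : ζ ≠ 0) (hconj : u * h * u⁻¹ = z * h) {c : F} (hc : c ≠ 0) (q : ℕ)
    (hinj : ∀ i < q, ∀ j < q, ζ ^ i = ζ ^ j → i = j) :
    q * Module.finrank F (eigSp h c) ≤ n := by
  classical
  have h1 : ∑ i ∈ Finset.range q, Module.finrank F (eigSp h (ζ⁻¹ ^ i * c)) =
      q * Module.finrank F (eigSp h c) := by
    rw [Finset.sum_congr rfl (fun i _ => finrank_eigSp_scal_conj_pow hz hζ hconj c i),
      Finset.sum_const, Finset.card_range, smul_eq_mul]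
  have hinj' : Set.InjOn (fun i : ℕ => ζ⁻¹ ^ i * c) (Finset.range q) := by
    intro i hi j hj hij
    have h2 : ζ⁻¹ ^ i = ζ⁻¹ ^ j := mul_right_cancel₀ hc hij
    rw [inv_pow, inv_pow, inv_inj] at h2
    exact hinj i (Finset.mem_range.1 hi) j (Finset.mem_range.1 hj) h2
  have h2 := sum_finrank_eigSp_le h ((Finset.range q).image (fun i : ℕ => ζ⁻¹ ^ i * c))
  rw [Finset.sum_image hinj'] at h2
  rw [← h1]
  exact h2

theorem scal_conj_bound_two {u h z : Matrix.GeneralLinearGroup (Fin n) F} {ζ : F}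
    (hz : IsScal z ζ) (hζ : ζ ≠ 0) (hζ1 : ζ ≠ 1) (hconj : u * h * u⁻¹ = z * h) {c : F}
    (hc : c ≠ 0) : 2 * Module.finrank F (eigSp h c) ≤ n := by
  apply scal_conj_bound hz hζ hconj hc 2
  intro i hi j hj hij
  interval_cases i <;> interval_cases j
  · rfl
  · rw [pow_zero, pow_one] at hij
    exact absurd hij.symm hζ1
  · rw [pow_zero, pow_one] at hij
    exact absurd hij hζ1
  · rfl

theorem scal_conj_bound_prime {u h z : Matrix.GeneralLinearGroup (Fin n) F} {ζ : F} {r : ℕ}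
    (hr : r.Prime) (hz : IsScal z ζ) (hζr : ζ ^ r = 1) (hζ1 : ζ ≠ 1)
    (hconj : u * h * u⁻¹ = z * h) {c : F} (hc : c ≠ 0) :
    r * Module.finrank F (eigSp h c) ≤ n := by
  have := Fact.mk hr
  have hζ : ζ ≠ 0 := by
    rintro rfl
    rw [zero_pow hr.ne_zero] at hζr
    exact zero_ne_one hζr
  have hord : orderOf ζ = r := orderOf_eq_prime hζr hζ1
  have hprim : IsPrimitiveRoot ζ r := hord ▸ IsPrimitiveRoot.orderOf ζ
  apply scal_conj_bound hz hζ hconj hc r
  intro i hi j hj hij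
  exact hprim.pow_inj hi hj hij

/-! ### Intersection with a translate -/

theorem two_finrank_le_add_inf (U : Submodule F (Fin n → F))
    (x : Matrix.GeneralLinearGroup (Fin n) F) :
    2 * Module.finrank F U ≤
      n + Module.finrank F (U ⊓ U.map (glEnd n F x) : Submodule F (Fin n → F)) := by
  have h1 := Submodule.finrank_sup_add_finrank_inf_eq U (U.map (glEnd n F x))
  have h2 : Module.finrank F (U.map (glEnd n F x)) = Module.finrank F U :=
    (Submodule.equivMapOfInjective (glEnd n F x) (rho_injective (glEnd n F) x) U).finrank_eq.symm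
  have h3 : Module.finrank F (U ⊔ U.map (glEnd n F x) : Submodule F (Fin n → F)) ≤ n := by
    have := Submodule.finrank_le (U ⊔ U.map (glEnd n F x))
    rwa [Module.finrank_fin_fun] at this
  omega

theorem eigSp_inf_map_le_fixSp (a b : Matrix.GeneralLinearGroup (Fin n) F) {c : F} (hc : c ≠ 0) :
    eigSp a c ⊓ (eigSp a c).map (glEnd n F b) ≤ fixSp ⁅b, a⁆ := by
  intro v hv
  obtain ⟨hv1, hv2⟩ := Submodule.mem_inf.1 hv
  obtain ⟨w, hw, rfl⟩ := Submodule.mem_map.1 hv2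
  rw [mem_fixSp]
  have h2 : glEnd n F ⁅b, a⁆ (glEnd n F b w) =
      glEnd n F b (glEnd n F a (glEnd n F b⁻¹ (glEnd n F a⁻¹ (glEnd n F b w)))) := by
    rw [commutatorElement_def, map_mul, map_mul, map_mul]
    rfl
  rw [h2, glEnd_inv_apply_of_mem hc hv1, map_smul, rho_inv_apply, map_smul, mem_eigSp.1 hw,
    map_smul, map_smul, smul_smul, inv_mul_cancel₀ hc, one_smul]

theorem fix_of_mem_inf_map {g x : Matrix.GeneralLinearGroup (Fin n) F} {c : F} (hc : c ≠ 0)
    {v : Fin n → F} (hv : v ∈ eigSp g c ⊓ (eigSp g c).map (glEnd n F x)) (j : ℕ) :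
    glEnd n F (g ^ j * x * (g ^ j)⁻¹ * x⁻¹) v = v := by
  obtain ⟨hv1, hv2⟩ := Submodule.mem_inf.1 hv
  obtain ⟨w, hw, rfl⟩ := Submodule.mem_map.1 hv2
  have hcj : c ^ j ≠ 0 := pow_ne_zero j hc
  have hwj : w ∈ eigSp (g ^ j) (c ^ j) := by
    rw [mem_eigSp]
    exact glEnd_pow_apply_of_mem hw j
  have h2 : glEnd n F (g ^ j * x * (g ^ j)⁻¹ * x⁻¹) (glEnd n F x w) =
      glEnd n F (g ^ j) (glEnd n F x (glEnd n F (g ^ j)⁻¹ (glEnd n F x⁻¹ (glEnd n F x w)))) := by
    rw [map_mul, map_mul, map_mul]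
    rfl
  rw [h2, rho_inv_apply, glEnd_inv_apply_of_mem hcj hwj, map_smul, map_smul,
    glEnd_pow_apply_of_mem hv1 j, smul_smul, inv_mul_cancel₀ hcj, one_smul]

theorem fix_commutator {a b : Matrix.GeneralLinearGroup (Fin n) F} {v : Fin n → F}
    (ha : glEnd n F a v = v) (hb : glEnd n F b v = v) : glEnd n F ⁅a, b⁆ v = v := by
  have ha' : glEnd n F a⁻¹ v = v := by
    have := congrArg (glEnd n F a⁻¹) ha
    rw [rho_inv_apply] at this
    exact this.symm
  have hb' : glEnd n F b⁻¹ v = v := by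
    have := congrArg (glEnd n F b⁻¹) hb
    rw [rho_inv_apply] at this
    exact this.symm
  have h2 : glEnd n F ⁅a, b⁆ v =
      glEnd n F a (glEnd n F b (glEnd n F a⁻¹ (glEnd n F b⁻¹ v))) := by
    rw [commutatorElement_def, map_mul, map_mul, map_mul]
    rfl
  rw [h2, hb', ha', hb, ha]

/-- If some commutator of the elements `g^j x g^-j x⁻¹` is a non-identity scalar, the
eigenspace of `g` meets its `x`-translate trivially. -/
theorem two_finrank_eigSp_le_of_scal_comm {g x z : Matrix.GeneralLinearGroup (Fin n) F} {c : F}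
    (hc : c ≠ 0) {ζ : F} (hz : IsScal z ζ) (hζ : ζ ≠ 1) (j k : ℕ)
    (hjk : ⁅g ^ j * x * (g ^ j)⁻¹ * x⁻¹, g ^ k * x * (g ^ k)⁻¹ * x⁻¹⁆ = z) :
    2 * Module.finrank F (eigSp g c) ≤ n := by
  have h1 : eigSp g c ⊓ (eigSp g c).map (glEnd n F x) = ⊥ := by
    rw [Submodule.eq_bot_iff]
    intro v hv
    have h2 := fix_commutator (fix_of_mem_inf_map hc hv j) (fix_of_mem_inf_map hc hv k)
    rw [hjk] at h2
    have h3 : v ∈ fixSp z := mem_fixSp.2 h2
    rw [fixSp_scal_eq_bot hz hζ] at h3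
    exact (Submodule.mem_bot F).1 h3
  have h2 := two_finrank_le_add_inf (eigSp g c) x
  rw [h1, finrank_bot] at h2
  omega

end EigBounds

end Cfsg.Agent.Lib.Helper97
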