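import Mathlib
import Cfsg.Agent.Lib.Helper97.EigBounds

set_option autoImplicit false

namespace Cfsg.Agent.Lib.Helper97

open scoped commutatorElement

section DiagGeneral

variable {K : Type*} [Field K] {V : Type*} [AddCommGroup V] [Module K V]

theorem ker_aeval_X_sub_C_le (f : Module.End K V) (a : K) :
    LinearMap.ker (Polynomial.aeval f (Polynomial.X - Polynomial.C a)) ≤ f.eigenspace a := by
  intro v hv
  rw [LinearMap.mem_ker] at hv
  rw [Module.End.mem_eigenspace_iff]
  have h1 : Polynomial.aeval f (Polynomial.X - Polynomial.C a) v = f v - a • v := by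
    rw [map_sub, Polynomial.aeval_X, Polynomial.aeval_C]
    rfl
  rw [h1] at hv
  exact sub_eq_zero.1 hv

theorem ker_aeval_prod_le_iSup_eigenspace (f : Module.End K V) (s : Finset K) :
    LinearMap.ker (Polynomial.aeval f (∏ μ ∈ s, (Polynomial.X - Polynomial.C μ))) ≤
      ⨆ μ, f.eigenspace μ := by
  classical
  induction s using Finset.induction_on with
  | empty =>
    rw [Finset.prod_empty, map_one]
    intro v hv
    rw [LinearMap.mem_ker] at hv
    have : v = 0 := hv
    rw [this]
    exact Submodule.zero_mem _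
  | insert a s ha ih =>
    rw [Finset.prod_insert ha]
    have hcop : IsCoprime (Polynomial.X - Polynomial.C a)
        (∏ μ ∈ s, (Polynomial.X - Polynomial.C μ)) := by
      apply IsCoprime.prod_right
      intro b hb
      apply Polynomial.isCoprime_X_sub_C_of_isUnit_sub
      have hab : a ≠ b := fun h => ha (h ▸ hb)
      exact (sub_ne_zero.2 hab).isUnit
    rw [← Polynomial.sup_ker_aeval_eq_ker_aeval_mul_of_coprime f hcop]
    apply sup_le
    · exact le_trans (ker_aeval_X_sub_C_le f a) (le_iSup (fun μ => f.eigenspace μ) a)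
    · exact ih

theorem iSup_eigenspace_eq_top_of_pow_eq_one (f : Module.End K V) {r : ℕ} (hr : 0 < r)
    {ζ : K} (hζ : IsPrimitiveRoot ζ r) (hf : f ^ r = 1) : ⨆ μ, f.eigenspace μ = ⊤ := by
  rw [eq_top_iff]
  refine le_trans ?_ (ker_aeval_prod_le_iSup_eigenspace f (Polynomial.nthRootsFinset r (1 : K)))
  rw [← Polynomial.X_pow_sub_one_eq_prod hr hζ]
  intro v _
  rw [LinearMap.mem_ker, map_sub, map_pow, Polynomial.aeval_X, map_one, hf, sub_self]
  rfl

theorem finrank_finset_sup_le [FiniteDimensional K V] {ι : Type*} (s : Finset ι)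
    (D : ι → Submodule K V) :
    Module.finrank K (s.sup D : Submodule K V) ≤ ∑ i ∈ s, Module.finrank K (D i) := by
  classical
  induction s using Finset.induction_on with
  | empty => rw [Finset.sup_empty, finrank_bot, Finset.sum_empty]
  | insert a s ha ih =>
    rw [Finset.sup_insert, Finset.sum_insert ha]
    exact le_trans (Submodule.finrank_add_le_finrank_add_finrank _ _) (Nat.add_le_add_left ih _)

end DiagGeneral

section DiagGL

variable {F : Type*} [Field F] {n : ℕ}

theorem iSup_eigSp_eq_top_of_pow_eq_one {y : Matrix.GeneralLinearGroup (Fin n) F} {r : ℕ}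
    (hr : r.Prime) {ω : F} (hω : ω ^ r = 1) (hω1 : ω ≠ 1) (hy : y ^ r = 1) :
    ⨆ μ, eigSp y μ = ⊤ := by
  have := Fact.mk hr
  have hord : orderOf ω = r := orderOf_eq_prime hω hω1
  have hprim : IsPrimitiveRoot ω r := hord ▸ IsPrimitiveRoot.orderOf ω
  have h1 : (glEnd n F y) ^ r = 1 := by rw [← map_pow, hy, map_one]
  exact iSup_eigenspace_eq_top_of_pow_eq_one (glEnd n F y) hr.pos hprim h1

theorem eigSp_eq_bot_of_pow {y : Matrix.GeneralLinearGroup (Fin n) F} {r : ℕ} (hy : y ^ r = 1)
    {μ : F} (hμ : μ ^ r ≠ 1) : eigSp y μ = ⊥ := by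
  rw [Submodule.eq_bot_iff]
  intro v hv
  have h1 := glEnd_pow_apply_of_mem hv r
  rw [hy, map_one] at h1
  have h2 : (μ ^ r - 1) • v = 0 := by
    rw [sub_smul, one_smul, ← h1]
    exact sub_self _
  rcases smul_eq_zero.1 h2 with h | h
  · exact absurd (sub_eq_zero.1 h) hμ
  · exact h

theorem finrank_le_sum_inf_eigSp [Fintype F] (y : Matrix.GeneralLinearGroup (Fin n) F)
    (hy : ⨆ μ, eigSp y μ = ⊤) (U : Submodule F (Fin n → F))
    (hU : ∀ v ∈ U, glEnd n F y v ∈ U) :
    Module.finrank F U ≤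
      ∑ μ : F, Module.finrank F (U ⊓ eigSp y μ : Submodule F (Fin n → F)) := by
  have h1 : U = ⨆ μ, U ⊓ eigSp y μ :=
    Submodule.eq_iSup_inf_genEigenspace (f := glEnd n F y) 1 hU hy
  have h2 : (⨆ μ, U ⊓ eigSp y μ) = Finset.univ.sup (fun μ => U ⊓ eigSp y μ) :=
    (Finset.sup_univ_eq_iSup _).symm
  have h3 := finrank_finset_sup_le (Finset.univ : Finset F) (fun μ => U ⊓ eigSp y μ)
  rw [← h2, ← h1] at h3
  exact h3

theorem finrank_eigSp_pow_mul_le [Fintype F] {y g : Matrix.GeneralLinearGroup (Fin n) F}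
    (hyg : y * g = g * y) (hy : ⨆ μ, eigSp y μ = ⊤) (k : ℕ) (c' : F) :
    Module.finrank F (eigSp (y ^ k * g) c') ≤
      ∑ μ : F, Module.finrank F
        (eigSp y μ ⊓ eigSp g ((μ ^ k)⁻¹ * c') : Submodule F (Fin n → F)) := by
  have hcomm : Commute y g := hyg
  have hcomm2 : (y ^ k * g) * y = y * (y ^ k * g) := by
    rw [mul_assoc, ← hyg, ← mul_assoc, ← mul_assoc, ← pow_succ, ← pow_succ']
  have hU : ∀ v ∈ eigSp (y ^ k * g) c', glEnd n F y v ∈ eigSp (y ^ k * g) c' := by
    intro v hv
    rw [mem_eigSp] at hv ⊢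
    have h1 : glEnd n F (y ^ k * g) (glEnd n F y v) = glEnd n F y (glEnd n F (y ^ k * g) v) := by
      rw [← Module.End.mul_apply, ← map_mul, hcomm2, map_mul, Module.End.mul_apply]
    rw [h1, hv, map_smul]
  refine le_trans (finrank_le_sum_inf_eigSp y hy _ hU) ?_
  apply Finset.sum_le_sum
  intro μ _
  apply Submodule.finrank_mono
  by_cases hμ : μ = 0
  · rw [hμ, eigSp_zero, inf_bot_eq]
    exact bot_le
  · intro v hv
    obtain ⟨hv1, hv2⟩ := Submodule.mem_inf.1 hv
    refine Submodule.mem_inf.2 ⟨hv2, ?_⟩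
    rw [mem_eigSp] at hv1 ⊢
    have h1 : glEnd n F (y ^ k * g) v = μ ^ k • glEnd n F g v := by
      rw [(hcomm.pow_left k).eq, map_mul, Module.End.mul_apply, glEnd_pow_apply_of_mem hv2 k,
        map_smul]
    rw [h1] at hv1
    have hμk : μ ^ k ≠ 0 := pow_ne_zero k hμ
    calc glEnd n F g v = (μ ^ k)⁻¹ • (μ ^ k • glEnd n F g v) := by
          rw [smul_smul, inv_mul_cancel₀ hμk, one_smul]
      _ = ((μ ^ k)⁻¹ * c') • v := by rw [hv1, smul_smul]

theorem sum_finrank_inf_eigSp_le_mul (h : Matrix.GeneralLinearGroup (Fin n) F)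
    (U : Submodule F (Fin n → F)) {ι : Type*} (s : Finset ι) (lam : ι → F) (m : ℕ)
    (hfib : ∀ i ∈ s, ∀ t : Finset ι, t ⊆ s → (∀ j ∈ t, lam j = lam i) → t.card ≤ m) :
    ∑ i ∈ s, Module.finrank F (U ⊓ eigSp h (lam i) : Submodule F (Fin n → F)) ≤
      m * Module.finrank F U := by
  classical
  rw [Finset.sum_comp (fun c => Module.finrank F (U ⊓ eigSp h c : Submodule F (Fin n → F))) lam]
  calc ∑ b ∈ Finset.image lam s, (Finset.filter (fun a => lam a = b) s).card •
          Module.finrank F (U ⊓ eigSp h b : Submodule F (Fin n → F))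
      ≤ ∑ b ∈ Finset.image lam s, m *
          Module.finrank F (U ⊓ eigSp h b : Submodule F (Fin n → F)) := by
        apply Finset.sum_le_sum
        intro b hb
        obtain ⟨i, hi, rfl⟩ := Finset.mem_image.1 hb
        rw [smul_eq_mul]
        apply Nat.mul_le_mul_right
        apply hfib i hi _ (Finset.filter_subset _ _)
        intro j hj
        exact (Finset.mem_filter.1 hj).2
    _ = m * ∑ b ∈ Finset.image lam s,
          Module.finrank F (U ⊓ eigSp h b : Submodule F (Fin n → F)) := by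
        rw [Finset.mul_sum]
    _ ≤ m * Module.finrank F U := Nat.mul_le_mul_left _ (sum_finrank_inf_eigSp_le h U _)

end DiagGL

end Cfsg.Agent.Lib.Helper97
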