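import Mathlib
import Cfsg.Agent.Lib.Helper97.Diag

set_option autoImplicit false

namespace Cfsg.Agent.Lib.Helper97

open scoped commutatorElement

section Tri

/-- Triangular numbers `0 + 1 + ... + (k-1)`. -/
def tri (k : ℕ) : ℕ := ∑ i ∈ Finset.range k, i

theorem tri_zero : tri 0 = 0 := by
  unfold tri
  rw [Finset.sum_range_zero]

theorem tri_succ (k : ℕ) : tri (k + 1) = tri k + k := by
  unfold tri
  rw [Finset.sum_range_succ]

theorem tri_two_mul (k : ℕ) : (2 * (tri k : ℤ)) = k * (k - 1) := by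
  induction k with
  | zero => simp [tri_zero]
  | succ k ih =>
    rw [tri_succ]
    push_cast
    linear_combination ih

theorem dvd_tri_of_odd {r : ℕ} (hodd : Odd r) : r ∣ tri r := by
  obtain ⟨t, ht⟩ := hodd
  have h1 := tri_two_mul r
  have h2 : (tri r : ℤ) = r * t := by
    have h3 : (r : ℤ) = 2 * t + 1 := by exact_mod_cast ht
    have h4 : 2 * (tri r : ℤ) = 2 * (r * t) := by
      rw [h1]
      rw [h3]
      ring
    linarith
  have h5 : tri r = r * t := by exact_mod_cast h2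
  exact ⟨t, h5⟩

variable {F : Type*} [Field F]

theorem fiber_card_le_two {r : ℕ} (hr : r.Prime) {θ μ c : F} (hθ : θ ^ r = 1) (hθ1 : θ ≠ 1)
    (hμ : μ ^ r = 1) (hc : c ≠ 0) (k : ℕ) (t : Finset ℕ) (ht : t ⊆ Finset.range r)
    (hfib : ∀ j ∈ t, (μ ^ j)⁻¹ * ((θ ^ tri j)⁻¹ * c) = (μ ^ k)⁻¹ * ((θ ^ tri k)⁻¹ * c)) :
    t.card ≤ 2 := by
  have hfact := Fact.mk hr
  have hord : orderOf θ = r := orderOf_eq_prime hθ hθ1
  have hprim : IsPrimitiveRoot θ r := hord ▸ IsPrimitiveRoot.orderOf θ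
  have hne : NeZero r := ⟨hr.ne_zero⟩
  obtain ⟨a, -, ha⟩ := hprim.eq_pow_of_pow_eq_one hμ
  have key : ∀ j₁ j₂ : ℕ, (μ ^ j₁)⁻¹ * ((θ ^ tri j₁)⁻¹ * c) = (μ ^ j₂)⁻¹ * ((θ ^ tri j₂)⁻¹ * c) →
      ((j₁ : ZMod r) - j₂) * (2 * a + j₁ + j₂ - 1) = 0 := by
    intro j₁ j₂ h
    have h1 : θ ^ (a * j₁ + tri j₁) = θ ^ (a * j₂ + tri j₂) := by
      rw [pow_add, pow_add, pow_mul, pow_mul, ha]
      have h2 : (μ ^ j₁ * θ ^ tri j₁)⁻¹ * c = (μ ^ j₂ * θ ^ tri j₂)⁻¹ * c := by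
        rw [mul_inv, mul_inv, mul_assoc, mul_assoc]
        exact h
      exact inv_injective (mul_right_cancel₀ hc h2)
    have hfin : IsOfFinOrder θ := isOfFinOrder_iff_pow_eq_one.2 ⟨r, hr.pos, hθ⟩
    rw [hfin.pow_eq_pow_iff_modEq, hord] at h1
    have h3 := (ZMod.natCast_eq_natCast_iff _ _ r).2 h1
    push_cast at h3
    have t1 : (2 * (tri j₁ : ZMod r)) = j₁ * (j₁ - 1) := by
      have := congrArg (Int.cast : ℤ → ZMod r) (tri_two_mul j₁)
      push_cast at this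
      exact this
    have t2 : (2 * (tri j₂ : ZMod r)) = j₂ * (j₂ - 1) := by
      have := congrArg (Int.cast : ℤ → ZMod r) (tri_two_mul j₂)
      push_cast at this
      exact this
    linear_combination 2 * h3 - t1 + t2
  by_contra hcard
  rw [not_le, Finset.two_lt_card] at hcard
  obtain ⟨j₁, h₁, j₂, h₂, j₃, h₃, h12, h13, h23⟩ := hcard
  have hcast : ∀ i j : ℕ, i ∈ t → j ∈ t → i ≠ j → (i : ZMod r) - j ≠ 0 := by
    intro i j hi hj hij h
    apply hij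
    have h' := (ZMod.natCast_eq_natCast_iff i j r).1 (sub_eq_zero.1 h)
    exact Nat.ModEq.eq_of_lt_of_lt h' (Finset.mem_range.1 (ht hi)) (Finset.mem_range.1 (ht hj))
  have e12 := key j₁ j₂ ((hfib j₁ h₁).trans (hfib j₂ h₂).symm)
  have e13 := key j₁ j₃ ((hfib j₁ h₁).trans (hfib j₃ h₃).symm)
  have f12 := (mul_eq_zero.1 e12).resolve_left (hcast j₁ j₂ h₁ h₂ h12)
  have f13 := (mul_eq_zero.1 e13).resolve_left (hcast j₁ j₃ h₁ h₃ h13)
  apply hcast j₂ j₃ h₂ h₃ h23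
  linear_combination f12 - f13

theorem fiber_card_le_one {r : ℕ} (hr : r.Prime) {μ c : F} (hμ : μ ^ r = 1) (hμ1 : μ ≠ 1)
    (hc : c ≠ 0) (k : ℕ) (t : Finset ℕ) (ht : t ⊆ Finset.range r)
    (hfib : ∀ j ∈ t, (μ ^ j)⁻¹ * c = (μ ^ k)⁻¹ * c) :
    t.card ≤ 1 := by
  have hfact := Fact.mk hr
  have hord : orderOf μ = r := orderOf_eq_prime hμ hμ1
  have hprim : IsPrimitiveRoot μ r := hord ▸ IsPrimitiveRoot.orderOf μ
  rw [Finset.card_le_one]
  intro i hi j hj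
  have h1 : (μ ^ i)⁻¹ * c = (μ ^ j)⁻¹ * c := (hfib i hi).trans (hfib j hj).symm
  have h2 : μ ^ i = μ ^ j := inv_injective (mul_right_cancel₀ hc h1)
  exact hprim.pow_inj (Finset.mem_range.1 (ht hi)) (Finset.mem_range.1 (ht hj)) h2

end Tri

end Cfsg.Agent.Lib.Helper97
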