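import Mathlib
import Cfsg.Agent.Lib.Helper97.QuadFiber

set_option autoImplicit false

namespace Cfsg.Agent.Lib.Helper97

open scoped commutatorElement

section B4

variable {F : Type*} [Field F] {n : ℕ}

theorem conj_pow_formula {x y g e : Matrix.GeneralLinearGroup (Fin n) F} {θ : F}
    (he : IsScal e θ) (hxg : x * g * x⁻¹ = y * g) (hxy : x * y * x⁻¹ = e * y) (k : ℕ) :
    x ^ k * g * (x ^ k)⁻¹ = e ^ tri k * y ^ k * g := by
  induction k with
  | zero => simp [tri_zero]
  | succ k ih =>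
    have h1 : x ^ (k + 1) * g * (x ^ (k + 1))⁻¹ = x * (x ^ k * g * (x ^ k)⁻¹) * x⁻¹ := by
      rw [pow_succ']; group
    have h3 : x * (e ^ tri k) = e ^ tri k * x := (he.pow (tri k)).comm x
    have h2 : x * (e ^ tri k * y ^ k * g) * x⁻¹ =
        e ^ tri k * (x * y * x⁻¹) ^ k * (x * g * x⁻¹) := by
      rw [conj_pow]
      calc x * (e ^ tri k * y ^ k * g) * x⁻¹ = (x * e ^ tri k) * y ^ k * g * x⁻¹ := by group
        _ = e ^ tri k * x * y ^ k * g * x⁻¹ := by rw [h3]
        _ = e ^ tri k * (x * y ^ k * x⁻¹) * (x * g * x⁻¹) := by group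
    have h4 : Commute e y := (he.comm y).symm
    rw [h1, ih, h2, hxy, hxg, tri_succ, h4.mul_pow, pow_add, pow_succ]
    simp only [mul_assoc]

/-- The summand in the double count. -/
noncomputable def b4T (y g : Matrix.GeneralLinearGroup (Fin n) F) (θ c μ : F) (k : ℕ) : ℕ :=
  Module.finrank F
    (eigSp y μ ⊓ eigSp g ((μ ^ k)⁻¹ * ((θ ^ tri k)⁻¹ * c)) : Submodule F (Fin n → F))

theorem b4_bound [Fintype F] {r : ℕ} (hr : r.Prime) (hodd : Odd r)
    {x y g e : Matrix.GeneralLinearGroup (Fin n) F} {θ : F} (he : IsScal e θ)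
    (hθr : θ ^ r = 1) (her : e ^ r = 1)
    (hxg : x * g * x⁻¹ = y * g) (hyg : y * g = g * y) (hxy : x * y * x⁻¹ = e * y)
    (hxr : x ^ r * g = g * x ^ r)
    (hyfix : r * Module.finrank F (fixSp y) ≤ n)
    {ω : F} (hω : ω ^ r = 1) (hω1 : ω ≠ 1) {c : F} (hc : c ≠ 0) :
    r * Module.finrank F (eigSp g c) ≤ 2 * n := by
  classical
  have hconj := conj_pow_formula he hxg hxy
  have hyr : y ^ r = 1 := by
    have h1 := hconj r
    have h2 : x ^ r * g * (x ^ r)⁻¹ = g := by rw [hxr, mul_inv_cancel_right]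
    obtain ⟨t, ht⟩ := dvd_tri_of_odd hodd
    have h3 : e ^ tri r = 1 := by rw [ht, pow_mul, her, one_pow]
    rw [h2, h3, one_mul] at h1
    exact mul_eq_right.1 h1.symm
  have hdiag : ⨆ μ, eigSp y μ = ⊤ := iSup_eigSp_eq_top_of_pow_eq_one hr hω hω1 hyr
  have hθ0 : θ ≠ 0 := by
    rintro rfl
    rw [zero_pow hr.ne_zero] at hθr
    exact zero_ne_one hθr
  have hk : ∀ k : ℕ, Module.finrank F (eigSp g c) ≤ ∑ μ : F, b4T y g θ c μ k := by
    intro k
    have h1 : Module.finrank F (eigSp g c) =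
        Module.finrank F (eigSp (y ^ k * g) ((θ ^ tri k)⁻¹ * c)) := by
      rw [← finrank_eigSp_conj (x ^ k) g c, hconj k, mul_assoc,
        eigSp_scal_mul (he.pow (tri k)) (pow_ne_zero _ hθ0)]
    rw [h1]
    exact finrank_eigSp_pow_mul_le hyg hdiag k _
  have hsum : r * Module.finrank F (eigSp g c) ≤
      ∑ μ : F, ∑ k ∈ Finset.range r, b4T y g θ c μ k := by
    rw [Finset.sum_comm]
    calc r * Module.finrank F (eigSp g c)
        = ∑ k ∈ Finset.range r, Module.finrank F (eigSp g c) := by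
          rw [Finset.sum_const, Finset.card_range, smul_eq_mul]
      _ ≤ _ := Finset.sum_le_sum (fun k _ => hk k)
  refine le_trans hsum ?_
  have hzero : ∀ μ : F, μ ^ r ≠ 1 → ∑ k ∈ Finset.range r, b4T y g θ c μ k = 0 := by
    intro μ hμ
    apply Finset.sum_eq_zero
    intro k _
    unfold b4T
    rw [eigSp_eq_bot_of_pow hyr hμ, bot_inf_eq, finrank_bot]
  by_cases hθ1 : θ = 1
  · have hb : ∀ μ : F, μ ≠ 1 → ∑ k ∈ Finset.range r, b4T y g θ c μ k ≤
        Module.finrank F (eigSp y μ) := by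
      intro μ hμ1
      by_cases hμ : μ ^ r = 1
      · have h1 := sum_finrank_inf_eigSp_le_mul g (eigSp y μ) (Finset.range r)
          (fun k => (μ ^ k)⁻¹ * ((θ ^ tri k)⁻¹ * c)) 1 (by
            intro i hi t ht hfib
            apply fiber_card_le_one hr hμ hμ1 hc i t ht
            intro j hj
            have h2 := hfib j hj
            simpa [hθ1] using h2)
        rw [one_mul] at h1
        exact h1
      · rw [hzero μ hμ]
        exact Nat.zero_le _
    have h1 : ∑ k ∈ Finset.range r, b4T y g θ c 1 k ≤ n := by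
      calc ∑ k ∈ Finset.range r, b4T y g θ c 1 k
          ≤ ∑ k ∈ Finset.range r, Module.finrank F (fixSp y) :=
            Finset.sum_le_sum (fun k _ => Submodule.finrank_mono inf_le_left)
        _ = r * Module.finrank F (fixSp y) := by
            rw [Finset.sum_const, Finset.card_range, smul_eq_mul]
        _ ≤ n := hyfix
    rw [← Finset.add_sum_erase Finset.univ _ (Finset.mem_univ (1 : F))]
    have h2 : ∑ μ ∈ Finset.univ.erase (1 : F), ∑ k ∈ Finset.range r, b4T y g θ c μ k ≤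
        ∑ μ ∈ Finset.univ.erase (1 : F), Module.finrank F (eigSp y μ) :=
      Finset.sum_le_sum (fun μ hμ => hb μ (Finset.ne_of_mem_erase hμ))
    have h3 := sum_finrank_eigSp_le y (Finset.univ.erase (1 : F))
    omega
  · have hb : ∀ μ : F, ∑ k ∈ Finset.range r, b4T y g θ c μ k ≤
        2 * Module.finrank F (eigSp y μ) := by
      intro μ
      by_cases hμ : μ ^ r = 1
      · exact sum_finrank_inf_eigSp_le_mul g (eigSp y μ) (Finset.range r)
          (fun k => (μ ^ k)⁻¹ * ((θ ^ tri k)⁻¹ * c)) 2 (by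
            intro i hi t ht hfib
            exact fiber_card_le_two hr hθr hθ1 hμ hc i t ht hfib)
      · rw [hzero μ hμ]
        exact Nat.zero_le _
    calc ∑ μ : F, ∑ k ∈ Finset.range r, b4T y g θ c μ k
        ≤ ∑ μ : F, 2 * Module.finrank F (eigSp y μ) := Finset.sum_le_sum (fun μ _ => hb μ)
      _ = 2 * ∑ μ : F, Module.finrank F (eigSp y μ) := by rw [Finset.mul_sum]
      _ ≤ 2 * n := Nat.mul_le_mul_left _ (sum_finrank_eigSp_le y Finset.univ)

end B4

end Cfsg.Agent.Lib.Helper97
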