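import Mathlib

set_option autoImplicit false

namespace Cfsg.Agent.Lib.Helper97

open scoped commutatorElement

section CentralComm

variable {Γ : Type*} [Group Γ]

theorem comm_mul_left' {Zc M : Subgroup Γ} (hc : ∀ z ∈ Zc, ∀ h : Γ, h * z = z * h)
    (hM : ∀ a ∈ M, ∀ b ∈ M, ⁅a, b⁆ ∈ Zc) {a b c : Γ} (hb : b ∈ M) (hc' : c ∈ M) :
    ⁅a * b, c⁆ = ⁅a, c⁆ * ⁅b, c⁆ := by
  have hz := hc _ (hM b hb c hc') a
  have h1 : ⁅a * b, c⁆ = a * ⁅b, c⁆ * a⁻¹ * ⁅a, c⁆ := by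
    simp only [commutatorElement_def]
    group
  rw [h1, hz, mul_inv_cancel_right, hc _ (hM b hb c hc')]

theorem comm_mul_right' {Zc M : Subgroup Γ} (hc : ∀ z ∈ Zc, ∀ h : Γ, h * z = z * h)
    (hM : ∀ a ∈ M, ∀ b ∈ M, ⁅a, b⁆ ∈ Zc) {a b c : Γ} (ha : a ∈ M) (hb : b ∈ M) (hc' : c ∈ M) :
    ⁅a, b * c⁆ = ⁅a, b⁆ * ⁅a, c⁆ := by
  have h1 : ⁅a, b * c⁆ = (⁅b * c, a⁆)⁻¹ := (commutatorElement_inv (b * c) a).symm
  rw [h1, comm_mul_left' hc hM hc' ha, mul_inv_rev, commutatorElement_inv, commutatorElement_inv,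
    hc _ (hM a ha b hb)]

theorem comm_inv_left' {Zc M : Subgroup Γ} (hc : ∀ z ∈ Zc, ∀ h : Γ, h * z = z * h)
    (hM : ∀ a ∈ M, ∀ b ∈ M, ⁅a, b⁆ ∈ Zc) {a c : Γ} (ha : a ∈ M) (hc' : c ∈ M) :
    ⁅a⁻¹, c⁆ = (⁅a, c⁆)⁻¹ := by
  have h1 := comm_mul_left' hc hM (a := a⁻¹) ha hc'
  rw [inv_mul_cancel, commutatorElement_one_left] at h1
  exact eq_inv_of_mul_eq_one_left h1.symm

theorem comm_inv_right' {Zc M : Subgroup Γ} (hc : ∀ z ∈ Zc, ∀ h : Γ, h * z = z * h)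
    (hM : ∀ a ∈ M, ∀ b ∈ M, ⁅a, b⁆ ∈ Zc) {a c : Γ} (ha : a ∈ M) (hc' : c ∈ M) :
    ⁅a, c⁻¹⁆ = (⁅a, c⁆)⁻¹ := by
  have h1 : ⁅a, c⁻¹⁆ = (⁅c⁻¹, a⁆)⁻¹ := (commutatorElement_inv (c⁻¹) a).symm
  rw [h1, comm_inv_left' hc hM hc' ha, commutatorElement_inv]

theorem comm_conj' {Zc M : Subgroup Γ} (hc : ∀ z ∈ Zc, ∀ h : Γ, h * z = z * h)
    (hM : ∀ a ∈ M, ∀ b ∈ M, ⁅a, b⁆ ∈ Zc) {a b : Γ} (ha : a ∈ M) (hb : b ∈ M) (h : Γ) :
    ⁅h * a * h⁻¹, h * b * h⁻¹⁆ = ⁅a, b⁆ := by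
  rw [← conjugate_commutatorElement, hc _ (hM a ha b hb) h, mul_inv_cancel_right]


theorem comm_pow_right' {Zc M : Subgroup Γ} (hc : ∀ z ∈ Zc, ∀ h : Γ, h * z = z * h)
    (hM : ∀ a ∈ M, ∀ b ∈ M, ⁅a, b⁆ ∈ Zc) {a b : Γ} (ha : a ∈ M) (hb : b ∈ M) (k : ℕ) :
    ⁅a, b ^ k⁆ = ⁅a, b⁆ ^ k := by
  induction k with
  | zero => rw [pow_zero, pow_zero, commutatorElement_one_right]
  | succ k ih =>
    rw [pow_succ, comm_mul_right' hc hM ha (pow_mem hb k) hb, ih, pow_succ]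

/-- If all commutators `⁅g^j x g^-j x⁻¹, g^k x g^-k x⁻¹⁆` vanish, and `g` has odd order prime to
the exponent of the (central) commutators, then `g` centralises `R` modulo `Zc`. -/
theorem central_of_all_comm {Zc M R : Subgroup Γ}
    (hc : ∀ z ∈ Zc, ∀ h : Γ, h * z = z * h)
    (hM : ∀ a ∈ M, ∀ b ∈ M, ⁅a, b⁆ ∈ Zc) (hRM : R ≤ M)
    {r ϖ : ℕ} (hcop : Nat.Coprime ϖ r) (hodd : Odd ϖ)
    (hMr : ∀ a ∈ M, ∀ b ∈ M, ⁅a, b⁆ ^ r = 1)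
    (hcent : ∀ m ∈ M, (∀ x ∈ R, m * x = x * m) → m ∈ Zc)
    (g : Γ) (hgϖ : g ^ ϖ = 1) (hgM : ∀ m ∈ M, g * m * g⁻¹ ∈ M)
    (hgM' : ∀ m ∈ M, g⁻¹ * m * g ∈ M)
    (H : ∀ x ∈ R, ∀ j k : ℕ,
      ⁅g ^ j * x * (g ^ j)⁻¹ * x⁻¹, g ^ k * x * (g ^ k)⁻¹ * x⁻¹⁆ = 1) :
    ∀ y ∈ R, ⁅g, y⁆ ∈ Zc := by
  have hgMk : ∀ (k : ℕ), ∀ m ∈ M, g ^ k * m * (g ^ k)⁻¹ ∈ M := by
    intro k
    induction k with
    | zero => intro m hm; simpa using hm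
    | succ k ih =>
      intro m hm
      have h1 : g ^ (k + 1) * m * (g ^ (k + 1))⁻¹ = g * (g ^ k * m * (g ^ k)⁻¹) * g⁻¹ := by
        rw [pow_succ']; group
      rw [h1]
      exact hgM _ (ih m hm)
  -- Step A: `⁅x, g x g⁻¹⁆ = 1` for `x ∈ R`.
  have hA : ∀ x ∈ R, ⁅x, g * x * g⁻¹⁆ = 1 := by
    intro x hx
    have hxM : x ∈ M := hRM hx
    have hXM : ∀ k : ℕ, g ^ k * x * (g ^ k)⁻¹ ∈ M := fun k => hgMk k x hxM
    have h1 : ∀ j k : ℕ, ⁅g ^ j * x * (g ^ j)⁻¹, g ^ k * x * (g ^ k)⁻¹⁆ *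
        ⁅x, g ^ j * x * (g ^ j)⁻¹⁆ = ⁅x, g ^ k * x * (g ^ k)⁻¹⁆ := by
      intro j k
      have h2 := H x hx j k
      rw [comm_mul_left' hc hM (inv_mem hxM) (mul_mem (hXM k) (inv_mem hxM)),
        comm_mul_right' hc hM (hXM j) (hXM k) (inv_mem hxM),
        comm_mul_right' hc hM (inv_mem hxM) (hXM k) (inv_mem hxM),
        commutatorElement_self, mul_one,
        comm_inv_right' hc hM (hXM j) hxM, comm_inv_left' hc hM hxM (hXM k),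
        commutatorElement_inv] at h2
      have h3 := eq_of_mul_inv_eq_one h2
      exact h3
    have h2 : ∀ j m : ℕ, ⁅g ^ j * x * (g ^ j)⁻¹, g ^ (j + m) * x * (g ^ (j + m))⁻¹⁆ =
        ⁅x, g ^ m * x * (g ^ m)⁻¹⁆ := by
      intro j m
      have h3 : g ^ (j + m) * x * (g ^ (j + m))⁻¹ =
          g ^ j * (g ^ m * x * (g ^ m)⁻¹) * (g ^ j)⁻¹ := by
        rw [pow_add]; group
      rw [h3, comm_conj' hc hM hxM (hXM m)]
    have h3 : ∀ k : ℕ, ⁅x, g ^ k * x * (g ^ k)⁻¹⁆ = ⁅x, g * x * g⁻¹⁆ ^ k := by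
      intro k
      induction k with
      | zero => simp
      | succ k ih =>
        have h4 := h1 k (k + 1)
        rw [h2 k 1, ih, pow_one] at h4
        rw [← h4, pow_succ']
    have h4 : ⁅x, g * x * g⁻¹⁆ ^ ϖ = 1 := by
      rw [← h3 ϖ, hgϖ]
      simp
    have h5 : ⁅x, g * x * g⁻¹⁆ ^ r = 1 := hMr x hxM _ (hgM x hxM)
    have h6 := pow_gcd_eq_one.2 ⟨h4, h5⟩
    rwa [Nat.Coprime.gcd_eq_one hcop, pow_one] at h6
  -- Step B: polarisation.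
  have hB : ∀ y ∈ R, (g * y * g⁻¹) * (g⁻¹ * y * g)⁻¹ ∈ Zc := by
    intro y hy
    have hyM : y ∈ M := hRM hy
    have hy' : g * y * g⁻¹ ∈ M := hgM y hyM
    have hy'' : g⁻¹ * y * g ∈ M := hgM' y hyM
    apply hcent _ (mul_mem hy' (inv_mem hy''))
    intro x hx
    have hxM : x ∈ M := hRM hx
    have hx' : g * x * g⁻¹ ∈ M := hgM x hxM
    have h1 := hA (x * y) (mul_mem hx hy)
    have h2 : g * (x * y) * g⁻¹ = (g * x * g⁻¹) * (g * y * g⁻¹) := by group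
    rw [h2, comm_mul_left' hc hM hyM (mul_mem hx' hy'),
      comm_mul_right' hc hM hxM hx' hy', comm_mul_right' hc hM hyM hx' hy',
      hA x hx, hA y hy, one_mul, mul_one] at h1
    have h3 : ⁅y, g * x * g⁻¹⁆ = ⁅g⁻¹ * y * g, x⁆ := by
      have h4 : y = g * (g⁻¹ * y * g) * g⁻¹ := by group
      conv_lhs => rw [h4]
      rw [comm_conj' hc hM hy'' hxM]
    rw [h3] at h1
    have h5 : ⁅x, g * y * g⁻¹ * (g⁻¹ * y * g)⁻¹⁆ = 1 := by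
      rw [comm_mul_right' hc hM hxM hy' (inv_mem hy''), comm_inv_right' hc hM hxM hy'',
        commutatorElement_inv]
      exact h1
    exact ((commutatorElement_eq_one_iff_mul_comm).1 h5).symm
  -- Step C: `⁅g^2, y⁆ ∈ Zc`.
  have hC : ∀ y ∈ R, ⁅g ^ 2, y⁆ ∈ Zc := by
    intro y hy
    have h1 := hB y hy
    have h2 : ⁅g ^ 2, y⁆ = g * ((g * y * g⁻¹) * (g⁻¹ * y * g)⁻¹) * g⁻¹ := by
      rw [commutatorElement_def, pow_two]; group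
    rw [h2, hc _ h1 g, mul_inv_cancel_right]
    exact h1
  have hD : ∀ y ∈ R, ∀ m : ℕ, ⁅(g ^ 2) ^ m, y⁆ ∈ Zc := by
    intro y hy m
    induction m with
    | zero => rw [pow_zero, commutatorElement_one_left]; exact one_mem _
    | succ m ih =>
      have h1 : ⁅(g ^ 2) ^ (m + 1), y⁆ = (g ^ 2) * ⁅(g ^ 2) ^ m, y⁆ * (g ^ 2)⁻¹ * ⁅g ^ 2, y⁆ := by
        rw [pow_succ']
        simp only [commutatorElement_def]
        group
      rw [h1, hc _ ih (g ^ 2), mul_inv_cancel_right]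
      exact mul_mem ih (hC y hy)
  intro y hy
  obtain ⟨t, ht⟩ := hodd
  have h1 : (g ^ 2) ^ (t + 1) = g := by
    rw [← pow_mul]
    have : 2 * (t + 1) = ϖ + 1 := by omega
    rw [this, pow_succ, hgϖ, one_mul]
  have h2 := hD y hy (t + 1)
  rwa [h1] at h2

/-- In a finite group, if `M / Zc` is an `r`-group normalised by `g` of order dividing `r`, and
some commutator `⁅x₀, g⁆` with `x₀ ∈ M` is not in `Zc`, then some `x ∈ M` has `⁅x, g⁆ ∉ Zc`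
but `⁅⁅x, g⁆, g⁆ ∈ Zc`. -/
theorem exists_second_comm [Finite Γ] {r : ℕ} [Fact r.Prime]
    (Zc M : Subgroup Γ) [Zc.Normal] (hMp : IsPGroup r (M.map (QuotientGroup.mk' Zc)))
    (g : Γ) (hgr : g ^ r = 1) (hgM : ∀ m ∈ M, g * m * g⁻¹ ∈ M)
    (hgM' : ∀ m ∈ M, g⁻¹ * m * g ∈ M)
    (x₀ : Γ) (hx₀ : x₀ ∈ M) (hx₀g : ⁅x₀, g⁆ ∉ Zc) :
    ∃ x ∈ M, ⁅x, g⁆ ∉ Zc ∧ ⁅⁅x, g⁆, g⁆ ∈ Zc := by
  set π := QuotientGroup.mk' Zc with hπ
  set A := M.map π with hA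
  set C := Subgroup.zpowers (π g) with hC
  have hCp : IsPGroup r C := by
    rintro ⟨h, hh⟩
    refine ⟨1, ?_⟩
    obtain ⟨k, rfl⟩ := Subgroup.mem_zpowers_iff.1 hh
    apply Subtype.ext
    rw [Subgroup.coe_pow, pow_one]
    show (π g ^ k) ^ r = 1
    rw [← zpow_natCast, ← zpow_mul, mul_comm, zpow_mul, zpow_natCast, ← map_pow, hgr, map_one,
      one_zpow]
  have hCA : C ≤ Subgroup.normalizer (A : Set (Γ ⧸ Zc)) := by
    rw [hC, Subgroup.zpowers_le, Subgroup.mem_normalizer_iff]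
    intro h
    constructor
    · rintro ⟨m, hm, rfl⟩
      exact ⟨g * m * g⁻¹, hgM m hm, by simp [hπ]⟩
    · rintro ⟨m, hm, hmeq⟩
      refine ⟨g⁻¹ * m * g, hgM' m hm, ?_⟩
      rw [map_mul, map_mul, hmeq, map_inv]
      group
  have hP : IsPGroup r ↥(C ⊔ A) := IsPGroup.to_sup_of_normal_right' hCp hMp hCA
  have hnil : Group.IsNilpotent ↥(C ⊔ A) := hP.isNilpotent
  obtain ⟨N, hN⟩ := (Subgroup.isNilpotent_iff_lowerCentralSeries (C ⊔ A)).1 hnil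
  have hfM : ∀ x ∈ M, ⁅x, g⁆ ∈ M := by
    intro x hx
    have : ⁅x, g⁆ = x * (g * x⁻¹ * g⁻¹) := by rw [commutatorElement_def]; group
    rw [this]
    exact mul_mem hx (hgM _ (inv_mem hx))
  have hiterM : ∀ j : ℕ, (fun x => ⁅x, g⁆)^[j] x₀ ∈ M := by
    intro j
    induction j with
    | zero => exact hx₀
    | succ j ih =>
      rw [Function.iterate_succ_apply']
      exact hfM _ ih
  have hgP : π g ∈ C ⊔ A := (le_sup_left : C ≤ C ⊔ A) (Subgroup.mem_zpowers _)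
  have hiter : ∀ j : ℕ, π ((fun x => ⁅x, g⁆)^[j] x₀) ∈ (C ⊔ A).lowerCentralSeries j := by
    intro j
    induction j with
    | zero =>
      exact (le_sup_right : A ≤ C ⊔ A) ⟨x₀, hx₀, rfl⟩
    | succ j ih =>
      rw [Function.iterate_succ_apply', Subgroup.lowerCentralSeries_succ, map_commutatorElement]
      exact Subgroup.commutator_mem_commutator ih hgP
  have hfin : (fun x => ⁅x, g⁆)^[N] x₀ ∈ Zc := by
    have h1 := hiter N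
    rw [hN, Subgroup.mem_bot] at h1
    exact (QuotientGroup.eq_one_iff _).1 h1
  have key : ∀ (N : ℕ) (x : Γ), x ∈ M → ⁅x, g⁆ ∉ Zc → (fun x => ⁅x, g⁆)^[N] x ∈ Zc →
      ∃ x ∈ M, ⁅x, g⁆ ∉ Zc ∧ ⁅⁅x, g⁆, g⁆ ∈ Zc := by
    intro N
    induction N with
    | zero =>
      intro x _ hxg hx
      exfalso
      apply hxg
      have : ⁅x, g⁆ = x * (g * x⁻¹ * g⁻¹) := by rw [commutatorElement_def]; group
      rw [this]
      exact mul_mem hx (Subgroup.Normal.conj_mem inferInstance _ (inv_mem hx) g)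
    | succ N ih =>
      intro x hxM hxg hx
      rw [Function.iterate_succ_apply] at hx
      by_cases h : ⁅⁅x, g⁆, g⁆ ∈ Zc
      · exact ⟨x, hxM, hxg, h⟩
      · exact ih ⁅x, g⁆ (hfM x hxM) h hx
  exact key N x₀ hx₀ hx₀g hfin

end CentralComm

end Cfsg.Agent.Lib.Helper97
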