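import Mathlib
import Cfsg.Prelude.Def_GeometricClasses
import Cfsg.Agent.Lib.Helper97.CentralComm
import Cfsg.Agent.Lib.Helper97.B4

set_option autoImplicit false

namespace Cfsg.Agent.Lib.Helper97

open scoped commutatorElement

section ExtraEig

variable {F : Type*} [Field F] {n : ℕ}

theorem scalars_central (z : Matrix.GeneralLinearGroup (Fin n) F)
    (hz : z ∈ Cfsg.Geo.scalars (Fin n) F) (h : Matrix.GeneralLinearGroup (Fin n) F) :
    h * z = z * h := by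
  obtain ⟨c, hc⟩ := (Cfsg.Geo.mem_scalars_iff z).1 hz
  exact IsScal.comm (ζ := (c : F)) hc h

theorem mem_scalars_of_commute (hn : 0 < n) {R : Subgroup (Matrix.GeneralLinearGroup (Fin n) F)}
    (hirr : Cfsg.Geo.ActsAbsolutelyIrreducibly (Cfsg.Geo.matrixSet R))
    (m : Matrix.GeneralLinearGroup (Fin n) F) (hm : ∀ x ∈ R, m * x = x * m) :
    m ∈ Cfsg.Geo.scalars (Fin n) F := by
  obtain ⟨c, hc⟩ := hirr.2 (m : Matrix (Fin n) (Fin n) F) (by
    rintro s ⟨x, hx, rfl⟩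
    exact congrArg Units.val (hm x hx))
  have hc0 : c ≠ 0 := IsScal.ne_zero hn (z := m) hc
  exact (Cfsg.Geo.mem_scalars_iff m).2 ⟨Units.mk0 c hc0, hc⟩

theorem extraspecial_eig_core [Fintype F] {r ϖ : ℕ}
    (R : Subgroup (Matrix.GeneralLinearGroup (Fin n) F)) (hr : r.Prime) (hR : IsPGroup r R)
    (hZ : Nat.card (Subgroup.center R) = r) (hext : commutator R = Subgroup.center R)
    (hirr : Cfsg.Geo.ActsAbsolutelyIrreducibly (Cfsg.Geo.matrixSet R))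
    (g : Matrix.GeneralLinearGroup (Fin n) F)
    (hg : g ∈ Cfsg.Geo.subgroupNormalizer (R ⊔ Cfsg.Geo.scalars (Fin n) F))
    (hϖ : ϖ.Prime) (hord : orderOf g = ϖ) (hns : g ∉ Cfsg.Geo.scalars (Fin n) F)
    (c : F) (hn : 0 < n) (hc : c ≠ 0) :
    (ϖ = 2 → 4 * Module.finrank F (eigSp g c) ≤ 3 * n) ∧
    (ϖ = 3 → 3 * Module.finrank F (eigSp g c) ≤ 2 * n) ∧
    (3 < ϖ → 2 * Module.finrank F (eigSp g c) ≤ n) ∧
    (ϖ = 3 → ¬ 3 ∣ n → 2 * Module.finrank F (eigSp g c) ≤ n) := by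
  classical
  set Z := Cfsg.Geo.scalars (Fin n) F with hZdef
  set M := R ⊔ Z with hMdef
  have hRM : R ≤ M := le_sup_left
  have hcen : ∀ z ∈ Z, ∀ h : Matrix.GeneralLinearGroup (Fin n) F, h * z = z * h :=
    scalars_central
  have hcomm : ∀ m : Matrix.GeneralLinearGroup (Fin n) F, (∀ x ∈ R, m * x = x * m) → m ∈ Z :=
    mem_scalars_of_commute hn hirr
  -- commutators of R
  have hRR : ∀ a ∈ R, ∀ b ∈ R, ⁅a, b⁆ ∈ Z ∧ ⁅a, b⁆ ^ r = 1 := by
    intro a ha b hb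
    have hw : ⁅(⟨a, ha⟩ : R), ⟨b, hb⟩⁆ ∈ Subgroup.center R := by
      rw [← hext, commutator_def]
      exact Subgroup.commutator_mem_commutator (Subgroup.mem_top _) (Subgroup.mem_top _)
    constructor
    · apply hcomm
      intro x hx
      have h1 := Subgroup.mem_center_iff.1 hw ⟨x, hx⟩
      have h2 := congrArg Subtype.val h1
      exact h2.symm
    · have h1 : (⟨_, hw⟩ : Subgroup.center R) ^ Nat.card (Subgroup.center R) = 1 :=
        pow_card_eq_one'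
      rw [hZ] at h1
      have h2 := congrArg (fun w : Subgroup.center R =>
        ((w : R) : Matrix.GeneralLinearGroup (Fin n) F)) h1
      exact h2
  have hMM : ∀ a ∈ M, ∀ b ∈ M, ⁅a, b⁆ ∈ Z ∧ ⁅a, b⁆ ^ r = 1 := by
    intro a ha b hb
    obtain ⟨a₁, ha₁, z₁, hz₁, rfl⟩ := Subgroup.mem_sup_of_normal_right.1 ha
    obtain ⟨b₁, hb₁, z₂, hz₂, rfl⟩ := Subgroup.mem_sup_of_normal_right.1 hb
    have h1 : ⁅a₁ * z₁, b₁ * z₂⁆ = ⁅a₁, b₁⁆ := by
      have e1 : z₁ * (b₁ * z₂) * z₁⁻¹ = b₁ * z₂ := by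
        rw [← hcen z₁ hz₁ (b₁ * z₂), mul_inv_cancel_right]
      have e2 : z₂ * a₁⁻¹ * z₂⁻¹ = a₁⁻¹ := by
        rw [← hcen z₂ hz₂ a₁⁻¹, mul_inv_cancel_right]
      calc ⁅a₁ * z₁, b₁ * z₂⁆ = a₁ * (z₁ * (b₁ * z₂) * z₁⁻¹) * a₁⁻¹ * (b₁ * z₂)⁻¹ := by
            rw [commutatorElement_def]; group
        _ = a₁ * (b₁ * z₂) * a₁⁻¹ * (b₁ * z₂)⁻¹ := by rw [e1]
        _ = a₁ * b₁ * (z₂ * a₁⁻¹ * z₂⁻¹) * b₁⁻¹ := by group
        _ = ⁅a₁, b₁⁆ := by rw [e2, commutatorElement_def]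
    rw [h1]
    exact hRR a₁ ha₁ b₁ hb₁
  have hM : ∀ a ∈ M, ∀ b ∈ M, ⁅a, b⁆ ∈ Z := fun a ha b hb => (hMM a ha b hb).1
  have hMr : ∀ a ∈ M, ∀ b ∈ M, ⁅a, b⁆ ^ r = 1 := fun a ha b hb => (hMM a ha b hb).2
  have hcent : ∀ m ∈ M, (∀ x ∈ R, m * x = x * m) → m ∈ Z := fun m _ h => hcomm m h
  -- normalising
  have hgN : g ∈ Subgroup.normalizer (M : Set (Matrix.GeneralLinearGroup (Fin n) F)) := hg
  have hgM : ∀ m ∈ M, g * m * g⁻¹ ∈ M := fun m hm => (Subgroup.mem_normalizer_iff.1 hgN m).1 hm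
  have hgM' : ∀ m ∈ M, g⁻¹ * m * g ∈ M := by
    intro m hm
    have := (Subgroup.mem_normalizer_iff.1 (inv_mem hgN) m).1 hm
    rwa [inv_inv] at this
  have hgMk : ∀ (k : ℕ), ∀ m ∈ M, g ^ k * m * (g ^ k)⁻¹ ∈ M :=
    fun k m hm => (Subgroup.mem_normalizer_iff.1 (pow_mem hgN k) m).1 hm
  have hgϖ : g ^ ϖ = 1 := by
    rw [← hord]
    exact pow_orderOf_eq_one g
  -- scalars
  have hscal : ∀ e ∈ Z, ∃ ζ : F, IsScal e ζ ∧ ζ ≠ 0 ∧ (e ≠ 1 → ζ ≠ 1) ∧
      (∀ k : ℕ, e ^ k = 1 → ζ ^ k = 1) := by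
    intro e he
    obtain ⟨ζ, hζ⟩ := (Cfsg.Geo.mem_scalars_iff e).1 he
    refine ⟨ζ, hζ, ζ.ne_zero, ?_, fun k hk => IsScal.pow_eq_one hn hζ hk⟩
    intro he1 h1
    apply he1
    apply IsScal.eq_one_of_one
    rw [← h1]
    exact hζ
  have hR3 : ∀ y ∈ M, y ∉ Z → ∃ t ∈ R, ∃ e : Matrix.GeneralLinearGroup (Fin n) F, ∃ ζ : F,
      IsScal e ζ ∧ ζ ^ r = 1 ∧ ζ ≠ 1 ∧ t * y * t⁻¹ = e * y := by
    intro y hy hyZ
    have h1 : ¬ ∀ x ∈ R, y * x = x * y := fun h => hyZ (hcomm y h)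
    push Not at h1
    obtain ⟨t, ht, hty⟩ := h1
    have he := hMM t (hRM ht) y hy
    have he1 : ⁅t, y⁆ ≠ 1 := by
      intro h
      exact hty ((commutatorElement_eq_one_iff_mul_comm.1 h).symm)
    obtain ⟨ζ, hζ, -, hζ1, hζk⟩ := hscal _ he.1
    refine ⟨t, ht, ⁅t, y⁆, ζ, hζ, hζk r he.2, hζ1 he1, ?_⟩
    rw [commutatorElement_def]; group
  have hR3fix : ∀ y ∈ M, y ∉ Z → r * Module.finrank F (fixSp y) ≤ n := by
    intro y hy hyZ
    obtain ⟨t, -, e, ζ, hζ, hζr, hζ1, hconj⟩ := hR3 y hy hyZ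
    exact scal_conj_bound_prime hr hζ hζr hζ1 hconj (c := 1) one_ne_zero
  have hR3dvd : ∀ y ∈ M, y ∉ Z → r ∣ n := by
    intro y hy hyZ
    obtain ⟨t, -, e, ζ, hζ, hζr, hζ1, hconj⟩ := hR3 y hy hyZ
    have h1 := congrArg Matrix.GeneralLinearGroup.det hconj
    have h1' : Matrix.GeneralLinearGroup.det (t * y * t⁻¹) = Matrix.GeneralLinearGroup.det y := by
      rw [map_mul, map_mul, map_inv, mul_comm, inv_mul_cancel_left]
    rw [h1', map_mul] at h1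
    have h2 : Matrix.GeneralLinearGroup.det e = 1 := mul_eq_right.1 h1.symm
    have h3 : ζ ^ n = 1 := by
      have h4 : Matrix.det (e : Matrix (Fin n) (Fin n) F) = 1 := congrArg Units.val h2
      rw [hζ, Matrix.det_smul, Matrix.det_one, mul_one, Fintype.card_fin] at h4
      exact h4
    have := Fact.mk hr
    have hord' : orderOf ζ = r := orderOf_eq_prime hζr hζ1
    rw [← hord']
    exact orderOf_dvd_of_pow_eq_one h3
  have hfM : ∀ x ∈ M, ⁅x, g⁆ ∈ M := by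
    intro x hx
    have : ⁅x, g⁆ = x * (g * x⁻¹ * g⁻¹) := by rw [commutatorElement_def]; group
    rw [this]
    exact mul_mem hx (hgM _ (inv_mem hx))
  by_cases hA : ∀ x ∈ R, ⁅g, x⁆ ∈ Z
  · -- Case A: `g` centralises `R` modulo scalars.
    have h1 : ¬ ∀ x ∈ R, g * x = x * g := fun h => hns (hcomm g h)
    push Not at h1
    obtain ⟨x, hx, hgx⟩ := h1
    have hz' : ⁅x, g⁆ ∈ Z := by
      rw [← commutatorElement_inv]
      exact inv_mem (hA x hx)
    have hz1 : ⁅x, g⁆ ≠ 1 := fun h => hgx ((commutatorElement_eq_one_iff_mul_comm.1 h).symm)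
    obtain ⟨ζ, hζ, hζ0, hζ1, -⟩ := hscal _ hz'
    have hconj : x * g * x⁻¹ = ⁅x, g⁆ * g := by rw [commutatorElement_def]; group
    have h2 : 2 * Module.finrank F (eigSp g c) ≤ n :=
      scal_conj_bound_two hζ hζ0 (hζ1 hz1) hconj hc
    refine ⟨fun _ => by omega, fun _ => by omega, fun _ => h2, fun _ _ => h2⟩
  · -- Case B.
    push Not at hA
    obtain ⟨x₀, hx₀, hx₀g⟩ := hA
    have hy₀Z : ⁅x₀, g⁆ ∉ Z := by
      intro h
      apply hx₀g
      rw [← commutatorElement_inv]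
      exact inv_mem h
    have hy₀M : ⁅x₀, g⁆ ∈ M := hfM x₀ (hRM hx₀)
    have hgen : 2 * Module.finrank F (eigSp g c) ≤ n + Module.finrank F (fixSp ⁅x₀, g⁆) := by
      have h1 := two_finrank_le_add_inf (eigSp g c) x₀
      have h2 := Submodule.finrank_mono (eigSp_inf_map_le_fixSp g x₀ hc)
      omega
    have hf := hR3fix _ hy₀M hy₀Z
    have hrn : r ∣ n := hR3dvd _ hy₀M hy₀Z
    have hBodd : Odd ϖ → ϖ ≠ r → 2 * Module.finrank F (eigSp g c) ≤ n := by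
      intro hodd hne
      have hcop : Nat.Coprime ϖ r := (Nat.coprime_primes hϖ hr).2 hne
      have h1 := central_of_all_comm hcen hM hRM hcop hodd hMr hcent g hgϖ hgM hgM'
      have h2 : ¬ ∀ x ∈ R, ∀ j k : ℕ,
          ⁅g ^ j * x * (g ^ j)⁻¹ * x⁻¹, g ^ k * x * (g ^ k)⁻¹ * x⁻¹⁆ = 1 := by
        intro H
        exact hx₀g (h1 H x₀ hx₀)
      push Not at h2
      obtain ⟨x, hx, j, k, hjk⟩ := h2
      have haM : ∀ i : ℕ, g ^ i * x * (g ^ i)⁻¹ * x⁻¹ ∈ M :=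
        fun i => mul_mem (hgMk i x (hRM hx)) (inv_mem (hRM hx))
      obtain ⟨ζ, hζ, -, hζ1, -⟩ := hscal _ (hM _ (haM j) _ (haM k))
      exact two_finrank_eigSp_le_of_scal_comm hc hζ (hζ1 hjk) j k rfl
    have hB4 : ϖ = r → 5 ≤ r → 2 * Module.finrank F (eigSp g c) ≤ n := by
      intro hϖr hr5
      rw [hϖr] at hgϖ
      have := Fact.mk hr
      have hrodd : Odd r := hr.odd_of_ne_two (by omega)
      have hMp : IsPGroup r (M.map (QuotientGroup.mk' Z)) := by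
        rw [hMdef, Subgroup.map_sup, QuotientGroup.map_mk'_self, sup_bot_eq]
        exact hR.map _
      obtain ⟨x, hxM, hxg, hxgg⟩ :=
        exists_second_comm Z M hMp g hgϖ hgM hgM' x₀ (hRM hx₀) hy₀Z
      have hyM : ⁅x, g⁆ ∈ M := hfM x hxM
      have hxgy : x * g * x⁻¹ = ⁅x, g⁆ * g := by rw [commutatorElement_def]; group
      by_cases hz : ⁅⁅x, g⁆, g⁆ = 1
      · have hyg : ⁅x, g⁆ * g = g * ⁅x, g⁆ := commutatorElement_eq_one_iff_mul_comm.1 hz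
        have he := hMM x hxM _ hyM
        obtain ⟨θ, hθ, -, -, hθk⟩ := hscal _ he.1
        have hxy : x * ⁅x, g⁆ * x⁻¹ = ⁅x, ⁅x, g⁆⁆ * ⁅x, g⁆ := by
          rw [commutatorElement_def x ⁅x, g⁆]; group
        have hxr : x ^ r * g = g * x ^ r := by
          have h1 : x ^ r ∈ Z := by
            apply hcomm
            intro b hb
            have h2 : ⁅b, x ^ r⁆ = 1 := by
              rw [comm_pow_right' hcen hM (hRM hb) hxM, hMr b (hRM hb) x hxM]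
            exact ((commutatorElement_eq_one_iff_mul_comm.1 h2)).symm
          exact (hcen _ h1 g).symm
        obtain ⟨t, -, e', ω, -, hωr, hω1, -⟩ := hR3 _ hyM hxg
        have h5 := b4_bound hr hrodd hθ (hθk r he.2) he.2 hxgy hyg hxy hxr
          (hR3fix _ hyM hxg) hωr hω1 hc
        have h6 : 5 * Module.finrank F (eigSp g c) ≤ r * Module.finrank F (eigSp g c) :=
          Nat.mul_le_mul_right _ hr5
        omega
      · obtain ⟨ζ, hζ, hζ0, hζ1, -⟩ := hscal _ hxgg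
        have hconj : ⁅x, g⁆ * g * (⁅x, g⁆)⁻¹ = ⁅⁅x, g⁆, g⁆ * g := by
          rw [commutatorElement_def ⁅x, g⁆ g]; group
        exact scal_conj_bound_two hζ hζ0 (hζ1 hz) hconj hc
    have hr2 := hr.two_le
    refine ⟨?_, ?_, ?_, ?_⟩
    · intro _
      have : 2 * Module.finrank F (fixSp ⁅x₀, g⁆) ≤ r * Module.finrank F (fixSp ⁅x₀, g⁆) :=
        Nat.mul_le_mul_right _ hr2
      omega
    · intro h3
      rcases Nat.lt_or_ge r 3 with hr3 | hr3
      · have : 2 * Module.finrank F (eigSp g c) ≤ n :=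
          hBodd (by rw [h3]; decide) (by omega)
        omega
      · have : 3 * Module.finrank F (fixSp ⁅x₀, g⁆) ≤ r * Module.finrank F (fixSp ⁅x₀, g⁆) :=
          Nat.mul_le_mul_right _ hr3
        omega
    · intro h3
      by_cases hne : ϖ = r
      · apply hB4 hne
        rw [← hne]
        by_contra h5
        have h4 : ϖ = 4 := by omega
        rw [h4] at hϖ
        exact absurd hϖ (by decide)
      · exact hBodd (hϖ.odd_of_ne_two (by omega)) hne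
    · intro h3 h3n
      apply hBodd (by rw [h3]; decide)
      intro hne
      apply h3n
      rw [← h3, hne]
      exact hrn

end ExtraEig

end Cfsg.Agent.Lib.Helper97
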