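-- A Frobenius group `K⟨x⟩` with complement of prime order acting coprimely on a solvable group
-- `M` with cyclic `C_M(x)`: the derived group of `K` centralizes `M`.
import Mathlib
import Cfsg.Agent.S0027
import Cfsg.Agent.Lib.Helper97.FrobActMain
import Cfsg.Agent.Lib.Helper97.SectMod

set_option autoImplicit false

namespace Cfsg.Agent.Lib.Helper97.FrobCentral

open Subgroup
open scoped commutatorElement
open Cfsg.Agent.Lib.Helper97.FrobAct Cfsg.Agent.Lib.Helper97.SectMod

section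
variable {X : Type*} [Group X] [Finite X]

theorem frob_comm_centralizes_aux (K R M : Subgroup X) (x : X) (hxR : x ∈ R) {p : ℕ}
    (hp : p.Prime) (hxp : x ^ p = 1) (hRx : ∀ y ∈ R, y ∈ Subgroup.zpowers x)
    (hUn : ∀ e ∈ R, ∀ u ∈ K, e * u * e⁻¹ ∈ K) (hfix : ∀ u ∈ K, x * u = u * x → u = 1)
    (hnil : Group.IsNilpotent K) (hsolvM : Group.IsSolvable M)
    (hcop : (Nat.card ↥(K ⊔ R)).Coprime (Nat.card M))
    (hcyc : IsCyclic ↥(M ⊓ Subgroup.centralizer (R : Set X))) :
    ∀ n : ℕ, ∀ L : Subgroup X, Nat.card L ≤ n → L ≤ M →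
      K ⊔ R ≤ Subgroup.normalizer (L : Set X) →
      ⁅K, K⁆ ≤ Subgroup.centralizer (L : Set X) := by
  intro n
  induction n with
  | zero =>
    intro L hcard
    exact absurd hcard (by have := Nat.card_pos (α := L); omega)
  | succ n ih =>
    intro L hcard hLM hGL
    by_cases hL : L = ⊥
    · subst hL
      intro d _
      rw [Subgroup.mem_centralizer_iff]
      intro h hh
      have h1 : h = 1 := hh
      rw [h1, one_mul, mul_one]
    have hsolvL : Group.IsSolvable ↥L :=
      Group.isSolvable_of_isSolvable_injective (f := Subgroup.inclusion hLM)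
        (Subgroup.inclusion_injective hLM)
    obtain ⟨ℓ, hℓ, hℓdvd, hne⟩ := exists_frat_ne L hsolvL hL
    set N := frat ℓ L with hN
    have hNL : N ≤ L := frat_le ℓ L
    have hLN : L ≤ Subgroup.normalizer (N : Set X) :=
      Subgroup.le_normalizer.trans (normalizer_le_normalizer_frat ℓ L)
    have hGN : K ⊔ R ≤ Subgroup.normalizer (N : Set X) :=
      hGL.trans (normalizer_le_normalizer_frat ℓ L)
    have hNcard : Nat.card N ≤ n := by
      by_contra hcon
      exact hne (Subgroup.eq_of_le_of_card_ge hNL (by omega))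
    have hIH := ih N hNcard (hNL.trans hLM) hGN
    -- the section
    haveI hnorm : (N.subgroupOf L).Normal := Subgroup.normal_subgroupOf_of_le_normalizer hLN
    letI cg : CommGroup (↥L ⧸ N.subgroupOf L) :=
      { (inferInstance : Group (↥L ⧸ N.subgroupOf L)) with
        mul_comm := section_comm L N (comm_le_frat ℓ L) }
    letI act : MulDistribMulAction ↥(K ⊔ R) (↥L ⧸ N.subgroupOf L) := sectAct (K ⊔ R) L N hGL hGN
    have hexp : ∀ q : ↥L ⧸ N.subgroupOf L, q ^ ℓ = 1 := section_exp L N ℓ (pow_mem_frat ℓ L)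
    have hℓG : ¬ ℓ ∣ Nat.card ↥(K ⊔ R) := by
      intro h
      have h1 : ℓ ∣ Nat.card M := hℓdvd.trans (Subgroup.card_dvd_of_le hLM)
      have h2 := Nat.dvd_gcd h h1
      rw [Nat.Coprime] at hcop
      rw [hcop] at h2
      exact hℓ.one_lt.ne' (Nat.dvd_one.mp h2)
    have hGK : K ⊔ R ≤ Subgroup.normalizer (K : Set X) := by
      apply sup_le Subgroup.le_normalizer
      intro e he
      rw [Subgroup.mem_normalizer_iff]
      intro u
      constructor
      · exact hUn e he u
      · intro h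
        have h1 := hUn e⁻¹ (R.inv_mem he) _ h
        have h2 : e⁻¹ * (e * u * e⁻¹) * e⁻¹⁻¹ = u := by group
        rwa [h2] at h1
    haveI hKnorm : (K.subgroupOf (K ⊔ R)).Normal := Subgroup.normal_subgroupOf_of_le_normalizer hGK
    have hnil' : Group.IsNilpotent ↥(K.subgroupOf (K ⊔ R)) :=
      @Group.nilpotent_of_mulEquiv _ _ _ _ hnil (Subgroup.subgroupOfEquivOfLe le_sup_left).symm
    let r' : ↥(K ⊔ R) := ⟨x, Subgroup.mem_sup_right hxR⟩
    have hr' : r' ^ p = 1 := Subtype.ext (by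
      rw [Subgroup.coe_pow]
      exact hxp)
    have hfix' : ∀ k ∈ K.subgroupOf (K ⊔ R), r' * k = k * r' → k = 1 :=
      fun k hk h => Subtype.ext (hfix k hk (congrArg Subtype.val h))
    -- the fixed points of `r'` on the section form a cyclic group
    have hcopR : (Nat.card R).Coprime (Nat.card L) :=
      Nat.Coprime.coprime_dvd_left (Subgroup.card_dvd_of_le le_sup_right)
        (Nat.Coprime.coprime_dvd_right (Subgroup.card_dvd_of_le hLM) hcop)
    have hstab : ∀ q : ↥L ⧸ N.subgroupOf L, r' • q = q →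
        ∀ a : ↥(K ⊔ R), (a : X) ∈ R → a • q = q := by
      intro q hq a ha
      obtain ⟨i, hi⟩ := Subgroup.mem_zpowers_iff.mp (hRx a ha)
      have h1 : a = r' ^ i := Subtype.ext (by
        rw [Subgroup.coe_zpow]
        exact hi.symm)
      have h2 : r' ∈ MulAction.stabilizer ↥(K ⊔ R) q := hq
      have h3 : r' ^ i ∈ MulAction.stabilizer ↥(K ⊔ R) q := Subgroup.zpow_mem _ h2 i
      rw [h1]
      exact h3
    have hleC : L ⊓ Subgroup.centralizer (R : Set X) ≤ M ⊓ Subgroup.centralizer (R : Set X) :=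
      inf_le_inf hLM le_rfl
    have hcycL : IsCyclic ↥(L ⊓ Subgroup.centralizer (R : Set X)) :=
      isCyclic_of_surjective (Subgroup.subgroupOfEquivOfLe hleC)
        (Subgroup.subgroupOfEquivOfLe hleC).surjective
    obtain ⟨g₁, hg₁⟩ := hcycL.exists_generator
    let γ : ↥L ⧸ N.subgroupOf L := QuotientGroup.mk (⟨(g₁ : X), g₁.2.1⟩ : ↥L)
    have hfixγ : ∀ q : ↥L ⧸ N.subgroupOf L, r' • q = q → q ∈ Subgroup.zpowers γ := by
      intro q hq
      obtain ⟨c, hc, rfl⟩ := fixed_section_lift (K ⊔ R) L N R hNL hLN hGL hGN le_sup_right hcopR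
        (Or.inr hsolvL) q (hstab q hq)
      obtain ⟨i, hi⟩ := Subgroup.mem_zpowers_iff.mp
        (hg₁ (⟨(c : X), c.2, hc⟩ : ↥(L ⊓ Subgroup.centralizer (R : Set X))))
      refine Subgroup.mem_zpowers_iff.mpr ⟨i, ?_⟩
      change (QuotientGroup.mk (⟨(g₁ : X), g₁.2.1⟩ : ↥L) : ↥L ⧸ N.subgroupOf L) ^ i = _
      rw [← QuotientGroup.mk_zpow]
      congr 1
      apply Subtype.ext
      have h1 := congrArg Subtype.val hi
      rw [Subgroup.coe_zpow] at h1
      rw [Subgroup.coe_zpow]
      exact h1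
    have hcycQ : ∀ u ∈ (⊤ : Subgroup (↥L ⧸ N.subgroupOf L)),
        ∀ u' ∈ (⊤ : Subgroup (↥L ⧸ N.subgroupOf L)), r' • u = u → r' • u' = u' → u ≠ 1 →
        u' ∈ Subgroup.zpowers u := by
      intro u _ u' _ hu hu' hu1
      have hγ1 : γ ≠ 1 := by
        intro h
        have h1 := hfixγ u hu
        rw [h, Subgroup.zpowers_one_eq_bot] at h1
        exact hu1 (Subgroup.mem_bot.mp h1)
      have hcardγ : Nat.card (Subgroup.zpowers γ) = ℓ := by
        rw [Nat.card_zpowers]
        rcases (Nat.dvd_prime hℓ).mp (orderOf_dvd_of_pow_eq_one (hexp γ)) with h | h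
        · exact absurd (orderOf_eq_one_iff.mp h) hγ1
        · exact h
      exact mem_zpowers_of_prime_card (Subgroup.zpowers γ) hℓ hcardγ u u' (hfixγ u hu)
        (hfixγ u' hu') hu1
    have key := comm_of_frob (G := ↥(K ⊔ R)) (V := ↥L ⧸ N.subgroupOf L) (K.subgroupOf (K ⊔ R))
      hnil' r' hp hr' hfix' hℓ hexp hℓG (Nat.card (⊤ : Subgroup (↥L ⧸ N.subgroupOf L))) ⊤ le_rfl
      (fun g u _ => Subgroup.mem_top _) hcycQ
    -- the kernel of the action on the section
    let Ker : Subgroup ↥(K ⊔ R) :=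
      { carrier := {g | ∀ q : ↥L ⧸ N.subgroupOf L, g • q = q}
        mul_mem' := fun {a b} ha hb q => by rw [mul_smul, hb q, ha q]
        one_mem' := fun q => one_smul _ q
        inv_mem' := fun {a} ha q => by rw [inv_smul_eq_iff, ha q] }
    have hcomm_le : ⁅K.subgroupOf (K ⊔ R), K.subgroupOf (K ⊔ R)⁆ ≤ Ker := by
      rw [Subgroup.commutator_le]
      intro a ha b hb q
      rw [commutatorElement_def, mul_smul, mul_smul, mul_smul,
        key a ha b hb _ (Subgroup.mem_top _), smul_inv_smul, smul_inv_smul]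
    have hmap : (⁅K.subgroupOf (K ⊔ R), K.subgroupOf (K ⊔ R)⁆).map (K ⊔ R).subtype = ⁅K, K⁆ := by
      rw [Subgroup.map_commutator, Subgroup.map_subgroupOf_eq_of_le le_sup_left]
    have hD : ∀ d ∈ ⁅K, K⁆, ∀ y ∈ L, d * y * d⁻¹ * y⁻¹ ∈ N := by
      intro d hd y hy
      rw [← hmap] at hd
      obtain ⟨g, hg, rfl⟩ := hd
      exact comm_mem_of_trivial (K ⊔ R) L N hLN hGL hGN g (hcomm_le hg) y hy
    have hLD : ⁅L, ⁅K, K⁆⁆ ≤ N := by
      rw [Subgroup.commutator_le]
      intro y hy d hd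
      have h1 := N.inv_mem (hD d hd y hy)
      have h2 : (d * y * d⁻¹ * y⁻¹)⁻¹ = ⁅y, d⁆ := by
        rw [commutatorElement_def]
        group
      rwa [h2] at h1
    have hDK : ⁅K, K⁆ ≤ K := by
      rw [Subgroup.commutator_le]
      intro a ha b hb
      rw [commutatorElement_def]
      exact K.mul_mem (K.mul_mem (K.mul_mem ha hb) (K.inv_mem ha)) (K.inv_mem hb)
    have hDG : ⁅K, K⁆ ≤ K ⊔ R := hDK.trans le_sup_left
    have hcopD : (Nat.card ↥⁅K, K⁆).Coprime (Nat.card L) :=
      Nat.Coprime.coprime_dvd_left (Subgroup.card_dvd_of_le hDG)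
        (Nat.Coprime.coprime_dvd_right (Subgroup.card_dvd_of_le hLM) hcop)
    have h27 := Cfsg.Agent.S0027.result ⁅K, K⁆ L (hDG.trans hGL) hcopD (Or.inr hsolvL)
    have hbot : ⁅⁅L, ⁅K, K⁆⁆, ⁅K, K⁆⁆ = ⊥ := by
      rw [eq_bot_iff]
      have h1 : ⁅N, ⁅K, K⁆⁆ = ⊥ :=
        Subgroup.commutator_eq_bot_iff_le_centralizer.mpr (Subgroup.le_centralizer_iff.mp hIH)
      rw [← h1]
      exact Subgroup.commutator_mono hLD le_rfl
    rw [hbot] at h27
    exact Subgroup.le_centralizer_iff.mp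
      (Subgroup.commutator_eq_bot_iff_le_centralizer.mp h27.symm)

end

end Cfsg.Agent.Lib.Helper97.FrobCentral
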