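-- The Hall–Higman type bound in multiplicative form: a group generated by the image of a
-- group `Qg` of "extraspecial type" and an element `x` of prime order `r` acting fixed point
-- freely on a finite abelian group of prime exponent `p`.
import Mathlib
import Cfsg.Agent.Lib.Helper90.Maschke
import Cfsg.Agent.Lib.Helper97.ExtraModMul
import Cfsg.Agent.Lib.Helper97.FrobActMain
import Cfsg.Agent.Lib.Helper97.HHCore

set_option autoImplicit false

namespace Cfsg.Agent.Lib.Helper97.HH

open scoped commutatorElement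
open Cfsg.Agent.Lib.Helper97.ExtraMod (actEndTop actEndTop_apply)
open Cfsg.Agent.Lib.Helper97.FrobAct (invStab mem_invStab_of)

theorem hh_mul {H V Qg : Type*} [Group H] [Finite H] [CommGroup V] [Finite V]
    [MulDistribMulAction H V] [Group Qg] [Finite Qg]
    (ι : Qg →* H) (x : H) (α : Qg ≃* Qg)
    (hα : ∀ g, x * ι g * x⁻¹ = ι (α g))
    (hgen : Subgroup.closure (Set.range ι ∪ {x}) = ⊤)
    {p q r : ℕ} (hp : p.Prime) (hq : q.Prime) (hr : r.Prime) (hpr : p ≠ r)
    (hHcop : ¬ p ∣ Nat.card H)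
    (hQcop : ¬ p ∣ Nat.card Qg)
    (hZcard : Nat.card (Subgroup.center Qg) = q)
    (hcomm : ∀ g h : Qg, ⁅g, h⁆ ∈ Subgroup.center Qg)
    (hαr : α ^ r = 1)
    (hαfpf : ∀ g, g⁻¹ * α g ∈ Subgroup.center Qg → g ∈ Subgroup.center Qg)
    (hαZ : ∀ z ∈ Subgroup.center Qg, α z = z)
    (hxr : x ^ r = 1)
    (hexp : ∀ v : V, v ^ p = 1)
    (hfaithZ : ∃ z ∈ Subgroup.center Qg, ∃ v : V, ι z • v ≠ v)
    (hfixX : ∀ v : V, x • v = v → v = 1) :
    Nat.card (Qg ⧸ Subgroup.center Qg) ≤ (r - 1) ^ 2 := by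
  classical
  have hfp : Fact p.Prime := ⟨hp⟩
  have hfq : Fact q.Prime := ⟨hq⟩
  obtain ⟨z₀, hz₀Z, v₀, hv₀⟩ := hfaithZ
  have hz₀1 : z₀ ≠ 1 := by
    intro h
    apply hv₀
    rw [h, map_one, one_smul]
  -- `x` conjugates `ι g` to `ι (α g)`
  have hxι : ∀ g, x * ι g = ι (α g) * x := by
    intro g
    rw [← hα g, inv_mul_cancel_right]
  -- `ι z₀` is central
  have hcen : ∀ h : H, h * ι z₀ = ι z₀ * h := by
    have h1 : Subgroup.closure (Set.range ι ∪ {x}) ≤ Subgroup.centralizer {ι z₀} := by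
      rw [Subgroup.closure_le]
      rintro h (⟨g, rfl⟩ | hx)
      · rw [SetLike.mem_coe, Subgroup.mem_centralizer_iff]
        intro y hy
        rw [Set.mem_singleton_iff.mp hy, ← map_mul, ← map_mul,
          Subgroup.mem_center_iff.mp hz₀Z g]
      · rw [Set.mem_singleton_iff.mp hx, SetLike.mem_coe, Subgroup.mem_centralizer_iff]
        intro y hy
        rw [Set.mem_singleton_iff.mp hy]
        have := hxι z₀
        rw [hαZ z₀ hz₀Z] at this
        exact this.symm
    intro h
    have h2 : h ∈ Subgroup.centralizer {ι z₀} := h1 (by rw [hgen]; trivial)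
    exact (Subgroup.mem_centralizer_iff.mp h2 (ι z₀) rfl).symm
  -- its fixed points
  let U : Subgroup V :=
    { carrier := {v | ι z₀ • v = v}
      mul_mem' := fun {a b} ha hb => by
        have ha' : ι z₀ • a = a := ha
        have hb' : ι z₀ • b = b := hb
        change ι z₀ • (a * b) = a * b
        rw [smul_mul', ha', hb']
      one_mem' := smul_one (ι z₀)
      inv_mem' := fun {a} ha => by
        have ha' : ι z₀ • a = a := ha
        change ι z₀ • a⁻¹ = a⁻¹
        rw [smul_inv', ha'] }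
  have hUinv : ∀ g : H, ∀ y ∈ U, g • y ∈ U := by
    intro g y hy
    have hy' : ι z₀ • y = y := hy
    change ι z₀ • g • y = g • y
    rw [← mul_smul, ← hcen g, mul_smul, hy']
  have hcop : (Nat.card H).Coprime (Nat.card V) := by
    have hV : IsPGroup p V := fun v => ⟨1, by rw [pow_one]; exact hexp v⟩
    obtain ⟨k, hk⟩ := IsPGroup.iff_card.mp hV
    rw [hk]
    exact Nat.Coprime.pow_right _ ((Nat.Prime.coprime_iff_not_dvd hp).mpr hHcop).symm
  obtain ⟨W₂, hW₂inv, hdisj, hsup⟩ :=
    Cfsg.Agent.Lib.Helper90.maschke_elementary (A := H) hp hexp hcop U hUinv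
  have hW₂ne : W₂ ≠ ⊥ := by
    intro h
    rw [h, sup_bot_eq] at hsup
    apply hv₀
    have h1 : v₀ ∈ U := by rw [hsup]; trivial
    exact h1
  -- a minimal invariant subgroup
  let P : Subgroup V → Prop := fun W => W ≤ W₂ ∧ (∀ g : H, ∀ y ∈ W, g • y ∈ W) ∧ W ≠ ⊥
  have hex : ∃ k, ∃ W : Subgroup V, Nat.card W = k ∧ P W :=
    ⟨_, W₂, rfl, le_rfl, hW₂inv, hW₂ne⟩
  obtain ⟨W, hWk, hWle, hWinv, hWne⟩ := Nat.find_spec hex
  have hWmin : ∀ W' : Subgroup V, W' ≤ W → (∀ g : H, ∀ y ∈ W', g • y ∈ W') →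
      W' = ⊥ ∨ W' = W := by
    intro W' hle hinv
    by_cases hb : W' = ⊥
    · exact Or.inl hb
    · right
      have h1 : Nat.find hex ≤ Nat.card W' :=
        Nat.find_min' hex ⟨W', rfl, hle.trans hWle, hinv, hb⟩
      rw [← hWk] at h1
      exact Subgroup.eq_of_le_of_card_ge hle h1
  -- fixed points of central elements on `W`
  have hWfix : ∀ z ∈ Subgroup.center Qg, z ≠ 1 → ∀ y ∈ W, ι z • y = y → y = 1 := by
    intro z hzZ hz1 y hy hzy
    have hpow : ∃ k : ℕ, z ^ k = z₀ := by
      have h1 : (⟨z₀, hz₀Z⟩ : Subgroup.center Qg) ∈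
          Subgroup.zpowers (⟨z, hzZ⟩ : Subgroup.center Qg) := by
        rw [zpowers_eq_top_of_prime_card hZcard (fun h => hz1 (congrArg Subtype.val h))]
        trivial
      obtain ⟨k, hk⟩ := mem_powers_iff_mem_zpowers.mpr h1
      exact ⟨k, congrArg Subtype.val hk⟩
    obtain ⟨k, hk⟩ := hpow
    have h2 : ∀ k : ℕ, ι z ^ k • y = y := by
      intro k
      induction k with
      | zero => rw [pow_zero, one_smul]
      | succ k ih => rw [pow_succ, mul_smul, hzy, ih]
    have h3 : y ∈ U ⊓ W₂ := ⟨by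
      change ι z₀ • y = y
      rw [← hk, map_pow]
      exact h2 k, hWle hy⟩
    rw [hdisj] at h3
    exact Subgroup.mem_bot.mp h3
  have hfinW : Finite (Additive ↥W) := inferInstanceAs (Finite ↥W)
  have hntW' : Nontrivial ↥W := (Subgroup.nontrivial_iff_ne_bot W).mpr hWne
  have hntW : Nontrivial (Additive ↥W) := inferInstanceAs (Nontrivial ↥W)
  have hxinv : x⁻¹ = x ^ (r - 1) := by
    symm
    apply eq_inv_of_mul_eq_one_left
    rw [← pow_succ, Nat.sub_add_cancel hr.one_lt.le, hxr]
  refine hh_core (M := Additive ↥W) ((actEndTop W hWinv).comp ι) α (actEndTop W hWinv x)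
    (actEndTop W hWinv x⁻¹) ?_ ?_ ?_ hp hq hr hpr hQcop hZcard hcomm hαr hαfpf hαZ ?_ ?_ ?_ ?_ ?_
  · rw [← map_mul, mul_inv_cancel, map_one]
  · rw [← map_mul, inv_mul_cancel, map_one]
  · intro g
    rw [MonoidHom.comp_apply, MonoidHom.comp_apply, ← map_mul, ← map_mul, hxι g]
  · rw [← map_pow, hxr, map_one]
  · intro m
    have h1 : ((Additive.toMul m : ↥W) ^ p : ↥W) = 1 := Subtype.ext (by
      rw [Subgroup.coe_pow]
      exact hexp _)
    exact congrArg Additive.ofMul h1
  · intro z hzZ hz1 m hm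
    have h1 : ((Additive.toMul m : ↥W) : V) = 1 := by
      apply hWfix z hzZ hz1 _ (Additive.toMul m).2
      exact congrArg (fun t : Additive ↥W => ((Additive.toMul t : ↥W) : V)) hm
    exact congrArg Additive.ofMul (Subtype.ext h1 : (Additive.toMul m : ↥W) = 1)
  · intro m hm
    have h1 : ((Additive.toMul m : ↥W) : V) = 1 := by
      apply hfixX
      exact congrArg (fun t : Additive ↥W => ((Additive.toMul t : ↥W) : V)) hm
    exact congrArg Additive.ofMul (Subtype.ext h1 : (Additive.toMul m : ↥W) = 1)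
  · intro W' hρ hξW
    let W'' : Subgroup V := (AddSubgroup.toSubgroup' W').map W.subtype
    have hmem : ∀ y : ↥W, (y : V) ∈ W'' ↔ Additive.ofMul y ∈ W' := by
      intro y
      constructor
      · rintro ⟨y', hy', hy'eq⟩
        have h1 : y' = y := Subtype.ext hy'eq
        rw [← h1]
        exact hy'
      · intro hy
        exact ⟨y, hy, rfl⟩
    have hle : W'' ≤ W := by
      rintro _ ⟨y', -, rfl⟩
      exact y'.2
    have hιinv : ∀ g : Qg, ∀ y ∈ W'', ι g • y ∈ W'' := by
      rintro g _ ⟨y', hy', rfl⟩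
      exact (hmem ⟨ι g • (y' : V), hWinv (ι g) _ y'.2⟩).mpr (hρ g _ hy')
    have hxinv1 : ∀ y ∈ W'', x • y ∈ W'' := by
      rintro _ ⟨y', hy', rfl⟩
      exact (hmem ⟨x • (y' : V), hWinv x _ y'.2⟩).mpr (hξW _ hy')
    have hxpow : ∀ k : ℕ, ∀ y ∈ W'', x ^ k • y ∈ W'' := by
      intro k
      induction k with
      | zero => intro y hy; rw [pow_zero, one_smul]; exact hy
      | succ k ih => intro y hy; rw [pow_succ, mul_smul]; exact ih _ (hxinv1 y hy)
    have hS : Subgroup.closure (Set.range ι ∪ {x}) ≤ invStab (G := H) W'' := by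
      rw [Subgroup.closure_le]
      rintro h (⟨g, rfl⟩ | hx)
      · apply mem_invStab_of
        · exact hιinv g
        · intro y hy
          rw [← map_inv]
          exact hιinv g⁻¹ y hy
      · rw [Set.mem_singleton_iff.mp hx]
        apply mem_invStab_of
        · exact hxinv1
        · intro y hy
          rw [hxinv]
          exact hxpow _ y hy
    have hinv'' : ∀ g : H, ∀ y ∈ W'', g • y ∈ W'' := by
      intro g y hy
      have h1 : g ∈ invStab (G := H) W'' := hS (by rw [hgen]; trivial)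
      exact (h1 y).mpr hy
    rcases hWmin W'' hle hinv'' with h | h
    · left
      rw [AddSubgroup.eq_bot_iff_forall]
      intro m hm
      have h1 : ((Additive.toMul m : ↥W) : V) ∈ W'' := (hmem _).mpr hm
      rw [h] at h1
      have h2 : ((Additive.toMul m : ↥W) : V) = 1 := Subgroup.mem_bot.mp h1
      exact congrArg Additive.ofMul (Subtype.ext h2 : (Additive.toMul m : ↥W) = 1)
    · right
      rw [AddSubgroup.eq_top_iff']
      intro m
      have h1 : ((Additive.toMul m : ↥W) : V) ∈ W'' := by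
        rw [h]
        exact (Additive.toMul m).2
      exact (hmem _).mp h1

end Cfsg.Agent.Lib.Helper97.HH
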