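-- Orbit counting for a permutation of prime order with a unique fixed point, and the count of
-- twisted-equivariant functions.
import Mathlib

set_option autoImplicit false

namespace Cfsg.Agent.Lib.Helper97.HH

theorem orbit_count {Ω : Type*} [Finite Ω] (σ : Equiv.Perm Ω) {r : ℕ} (hr : r.Prime)
    (hσr : σ ^ r = 1) (q₀ : Ω) (hq₀ : σ q₀ = q₀) (hfix : ∀ q, σ q = q → q = q₀) :
    Nat.card (Quotient (MulAction.orbitRel (Subgroup.zpowers σ) Ω)) * r = Nat.card Ω + r - 1 := by
  classical
  have hfr : Fact r.Prime := ⟨hr⟩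
  have hfΩ : Fintype Ω := Fintype.ofFinite Ω
  have hfG : Fintype (Subgroup.zpowers σ) := Fintype.ofFinite _
  have hburn := MulAction.sum_card_fixedBy_eq_card_orbits_mul_card_group (Subgroup.zpowers σ) Ω
  have hq₀fix : ∀ a : Subgroup.zpowers σ, a • q₀ = q₀ := by
    intro a
    have h1 : (⟨σ, Subgroup.mem_zpowers σ⟩ : Subgroup.zpowers σ) ∈ MulAction.stabilizer (Subgroup.zpowers σ) q₀ :=
      hq₀
    have h2 : Subgroup.zpowers (⟨σ, Subgroup.mem_zpowers σ⟩ : Subgroup.zpowers σ) ≤
        MulAction.stabilizer (Subgroup.zpowers σ) q₀ := by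
      rw [Subgroup.zpowers_le]
      exact h1
    obtain ⟨k, hk⟩ := Subgroup.mem_zpowers_iff.mp a.2
    have h3 : a = (⟨σ, Subgroup.mem_zpowers σ⟩ : Subgroup.zpowers σ) ^ k := Subtype.ext hk.symm
    have h4 : a ∈ MulAction.stabilizer (Subgroup.zpowers σ) q₀ := by
      rw [h3]
      exact h2 (Subgroup.zpow_mem_zpowers _ k)
    exact h4
  by_cases h1 : σ = 1
  · have hall : ∀ q : Ω, q = q₀ := fun q => hfix q (by rw [h1]; rfl)
    have hsub : Subsingleton Ω := ⟨fun a b => (hall a).trans (hall b).symm⟩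
    have hc1 : Nat.card Ω = 1 := Nat.card_eq_one_iff_unique.mpr ⟨hsub, ⟨q₀⟩⟩
    have hc2 : Nat.card (Quotient (MulAction.orbitRel (Subgroup.zpowers σ) Ω)) = 1 := by
      apply Nat.card_eq_one_iff_unique.mpr
      refine ⟨⟨fun a b => ?_⟩, ⟨Quotient.mk'' q₀⟩⟩
      induction a using Quotient.inductionOn' with
      | _ a =>
        induction b using Quotient.inductionOn' with
        | _ b => rw [hall a, hall b]
    rw [hc1, hc2]
    omega
  · have hord : orderOf σ = r := orderOf_eq_prime hσr h1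
    have hcardG : Fintype.card (Subgroup.zpowers σ) = r := by
      rw [← Nat.card_eq_fintype_card, Nat.card_zpowers, hord]
    have hfb : ∀ a : Subgroup.zpowers σ, a ≠ 1 → Fintype.card (MulAction.fixedBy Ω a) = 1 := by
      intro a ha
      rw [Fintype.card_eq_one_iff]
      refine ⟨⟨q₀, hq₀fix a⟩, ?_⟩
      rintro ⟨q, hq⟩
      apply Subtype.ext
      change q = q₀
      apply hfix
      have hcard : Nat.card (Subgroup.zpowers σ) = r := by rw [Nat.card_zpowers, hord]
      have htop := zpowers_eq_top_of_prime_card hcard ha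
      have h2 : (⟨σ, Subgroup.mem_zpowers σ⟩ : Subgroup.zpowers σ) ∈ Subgroup.zpowers a := by
        rw [htop]
        trivial
      have h3 : a ∈ MulAction.stabilizer (Subgroup.zpowers σ) q := hq
      have h4 : Subgroup.zpowers a ≤ MulAction.stabilizer (Subgroup.zpowers σ) q := by
        rw [Subgroup.zpowers_le]
        exact h3
      exact h4 h2
    have hfb1 : Fintype.card (MulAction.fixedBy Ω (1 : Subgroup.zpowers σ)) = Fintype.card Ω := by
      apply Fintype.card_of_subtype Finset.univ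
      intro q
      simp
    have hsum : ∑ a : Subgroup.zpowers σ, Fintype.card (MulAction.fixedBy Ω a) =
        Fintype.card Ω + (r - 1) := by
      rw [← Finset.add_sum_erase Finset.univ _ (Finset.mem_univ (1 : Subgroup.zpowers σ)), hfb1]
      congr 1
      rw [Finset.sum_congr rfl (fun a ha => hfb a (Finset.ne_of_mem_erase ha)), Finset.sum_const,
        Finset.card_erase_of_mem (Finset.mem_univ _), Finset.card_univ, hcardG, smul_eq_mul,
        mul_one]
    rw [hsum, hcardG] at hburn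
    rw [Nat.card_eq_fintype_card, Nat.card_eq_fintype_card, ← hburn]
    have := hr.pos
    omega

theorem card_sub_one_dvd {Ω : Type*} [Finite Ω] (σ : Equiv.Perm Ω) {r : ℕ} (hr : r.Prime)
    (hσr : σ ^ r = 1) (q₀ : Ω) (hq₀ : σ q₀ = q₀) (hfix : ∀ q, σ q = q → q = q₀) :
    r ∣ Nat.card Ω - 1 := by
  have h := orbit_count σ hr hσr q₀ hq₀ hfix
  have hpos : 0 < Nat.card Ω := Nat.card_pos_iff.mpr ⟨⟨q₀⟩, inferInstance⟩
  have hrpos := hr.pos
  set k := Nat.card (Quotient (MulAction.orbitRel (Subgroup.zpowers σ) Ω)) with hk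
  have hk1 : 1 ≤ k := by
    by_contra hcon
    have hk0 : k = 0 := by omega
    rw [hk0] at h
    omega
  refine ⟨k - 1, ?_⟩
  have h2 : k * r = (k - 1) * r + r := by
    have h3 : k = (k - 1) + 1 := by omega
    calc k * r = ((k - 1) + 1) * r := by rw [← h3]
      _ = (k - 1) * r + r := by rw [add_mul, one_mul]
  rw [mul_comm r (k - 1)]
  omega

theorem equivariant_count {Ω B : Type*} [Finite Ω] [Finite B] (σ : Equiv.Perm Ω) {r : ℕ}
    (hr : r.Prime) (hσr : σ ^ r = 1) (q₀ : Ω) (hq₀ : σ q₀ = q₀) (hfix : ∀ q, σ q = q → q = q₀)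
    (τ : Ω → B → B) :
    Nat.card {b : Ω → B // ∀ q, b (σ q) = τ q (b q)} ^ r ≤ Nat.card B ^ (Nat.card Ω + r - 1) := by
  classical
  have hinj : Function.Injective
      (fun (b : {b : Ω → B // ∀ q, b (σ q) = τ q (b q)})
        (o : Quotient (MulAction.orbitRel (Subgroup.zpowers σ) Ω)) => b.1 (Quotient.out o)) := by
    intro b b' hbb
    apply Subtype.ext
    funext q
    have key : ∀ (n : ℕ) (s : Ω), b.1 s = b'.1 s → b.1 ((σ ^ n) s) = b'.1 ((σ ^ n) s) := by
      intro n s hs
      induction n with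
      | zero => simpa using hs
      | succ n ih =>
        rw [pow_succ', Equiv.Perm.mul_apply, b.2, b'.2, ih]
    have hrel : Quotient.out (Quotient.mk (MulAction.orbitRel (Subgroup.zpowers σ) Ω) q) ∈
        MulAction.orbit (Subgroup.zpowers σ) q :=
      (MulAction.orbitRel_apply).mp (Quotient.mk_out (s := MulAction.orbitRel (Subgroup.zpowers σ) Ω) q)
    obtain ⟨g, hg⟩ := hrel
    have hg' : q = g⁻¹ • Quotient.out (Quotient.mk (MulAction.orbitRel (Subgroup.zpowers σ) Ω) q) := by
      rw [← hg, inv_smul_smul]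
    have hmem : (g⁻¹ : Subgroup.zpowers σ).1 ∈ Submonoid.powers σ :=
      mem_powers_iff_mem_zpowers.mpr (g⁻¹).2
    obtain ⟨n, hn⟩ := hmem
    have hn' : σ ^ n = (g⁻¹ : Subgroup.zpowers σ).1 := hn
    have hq : q = (σ ^ n) (Quotient.out (Quotient.mk (MulAction.orbitRel (Subgroup.zpowers σ) Ω) q)) := by
      rw [hn']
      exact hg'
    rw [hq]
    apply key
    exact congrFun hbb _
  have h1 := Nat.card_le_card_of_injective _ hinj
  rw [Nat.card_fun] at h1
  calc Nat.card {b : Ω → B // ∀ q, b (σ q) = τ q (b q)} ^ r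
      ≤ (Nat.card B ^ Nat.card (Quotient (MulAction.orbitRel (Subgroup.zpowers σ) Ω))) ^ r :=
        Nat.pow_le_pow_left h1 r
    _ = Nat.card B ^ (Nat.card Ω + r - 1) := by
        rw [← pow_mul, orbit_count σ hr hσr q₀ hq₀ hfix]

end Cfsg.Agent.Lib.Helper97.HH
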