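import Mathlib
import Cfsg.Agent.Lib.Helper97.SO.Block

/-!
# No non-abelian simple group of order 4536 = 2^3 * 3^4 * 7

Package of helper91's S0983 project: `p = 7`, local cases `([N(P):C(P)], |C(P)|)` in
`[(2, 63), (3, 42), (6, 21)]`; each dies by the principal `7`-block (Brauer) together with
rule K1 applied to an element of prime order `≠ 7` of `C(P)`.
-/

set_option autoImplicit false

namespace Cfsg.Agent.Lib.Helper97.Ord4536

open Cfsg Cfsg.Agent.Lib.Helper17 Cfsg.Agent.Lib.Helper93.SO Cfsg.Agent.Lib.Helper91.SO2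
open Cfsg.Agent.Lib.Helper97.SOB

universe u

/-- candidates `(degree, value)` for the non-exceptional characters -/
theorem cands (f : ℕ) (a : ℤ) (h : OkC 4536 7 f a) (h1 : -2 ≤ a) (h2 : a ≤ 2) :
    (f, a) ∈ ([(27, -1), (36, 1), (54, -2)] : List (ℕ × ℤ)) := by
  have hf : f ∈ List.range 68 := by
    have := h.2.2.2.1
    rw [List.mem_range]
    nlinarith
  have ha : a ∈ ([-2, -1, 0, 1, 2] : List ℤ) := by
    simp only [List.mem_cons, List.not_mem_nil, or_false]
    omega
  have key : ∀ f ∈ List.range 68, ∀ a ∈ ([-2, -1, 0, 1, 2] : List ℤ), OkC 4536 7 f a →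
      (f, a) ∈ ([(27, -1), (36, 1), (54, -2)] : List (ℕ × ℤ)) := by
    decide +kernel
  exact key f hf a ha h

/-- candidates for the degree of the exceptional characters -/
theorem excs (f : ℕ) (h : OkE 4536 7 f) :
    f ∈ ([14, 18, 21, 24, 27, 28, 36, 42, 54, 56, 63] : List ℕ) := by
  have hf : f ∈ List.range 68 := by
    have := h.2.2.1
    rw [List.mem_range]
    nlinarith
  have key : ∀ f ∈ List.range 68, OkE 4536 7 f →
      f ∈ ([14, 18, 21, 24, 27, 28, 36, 42, 54, 56, 63] : List ℕ) := by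
    decide +kernel
  exact key f hf h

theorem case_2_63 {G : Type u} [Group G] [Finite G] [IsSimpleGroup G] (hG : Nat.card G = 4536)
    (P : Sylow 7 G) (hP : Nat.card (P : Subgroup G) = 7)
    (hr : (Subgroup.centralizer ((P : Subgroup G) : Set G)).relIndex
      (Subgroup.normalizer ((P : Subgroup G) : Set G)) = 2)
    (hC : Nat.card (Subgroup.centralizer ((P : Subgroup G) : Set G)) = 63) : False := by
  haveI : Fact (Nat.Prime 7) := ⟨by norm_num⟩
  obtain ⟨k, f, a, f0, d, δ, hk, hδ, hOk, hE, heq, hrel⟩ :=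
    block_low 4536 7 2 3 hG (by norm_num) P hP (by norm_num) hr (by norm_num) (by norm_num)
      (by rw [hC]; norm_num)
  norm_num at heq hrel
  have hf0 := excs f0 hE
  have hS0 : 0 ≤ ∑ j, a j ^ 2 := Finset.sum_nonneg (fun j _ => sq_nonneg (a j))
  have hsq : ∑ j, a j ^ 2 ≤ 4 := by nlinarith [sq_nonneg (d - δ), sq_nonneg d]
  have hdd : (d - δ) ^ 2 ≤ 4 := by nlinarith [sq_nonneg d]
  have hd : -3 ≤ d ∧ d ≤ 3 := by
    rcases hδ with rfl | rfl <;> constructor <;> nlinarith
  have hcand : ∀ i, (f i, a i) ∈ ([(27, -1), (36, 1), (54, -2)] : List (ℕ × ℤ)) := by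
    intro i
    have h1 := sq_le_of_sum_sq_le a 4 hsq i
    exact cands (f i) (a i) (hOk i) (by nlinarith) (by nlinarith)
  have hb : badB [(27, -1), (36, 1), (54, -2)] k (∑ i, a i ^ 2) (∑ i, a i * (f i : ℤ)) = true :=
    badB_of k (fun i => (f i, a i)) hcand
  have key : ∀ k ∈ List.range 2, ∀ δ ∈ ([1, -1] : List ℤ),
      ∀ d ∈ ([-3, -2, -1, 0, 1, 2, 3] : List ℤ), ∀ f0 ∈ ([14, 18, 21, 24, 27, 28, 36, 42, 54, 56, 63] : List ℕ),
      badB [(27, -1), (36, 1), (54, -2)] k
        (2 - (d - δ) ^ 2 - (3 - 1) * d ^ 2) (-1 - (3 * d - δ) * (f0 : ℤ)) = false := by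
    decide +kernel
  have hS : ∑ i, a i ^ 2 = 2 - (d - δ) ^ 2 - (3 - 1) * d ^ 2 := by linarith
  have hL : ∑ i, a i * (f i : ℤ) = -1 - (3 * d - δ) * (f0 : ℤ) := by linarith
  have hδ' : δ ∈ ([1, -1] : List ℤ) := by
    simp only [List.mem_cons, List.not_mem_nil, or_false]
    exact hδ
  have hd' : d ∈ ([-3, -2, -1, 0, 1, 2, 3] : List ℤ) := by
    simp only [List.mem_cons, List.not_mem_nil, or_false]
    omega
  have h3 := key k (List.mem_range.mpr (by omega)) δ hδ' d hd' f0 hf0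
  rw [hS, hL, h3] at hb
  exact absurd hb (by decide)

theorem case_3_42 {G : Type u} [Group G] [Finite G] [IsSimpleGroup G] (hG : Nat.card G = 4536)
    (P : Sylow 7 G) (hP : Nat.card (P : Subgroup G) = 7)
    (hr : (Subgroup.centralizer ((P : Subgroup G) : Set G)).relIndex
      (Subgroup.normalizer ((P : Subgroup G) : Set G)) = 3)
    (hC : Nat.card (Subgroup.centralizer ((P : Subgroup G) : Set G)) = 42) : False := by
  haveI : Fact (Nat.Prime 7) := ⟨by norm_num⟩
  obtain ⟨k, f, a, f0, d, δ, hk, hδ, hOk, hE, heq, hrel⟩ :=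
    block_low 4536 7 3 3 hG (by norm_num) P hP (by norm_num) hr (by norm_num) (by norm_num)
      (by rw [hC]; norm_num)
  norm_num at heq hrel
  have hf0 := excs f0 hE
  have hS0 : 0 ≤ ∑ j, a j ^ 2 := Finset.sum_nonneg (fun j _ => sq_nonneg (a j))
  have hsq : ∑ j, a j ^ 2 ≤ 4 := by nlinarith [sq_nonneg (d - δ), sq_nonneg d]
  have hdd : (d - δ) ^ 2 ≤ 4 := by nlinarith [sq_nonneg d]
  have hd : -3 ≤ d ∧ d ≤ 3 := by
    rcases hδ with rfl | rfl <;> constructor <;> nlinarith
  have hcand : ∀ i, (f i, a i) ∈ ([(27, -1), (36, 1), (54, -2)] : List (ℕ × ℤ)) := by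
    intro i
    have h1 := sq_le_of_sum_sq_le a 4 hsq i
    exact cands (f i) (a i) (hOk i) (by nlinarith) (by nlinarith)
  have hb : badB [(27, -1), (36, 1), (54, -2)] k (∑ i, a i ^ 2) (∑ i, a i * (f i : ℤ)) = true :=
    badB_of k (fun i => (f i, a i)) hcand
  have key : ∀ k ∈ List.range 3, ∀ δ ∈ ([1, -1] : List ℤ),
      ∀ d ∈ ([-3, -2, -1, 0, 1, 2, 3] : List ℤ), ∀ f0 ∈ ([14, 18, 21, 24, 27, 28, 36, 42, 54, 56, 63] : List ℕ),
      badB [(27, -1), (36, 1), (54, -2)] k
        (3 - (d - δ) ^ 2 - (2 - 1) * d ^ 2) (-1 - (2 * d - δ) * (f0 : ℤ)) = false := by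
    decide +kernel
  have hS : ∑ i, a i ^ 2 = 3 - (d - δ) ^ 2 - (2 - 1) * d ^ 2 := by linarith
  have hL : ∑ i, a i * (f i : ℤ) = -1 - (2 * d - δ) * (f0 : ℤ) := by linarith
  have hδ' : δ ∈ ([1, -1] : List ℤ) := by
    simp only [List.mem_cons, List.not_mem_nil, or_false]
    exact hδ
  have hd' : d ∈ ([-3, -2, -1, 0, 1, 2, 3] : List ℤ) := by
    simp only [List.mem_cons, List.not_mem_nil, or_false]
    omega
  have h3 := key k (List.mem_range.mpr (by omega)) δ hδ' d hd' f0 hf0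
  rw [hS, hL, h3] at hb
  exact absurd hb (by decide)

theorem case_6_21 {G : Type u} [Group G] [Finite G] [IsSimpleGroup G] (hG : Nat.card G = 4536)
    (P : Sylow 7 G) (hP : Nat.card (P : Subgroup G) = 7)
    (hr : (Subgroup.centralizer ((P : Subgroup G) : Set G)).relIndex
      (Subgroup.normalizer ((P : Subgroup G) : Set G)) = 6)
    (hC : Nat.card (Subgroup.centralizer ((P : Subgroup G) : Set G)) = 21) : False := by
  haveI : Fact (Nat.Prime 7) := ⟨by norm_num⟩
  obtain ⟨k, f, a, hOk, heq, hrel⟩ :=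
    block_top 4536 7 3 hG (by norm_num) P hP hr (by norm_num) (by norm_num)
      (by rw [hC]; norm_num)
  norm_num at heq
  have hsq : ∑ j, a j ^ 2 ≤ 6 := by linarith
  have hk : (k : ℤ) ≤ ∑ i, a i ^ 2 := card_le_sum_sq a (fun i => (hOk i).1)
  have hcand : ∀ i, (f i, a i) ∈ ([(27, -1), (36, 1), (54, -2)] : List (ℕ × ℤ)) := by
    intro i
    have h1 := sq_le_of_sum_sq_le a 6 hsq i
    exact cands (f i) (a i) (hOk i) (by nlinarith) (by nlinarith)
  have hb : badB [(27, -1), (36, 1), (54, -2)] k (∑ i, a i ^ 2) (∑ i, a i * (f i : ℤ)) = true :=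
    badB_of k (fun i => (f i, a i)) hcand
  have key : ∀ k ∈ List.range 7, badB [(27, -1), (36, 1), (54, -2)] k (7 - 1) (-1) = false := by
    decide +kernel
  have hS : ∑ i, a i ^ 2 = 7 - 1 := by linarith
  have hL : ∑ i, a i * (f i : ℤ) = -1 := by linarith
  have h3 := key k (List.mem_range.mpr (by omega))
  rw [hS, hL, h3] at hb
  exact absurd hb (by decide)

/-- No non-abelian simple group has order `4536`. -/
theorem noSimple_4536 : NoSimple.{u} 4536 :=
  noSimple_of_cases 4536 7 2 648 (by norm_num) (by norm_num) (by norm_num) (by norm_num)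
    (by norm_num) (by norm_num) (by norm_num) [(2, 63), (3, 42), (6, 21)] (by decide +kernel) (by
    intro rc hrc G _ _ _ hG P hP hr hC
    simp only [List.mem_cons, List.not_mem_nil, or_false] at hrc
    rcases hrc with rfl | rfl | rfl
    · exact case_2_63 hG P hP hr hC
    · exact case_3_42 hG P hP hr hC
    · exact case_6_21 hG P hP hr hC)

end Cfsg.Agent.Lib.Helper97.Ord4536
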