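import Mathlib
import Cfsg.Agent.Lib.Helper97.MillerMoreno

set_option autoImplicit false

namespace Cfsg.Agent.Lib.Helper97

open scoped commutatorElement

section SchmidtQuot

universe u

/-- A finite nilpotent group all of whose Sylow subgroups are commutative is commutative. -/
theorem comm_of_nilpotent_of_sylow_comm {K : Type u} [Group K] [Finite K]
    (hK : Group.IsNilpotent K)
    (hS : ∀ (r : ℕ) (_ : Fact r.Prime) (S : Sylow r K), ∀ a ∈ (S : Subgroup K),
      ∀ b ∈ (S : Subgroup K), a * b = b * a) : ∀ a b : K, a * b = b * a := by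
  obtain ⟨e⟩ := ((Group.isNilpotent_of_finite_tfae (G := K)).out 0 4).1 hK
  intro a b
  obtain ⟨x, rfl⟩ := e.surjective a
  obtain ⟨y, rfl⟩ := e.surjective b
  rw [← map_mul, ← map_mul]
  congr 1
  funext p P
  have hp : Fact (p : ℕ).Prime := ⟨Nat.prime_of_mem_primeFactors p.2⟩
  exact Subtype.ext (hS p hp P (x p P) (x p P).2 (y p P) (y p P).2)

variable {G : Type u} [Group G] [Finite G]

theorem pgroup_le_of_normal_of_not_dvd_index {M : Subgroup G} [M.Normal] {q : ℕ} [Fact q.Prime]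
    (h : ¬ q ∣ M.index) {T : Subgroup G} (hT : IsPGroup q T) : T ≤ M := by
  rw [← Subgroup.relIndex_eq_one]
  have h1 : M.relIndex T ∣ M.index := Subgroup.relIndex_dvd_index_of_normal M _
  have h2 : M.relIndex T ∣ Nat.card T := Subgroup.relIndex_dvd_card M _
  obtain ⟨n, hn⟩ := IsPGroup.iff_card.1 hT
  rw [hn] at h2
  obtain ⟨k, -, hk⟩ := (Nat.dvd_prime_pow Fact.out).1 h2
  rcases Nat.eq_zero_or_pos k with hk0 | hk0
  · rw [hk, hk0, pow_zero]
  · exfalso
    apply h
    refine dvd_trans ?_ h1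
    rw [hk]
    exact dvd_pow_self q (by omega)

/-- The quotient of a minimal non-nilpotent group by the derived subgroup of its normal Sylow
subgroup is a minimal non-abelian group. -/
theorem schmidt_quot (hnn : ¬ Group.IsNilpotent G)
    (hprop : ∀ H : Subgroup G, H ≠ ⊤ → Group.IsNilpotent H)
    (q : ℕ) [Fact q.Prime] (hq : q ∣ Nat.card G) (Q : Sylow q G) (hQ : (Q : Subgroup G).Normal)
    (D : Subgroup G) [D.Normal]
    (hD : D = (commutator ↥(Q : Subgroup G)).map (Q : Subgroup G).subtype) :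
    ¬ IsMulCommutative (G ⧸ D) ∧ ∀ K : Subgroup (G ⧸ D), K ≠ ⊤ → IsMulCommutative K := by
  have hDQ : D ≤ (Q : Subgroup G) := hD ▸ Subgroup.map_subtype_le _
  have hDc : ∀ a ∈ (Q : Subgroup G), ∀ b ∈ (Q : Subgroup G), ⁅a, b⁆ ∈ D := by
    intro a ha b hb
    rw [hD]
    refine ⟨⁅(⟨a, ha⟩ : (Q : Subgroup G)), ⟨b, hb⟩⁆, ?_, rfl⟩
    rw [commutator_def]
    exact Subgroup.commutator_mem_commutator (Subgroup.mem_top _) (Subgroup.mem_top _)
  have hQne : (Q : Subgroup G) ≠ ⊥ := Q.ne_bot_of_dvd_card hq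
  have hQD : ¬ (Q : Subgroup G) ≤ D := by
    intro hle
    have hnt : Nontrivial (Q : Subgroup G) := (Subgroup.nontrivial_iff_ne_bot _).2 hQne
    have hnil : Group.IsNilpotent (Q : Subgroup G) := Q.isPGroup'.isNilpotent
    have hlt := Group.IsSolvable.commutator_lt_top_of_nontrivial (Q : Subgroup G)
    apply hlt.ne
    rw [eq_top_iff]
    intro y _
    have hy : (y : G) ∈ D := hle y.2
    rw [hD] at hy
    obtain ⟨z, hz, hzy⟩ := hy
    have : z = y := Subtype.ext hzy
    rw [← this]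
    exact hz
  have hQuniq : ∀ Q' : Sylow q G, Q' = Q := by
    intro Q'
    have := Sylow.unique_of_normal Q hQ
    exact Subsingleton.elim _ _
  constructor
  · -- part (a)
    intro hcomm
    have hGD : ∀ g₁ g₂ : G, ⁅g₁, g₂⁆ ∈ D := by
      intro g₁ g₂
      rw [← QuotientGroup.eq_one_iff, commutatorElement_def]
      have h1 := mul_comm' (g₁ : G ⧸ D) (g₂ : G ⧸ D)
      have h2 : ((g₁ * g₂ * g₁⁻¹ * g₂⁻¹ : G) : G ⧸ D) =
          (g₁ : G ⧸ D) * (g₂ : G ⧸ D) * (g₁ : G ⧸ D)⁻¹ * (g₂ : G ⧸ D)⁻¹ := rfl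
      rw [h2, h1]
      group
    apply hnn
    apply ((Group.isNilpotent_of_finite_tfae (G := G)).out 0 3).2
    intro r hr R
    by_cases hrq : r = q
    · subst hrq
      rw [hQuniq R]
      exact hQ
    · by_cases hK : (R : Subgroup G) ⊔ D = ⊤
      · exfalso
        apply hQD
        intro u hu
        have hu' : u ∈ (R : Subgroup G) ⊔ D := hK ▸ Subgroup.mem_top u
        obtain ⟨x, hx, d, hd, hxd⟩ := Subgroup.mem_sup_of_normal_right.1 hu'
        have hxQ : x ∈ (Q : Subgroup G) := by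
          have : x = u * d⁻¹ := by rw [← hxd]; group
          rw [this]
          exact Subgroup.mul_mem _ hu (Subgroup.inv_mem _ (hDQ hd))
        have hdisj : Disjoint (R : Subgroup G) (Q : Subgroup G) :=
          IsPGroup.disjoint_of_ne r q hrq _ _ R.isPGroup' Q.isPGroup'
        have hx1 : x = 1 :=
          Subgroup.mem_bot.1 (hdisj.le_bot (show x ∈ (R : Subgroup G) ⊓ (Q : Subgroup G) from
            ⟨hx, hxQ⟩))
        rw [hx1, one_mul] at hxd
        rw [← hxd]
        exact hd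
      · have hKnil := hprop _ hK
        have hKn : ((R : Subgroup G) ⊔ D).Normal := by
          refine ⟨fun k hk g => ?_⟩
          have h1 : g * k * g⁻¹ = ⁅g, k⁆ * k := by
            rw [commutatorElement_def]
            group
          rw [h1]
          exact Subgroup.mul_mem _ ((le_sup_right : D ≤ (R : Subgroup G) ⊔ D) (hGD g k)) hk
        have hidx : ¬ r ∣ ((R : Subgroup G) ⊔ D).index := fun hdvd =>
          R.not_dvd_index (dvd_trans hdvd (Subgroup.index_dvd_of_le le_sup_left))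
        exact sylow_normal_of_le_nilpotent hKnil
          (fun R' => pgroup_le_of_normal_of_not_dvd_index hidx R'.isPGroup') R
  · -- part (b)
    obtain ⟨p, q₀, hp, hq₀, hpq, P, Q₀, hPc, hQ₀n, hPQ⟩ := schmidt_structure hnn hprop
    have hpf := Fact.mk hp
    have hq₀f := Fact.mk hq₀
    have hQ₀uniq : ∀ Q' : Sylow q₀ G, Q' = Q₀ := by
      intro Q'
      have := Sylow.unique_of_normal Q₀ hQ₀n
      exact Subsingleton.elim _ _
    -- elements of order prime to `p` lie in `Q₀`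
    have hL : ∀ u : G, Nat.Coprime (orderOf u) p → u ∈ (Q₀ : Subgroup G) := by
      intro u hu
      have hu' : u ∈ (P : Subgroup G) ⊔ Q₀ := hPQ ▸ Subgroup.mem_top u
      obtain ⟨x, hx, v, hv, hxv⟩ := Subgroup.mem_sup_of_normal_right.1 hu'
      have hv1 : (QuotientGroup.mk' (Q₀ : Subgroup G)) v = 1 := (QuotientGroup.eq_one_iff v).2 hv
      have h1 : (QuotientGroup.mk' (Q₀ : Subgroup G)) u = (QuotientGroup.mk' (Q₀ : Subgroup G)) x := by
        rw [← hxv, map_mul, hv1, mul_one]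
      have h2 : orderOf ((QuotientGroup.mk' (Q₀ : Subgroup G)) u) ∣ orderOf u :=
        orderOf_map_dvd _ u
      have h3 : orderOf ((QuotientGroup.mk' (Q₀ : Subgroup G)) u) ∣ orderOf x := by
        rw [h1]
        exact orderOf_map_dvd _ x
      obtain ⟨k, hk⟩ := (IsPGroup.iff_orderOf.1 P.isPGroup') ⟨x, hx⟩
      have hk' : orderOf x = p ^ k := by rw [← hk]; exact (Subgroup.orderOf_mk x hx).symm
      rw [hk'] at h3
      have h4 := Nat.dvd_gcd h2 h3
      rw [Nat.Coprime.pow_right k hu] at h4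
      have h5 : (QuotientGroup.mk' (Q₀ : Subgroup G)) u = 1 :=
        orderOf_eq_one_iff.1 (Nat.dvd_one.1 h4)
      exact (QuotientGroup.eq_one_iff u).1 h5
    have hRle : ∀ (r : ℕ) (_ : Fact r.Prime), r ≠ p → ∀ R : Sylow r G,
        (R : Subgroup G) ≤ Q₀ := by
      intro r hr hrp R u hu
      apply hL
      obtain ⟨k, hk⟩ := (IsPGroup.iff_orderOf.1 R.isPGroup') ⟨u, hu⟩
      have hk' : orderOf u = r ^ k := by rw [← hk]; exact (Subgroup.orderOf_mk u hu).symm
      rw [hk']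
      exact Nat.Coprime.pow_left k ((Nat.coprime_primes hr.out hp).2 hrp)
    have hqp : q ≠ p := by
      rintro rfl
      apply hnn
      apply ((Group.isNilpotent_of_finite_tfae (G := G)).out 0 3).2
      intro r hr R
      by_cases hrq : r = q
      · subst hrq
        rw [hQuniq R]
        exact hQ
      · by_cases hrq₀ : r = q₀
        · subst hrq₀
          rw [hQ₀uniq R]
          exact hQ₀n
        · have h1 := hRle r hr hrq R
          have hdisj : Disjoint (R : Subgroup G) (Q₀ : Subgroup G) :=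
            IsPGroup.disjoint_of_ne r q₀ hrq₀ _ _ R.isPGroup' Q₀.isPGroup'
          have h2 : (R : Subgroup G) = ⊥ := by
            rw [eq_bot_iff]
            intro u hu
            exact hdisj.le_bot ⟨hu, h1 hu⟩
          rw [h2]
          exact Subgroup.normal_bot
    have hQQ₀ : (Q : Subgroup G) ≤ Q₀ := hRle q inferInstance hqp Q
    have hqq₀ : q = q₀ := by
      by_contra hne
      apply hQne
      have hdisj : Disjoint (Q : Subgroup G) (Q₀ : Subgroup G) :=
        IsPGroup.disjoint_of_ne q q₀ hne _ _ Q.isPGroup' Q₀.isPGroup'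
      rw [eq_bot_iff]
      intro u hu
      exact hdisj.le_bot ⟨hu, hQQ₀ hu⟩
    subst hqq₀
    have hQeq : (Q₀ : Subgroup G) = Q := Q.is_maximal' Q₀.isPGroup' hQQ₀
    have hPcomm : ∀ x ∈ (P : Subgroup G), ∀ y ∈ (P : Subgroup G), x * y = y * x := by
      intro x hx y hy
      obtain ⟨g, hg⟩ := IsCyclic.exists_generator (α := (P : Subgroup G))
      obtain ⟨i, hi⟩ := Subgroup.mem_zpowers_iff.1 (hg ⟨x, hx⟩)
      obtain ⟨j, hj⟩ := Subgroup.mem_zpowers_iff.1 (hg ⟨y, hy⟩)
      have hi' : x = (g : G) ^ i := by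
        have := congrArg Subtype.val hi
        rw [Subgroup.coe_zpow] at this
        exact this.symm
      have hj' : y = (g : G) ^ j := by
        have := congrArg Subtype.val hj
        rw [Subgroup.coe_zpow] at this
        exact this.symm
      rw [hi', hj', ← zpow_add, ← zpow_add, add_comm]
    have hcomQ : ∀ g₁ g₂ : G, ⁅g₁, g₂⁆ ∈ (Q : Subgroup G) := by
      intro g₁ g₂
      rw [← hQeq]
      have hg₁ : g₁ ∈ (P : Subgroup G) ⊔ Q₀ := hPQ ▸ Subgroup.mem_top g₁
      have hg₂ : g₂ ∈ (P : Subgroup G) ⊔ Q₀ := hPQ ▸ Subgroup.mem_top g₂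
      obtain ⟨x₁, hx₁, u₁, hu₁, rfl⟩ := Subgroup.mem_sup_of_normal_right.1 hg₁
      obtain ⟨x₂, hx₂, u₂, hu₂, rfl⟩ := Subgroup.mem_sup_of_normal_right.1 hg₂
      rw [← QuotientGroup.eq_one_iff]
      have e1 : ((x₁ * u₁ : G) : G ⧸ (Q₀ : Subgroup G)) = (x₁ : G ⧸ (Q₀ : Subgroup G)) := by
        rw [QuotientGroup.mk_mul, (QuotientGroup.eq_one_iff u₁).2 hu₁, mul_one]
      have e2 : ((x₂ * u₂ : G) : G ⧸ (Q₀ : Subgroup G)) = (x₂ : G ⧸ (Q₀ : Subgroup G)) := by
        rw [QuotientGroup.mk_mul, (QuotientGroup.eq_one_iff u₂).2 hu₂, mul_one]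
      have e3 : ((⁅x₁ * u₁, x₂ * u₂⁆ : G) : G ⧸ (Q₀ : Subgroup G)) =
          ⁅((x₁ * u₁ : G) : G ⧸ (Q₀ : Subgroup G)), ((x₂ * u₂ : G) : G ⧸ (Q₀ : Subgroup G))⁆ :=
        map_commutatorElement (QuotientGroup.mk' (Q₀ : Subgroup G)) _ _
      rw [e3, e1, e2]
      have e4 : ⁅(x₁ : G ⧸ (Q₀ : Subgroup G)), (x₂ : G ⧸ (Q₀ : Subgroup G))⁆ =
          ((⁅x₁, x₂⁆ : G) : G ⧸ (Q₀ : Subgroup G)) :=
        (map_commutatorElement (QuotientGroup.mk' (Q₀ : Subgroup G)) _ _).symm
      rw [e4, commutatorElement_eq_one_iff_mul_comm.2 (hPcomm x₁ hx₁ x₂ hx₂)]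
      rfl
    -- the image of `Q` in the quotient
    have hQbc : ∀ a ∈ (Q : Subgroup G).map (QuotientGroup.mk' D),
        ∀ b ∈ (Q : Subgroup G).map (QuotientGroup.mk' D), a * b = b * a := by
      rintro _ ⟨a, ha, rfl⟩ _ ⟨b, hb, rfl⟩
      rw [← map_mul, ← map_mul]
      apply QuotientGroup.eq.2
      have h1 : (a * b)⁻¹ * (b * a) = ⁅b⁻¹, a⁻¹⁆ := by
        rw [commutatorElement_def]
        group
      rw [h1]
      exact hDc _ (Subgroup.inv_mem _ hb) _ (Subgroup.inv_mem _ ha)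
    have hQbn : ((Q : Subgroup G).map (QuotientGroup.mk' D)).Normal :=
      hQ.map _ (QuotientGroup.mk'_surjective D)
    have hQbi : ¬ q ∣ ((Q : Subgroup G).map (QuotientGroup.mk' D)).index := fun hdvd =>
      Q.not_dvd_index (dvd_trans hdvd
        (Subgroup.index_map_dvd (Q : Subgroup G) (QuotientGroup.mk'_surjective D)))
    have hQbp : IsPGroup q ((Q : Subgroup G).map (QuotientGroup.mk' D)) := Q.isPGroup'.map _
    intro Kb hKb
    have hKtop : Kb.comap (QuotientGroup.mk' D) ≠ ⊤ := by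
      intro h1
      apply hKb
      apply Subgroup.comap_injective (QuotientGroup.mk'_surjective D)
      rw [h1, Subgroup.comap_top]
    have hKnil := hprop _ hKtop
    have hmap : (Kb.comap (QuotientGroup.mk' D)).map (QuotientGroup.mk' D) = Kb :=
      Subgroup.map_comap_eq_self_of_surjective (QuotientGroup.mk'_surjective D) Kb
    have h3 := Group.nilpotent_of_surjective
      ((QuotientGroup.mk' D).subgroupMap (Kb.comap (QuotientGroup.mk' D)))
      (MonoidHom.subgroupMap_surjective _ _)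
    have hKbnil : Group.IsNilpotent Kb := hmap ▸ h3
    rw [isMulCommutative_iff]
    apply comm_of_nilpotent_of_sylow_comm hKbnil
    intro r hr S s₁ hs₁ s₂ hs₂
    have hT : IsPGroup r ((S : Subgroup Kb).map Kb.subtype) := S.isPGroup'.map _
    have hs₁T : (s₁ : G ⧸ D) ∈ (S : Subgroup Kb).map Kb.subtype := ⟨s₁, hs₁, rfl⟩
    have hs₂T : (s₂ : G ⧸ D) ∈ (S : Subgroup Kb).map Kb.subtype := ⟨s₂, hs₂, rfl⟩
    apply Subtype.ext
    rw [Subgroup.coe_mul, Subgroup.coe_mul]
    by_cases hrq : r = q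
    · subst hrq
      have hle := pgroup_le_of_normal_of_not_dvd_index hQbi hT
      exact hQbc _ (hle hs₁T) _ (hle hs₂T)
    · have hdisj : Disjoint ((S : Subgroup Kb).map Kb.subtype)
          ((Q : Subgroup G).map (QuotientGroup.mk' D)) :=
        IsPGroup.disjoint_of_ne r q hrq _ _ hT hQbp
      have hc1 : ⁅(s₁ : G ⧸ D), (s₂ : G ⧸ D)⁆ ∈ (S : Subgroup Kb).map Kb.subtype := by
        rw [commutatorElement_def]
        exact Subgroup.mul_mem _ (Subgroup.mul_mem _ (Subgroup.mul_mem _ hs₁T hs₂T)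
          (Subgroup.inv_mem _ hs₁T)) (Subgroup.inv_mem _ hs₂T)
      have hc2 : ⁅(s₁ : G ⧸ D), (s₂ : G ⧸ D)⁆ ∈ (Q : Subgroup G).map (QuotientGroup.mk' D) := by
        obtain ⟨g₁, hg₁⟩ := QuotientGroup.mk_surjective (s₁ : G ⧸ D)
        obtain ⟨g₂, hg₂⟩ := QuotientGroup.mk_surjective (s₂ : G ⧸ D)
        refine ⟨⁅g₁, g₂⁆, hcomQ g₁ g₂, ?_⟩
        rw [map_commutatorElement]
        show ⁅(g₁ : G ⧸ D), (g₂ : G ⧸ D)⁆ = _
        rw [hg₁, hg₂]
      have hc3 := Subgroup.mem_bot.1 (hdisj.le_bot ⟨hc1, hc2⟩)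
      exact commutatorElement_eq_one_iff_mul_comm.1 hc3

end SchmidtQuot

end Cfsg.Agent.Lib.Helper97
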