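import Mathlib

set_option autoImplicit false

namespace Cfsg.Agent.Lib.Helper97

open scoped commutatorElement

section SolvableChain

variable {Γ : Type*} [Group Γ]

/-- `N` is an abelian subgroup of `G` normalised by `G`. -/
def AbNormal (G N : Subgroup Γ) : Prop :=
  N ≤ G ∧ (∀ x ∈ N, ∀ y ∈ N, x * y = y * x) ∧ (∀ h ∈ G, ∀ x ∈ N, h * x * h⁻¹ ∈ N)

/-- `z` lies in an abelian normal subgroup of `G`. -/
def Good (G : Subgroup Γ) (z : Γ) : Prop := ∃ N, AbNormal G N ∧ z ∈ N

/-- `y` is non-trivial and lies in an abelian normal subgroup, or has a non-trivial commutator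
in one. -/
def Half (G : Subgroup Γ) (y : Γ) : Prop :=
  y ≠ 1 ∧ (Good G y ∨ ∃ b : Γ, ⁅b, y⁆ ≠ 1 ∧ Good G ⁅b, y⁆)

theorem comm_conj_aux {B : Subgroup Γ} {h x c : Γ} (h1 : h⁻¹ * c * h ∈ B)
    (hx : ∀ b ∈ B, b * x = x * b) : c * (h * x * h⁻¹) = h * x * h⁻¹ * c := by
  have h2 := hx _ h1
  calc c * (h * x * h⁻¹) = h * ((h⁻¹ * c * h) * x) * h⁻¹ := by group
    _ = h * (x * (h⁻¹ * c * h)) * h⁻¹ := by rw [h2]
    _ = h * x * h⁻¹ * c := by group

theorem half_or_half_commutator [Finite Γ] (G : Subgroup Γ) (hsol : Group.IsSolvable G) {g : Γ}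
    (hg : g ∈ G) (hg1 : g ≠ 1) : Half G g ∨ ∃ b : Γ, Half G ⁅b, g⁆ := by
  classical
  have hfin : {N : Subgroup Γ | AbNormal G N}.Finite := Set.toFinite _
  have hne : {N : Subgroup Γ | AbNormal G N}.Nonempty := by
    refine ⟨⊥, bot_le, ?_, ?_⟩
    · intro x hx y hy
      rw [Subgroup.mem_bot] at hx hy
      rw [hx, hy]
    · intro h _ x hx
      rw [Subgroup.mem_bot] at hx ⊢
      rw [hx, mul_one, mul_inv_cancel]
  obtain ⟨A, hA⟩ := hfin.exists_maximal hne
  have hAab : AbNormal G A := hA.prop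
  have hAmax : ∀ N, AbNormal G N → A ≤ N → N ≤ A := fun N hN hAN => hA.le_of_ge hN hAN
  by_cases hgA : g ∈ A
  · exact Or.inl ⟨hg1, Or.inl ⟨A, hAab, hgA⟩⟩
  by_cases hcA : ∃ a ∈ A, ⁅a, g⁆ ≠ 1
  · obtain ⟨a, ha, hag⟩ := hcA
    refine Or.inl ⟨hg1, Or.inr ⟨a, hag, A, hAab, ?_⟩⟩
    have h1 : ⁅a, g⁆ = a * (g * a⁻¹ * g⁻¹) := by
      rw [commutatorElement_def]
      group
    rw [h1]
    exact A.mul_mem ha (hAab.2.2 g hg a⁻¹ (A.inv_mem ha))
  push Not at hcA
  let ℬ : Set (Subgroup Γ) :=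
    {B | B ≤ G ∧ (∀ h ∈ G, ∀ x ∈ B, h * x * h⁻¹ ∈ B) ∧ ∀ x ∈ B, ∀ y ∈ B, ⁅x, y⁆ ∈ A}
  by_cases hB : ∃ B ∈ ℬ, ∃ b ∈ B, ⁅b, g⁆ ≠ 1
  · obtain ⟨B, ⟨hBG, hBn, hBc⟩, b, hb, hbg⟩ := hB
    right
    refine ⟨b, hbg, ?_⟩
    have hyB : ⁅b, g⁆ ∈ B := by
      have h1 : ⁅b, g⁆ = b * (g * b⁻¹ * g⁻¹) := by
        rw [commutatorElement_def]
        group
      rw [h1]
      exact B.mul_mem hb (hBn g hg b⁻¹ (B.inv_mem hb))
    by_cases hcen : ∀ b' ∈ B, ⁅b', ⁅b, g⁆⁆ = 1
    · left
      refine ⟨B ⊓ Subgroup.centralizer (B : Set Γ), ⟨inf_le_left.trans hBG, ?_, ?_⟩, ?_⟩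
      · intro x hx y hy
        exact Subgroup.mem_centralizer_iff.1 (Subgroup.mem_inf.1 hy).2 x (Subgroup.mem_inf.1 hx).1
      · intro h hh x hx
        have hx' := Subgroup.mem_inf.1 hx
        refine Subgroup.mem_inf.2 ⟨hBn h hh x hx'.1, ?_⟩
        rw [Subgroup.mem_centralizer_iff]
        intro c hc
        have h1 : h⁻¹ * c * h ∈ B := by
          simpa using hBn h⁻¹ (G.inv_mem hh) c hc
        exact comm_conj_aux h1 (fun b hb => Subgroup.mem_centralizer_iff.1 hx'.2 b hb)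
      · refine Subgroup.mem_inf.2 ⟨hyB, ?_⟩
        rw [Subgroup.mem_centralizer_iff]
        intro c hc
        exact commutatorElement_eq_one_iff_mul_comm.1 (hcen c hc)
    · push Not at hcen
      obtain ⟨b', hb', hne'⟩ := hcen
      right
      exact ⟨b', hne', A, hAab, hBc b' hb' _ hyB⟩
  · exfalso
    push Not at hB
    let D : Subgroup Γ := G ⊓ ⨅ B ∈ ℬ, Subgroup.centralizer (B : Set Γ)
    have hmemD : ∀ x, x ∈ D ↔ x ∈ G ∧ ∀ B ∈ ℬ, ∀ b ∈ B, b * x = x * b := by
      intro x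
      simp only [D, Subgroup.mem_inf, Subgroup.mem_iInf, Subgroup.mem_centralizer_iff,
        SetLike.mem_coe]
    have hgD : g ∈ D :=
      (hmemD g).2 ⟨hg, fun B hB' b hb => commutatorElement_eq_one_iff_mul_comm.1 (hB B hB' b hb)⟩
    have hAℬ : A ∈ ℬ := by
      refine ⟨hAab.1, hAab.2.2, fun x hx y hy => ?_⟩
      rw [commutatorElement_eq_one_iff_mul_comm.2 (hAab.2.1 x hx y hy)]
      exact A.one_mem
    have hDn : ∀ h ∈ G, ∀ x ∈ D, h * x * h⁻¹ ∈ D := by
      intro h hh x hx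
      rw [hmemD] at hx ⊢
      refine ⟨G.mul_mem (G.mul_mem hh hx.1) (G.inv_mem hh), ?_⟩
      intro B hB' b hb
      have h1 : h⁻¹ * b * h ∈ B := by
        simpa using hB'.2.1 h⁻¹ (G.inv_mem hh) b hb
      exact comm_conj_aux h1 (hx.2 B hB')
    let ds : ℕ → Subgroup Γ := fun k => Nat.rec D (fun _ X => ⁅X, X⁆) k
    have hdsS : ∀ k, ds (k + 1) = ⁅ds k, ds k⁆ := fun k => rfl
    have hds_le : ∀ k, ds k ≤ D := by
      intro k
      induction k with
      | zero => exact le_rfl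
      | succ k ih =>
        rw [hdsS]
        refine le_trans ?_ ih
        rw [Subgroup.commutator_le]
        intro x hx y hy
        rw [commutatorElement_def]
        exact (ds k).mul_mem ((ds k).mul_mem ((ds k).mul_mem hx hy) ((ds k).inv_mem hx))
          ((ds k).inv_mem hy)
    have hds_n : ∀ k, ∀ h ∈ G, ∀ x ∈ ds k, h * x * h⁻¹ ∈ ds k := by
      intro k
      induction k with
      | zero => exact hDn
      | succ k ih =>
        intro h hh x hx
        rw [hdsS] at hx ⊢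
        have h1 : (⁅ds k, ds k⁆).map (MulAut.conj h).toMonoidHom ≤ ⁅ds k, ds k⁆ := by
          rw [Subgroup.map_commutator]
          apply Subgroup.commutator_mono
          · rintro _ ⟨y, hy, rfl⟩
            exact ih h hh y hy
          · rintro _ ⟨y, hy, rfl⟩
            exact ih h hh y hy
        exact h1 ⟨x, hx, rfl⟩
    have hds_sol : ∃ k, ds k ≤ A := by
      obtain ⟨k, hk⟩ := hsol.solvable
      refine ⟨k, ?_⟩
      have h1 : ∀ j, ds j ≤ (derivedSeries G j).map G.subtype := by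
        intro j
        induction j with
        | zero =>
          intro x hx
          exact ⟨⟨x, ((hmemD x).1 hx).1⟩, Subgroup.mem_top _, rfl⟩
        | succ j ih =>
          rw [hdsS, derivedSeries_succ, Subgroup.map_commutator]
          exact Subgroup.commutator_mono ih ih
      have h2 := h1 k
      rw [hk, Subgroup.map_bot] at h2
      exact h2.trans bot_le
    obtain ⟨k₀, hk, hkmin⟩ : ∃ k₀, ds k₀ ≤ A ∧ ∀ m < k₀, ¬ ds m ≤ A := by
      obtain ⟨k₁, hk₁⟩ := hds_sol
      induction k₁ using Nat.strong_induction_on with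
      | _ k₁ ih =>
        by_cases hmin : ∀ m < k₁, ¬ ds m ≤ A
        · exact ⟨k₁, hk₁, hmin⟩
        · push Not at hmin
          obtain ⟨m, hm, hmA⟩ := hmin
          exact ih m hm hmA
    have hk0 : k₀ ≠ 0 := by
      intro h0
      rw [h0] at hk
      exact hgA (hk hgD)
    obtain ⟨j, hj⟩ := Nat.exists_eq_succ_of_ne_zero hk0
    have hjA : ¬ ds j ≤ A := hkmin j (by omega)
    have hXℬ : ds j ∈ ℬ := by
      refine ⟨(hds_le j).trans inf_le_left, hds_n j, fun x hx y hy => ?_⟩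
      have h1 : ⁅x, y⁆ ∈ ds (j + 1) := Subgroup.commutator_mem_commutator hx hy
      rw [hj] at hk
      exact hk h1
    have hXab : ∀ x ∈ ds j, ∀ y ∈ ds j, x * y = y * x := by
      intro x hx y hy
      exact ((hmemD y).1 (hds_le j hy)).2 (ds j) hXℬ x hx
    have hXA : ∀ x ∈ ds j, ∀ a ∈ A, a * x = x * a := by
      intro x hx a ha
      exact ((hmemD x).1 (hds_le j hx)).2 A hAℬ a ha
    have hNab : AbNormal G (ds j ⊔ A) := by
      refine ⟨sup_le hXℬ.1 hAab.1, ?_, ?_⟩
      · have h1 : ds j ⊔ A ≤ Subgroup.centralizer (SetLike.coe (ds j) ∪ SetLike.coe A) := by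
          apply sup_le
          · intro x hx
            rw [Subgroup.mem_centralizer_iff]
            rintro c (hc | hc)
            · exact hXab c hc x hx
            · exact hXA x hx c hc
          · intro a ha
            rw [Subgroup.mem_centralizer_iff]
            rintro c (hc | hc)
            · exact (hXA c hc a ha).symm
            · exact hAab.2.1 c hc a ha
        have h2 : ds j ⊔ A ≤ Subgroup.centralizer (SetLike.coe (ds j ⊔ A)) := by
          apply sup_le
          · intro x hx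
            rw [Subgroup.mem_centralizer_iff]
            intro c hc
            exact (Subgroup.mem_centralizer_iff.1 (h1 hc) x (Or.inl hx)).symm
          · intro a ha
            rw [Subgroup.mem_centralizer_iff]
            intro c hc
            exact (Subgroup.mem_centralizer_iff.1 (h1 hc) a (Or.inr ha)).symm
        intro x hx y hy
        exact Subgroup.mem_centralizer_iff.1 (h2 hy) x hx
      · intro h hh x hx
        have h1 : (ds j ⊔ A).map (MulAut.conj h).toMonoidHom ≤ ds j ⊔ A := by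
          rw [Subgroup.map_sup]
          apply sup_le_sup
          · rintro _ ⟨y, hy, rfl⟩
            exact hXℬ.2.1 h hh y hy
          · rintro _ ⟨y, hy, rfl⟩
            exact hAab.2.2 h hh y hy
        exact h1 ⟨x, hx, rfl⟩
    exact hjA (le_sup_left.trans (hAmax _ hNab le_sup_right))

end SolvableChain

end Cfsg.Agent.Lib.Helper97
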