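-- Ward's theorem, part 1: the eigen-components of a module under `Ω₁(Z(Q))`.
import Mathlib
import Cfsg.Agent.Lib.Helper97.FrobAct

set_option autoImplicit false

namespace Cfsg.Agent.Lib.Helper97.Ward

section basic
variable {V : Type*} [CommGroup V]

theorem eq_one_of_pow_coprime {v : V} {m n : ℕ} (h : m.Coprime n) (hm : v ^ m = 1)
    (hn : v ^ n = 1) : v = 1 := by
  have h1 : v ^ Nat.gcd m n = 1 := pow_gcd_eq_one.mpr ⟨hm, hn⟩
  rwa [Nat.Coprime.gcd_eq_one h, pow_one] at h1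

end basic

section act
variable {H V : Type*} [Group H] [CommGroup V] [MulDistribMulAction H V]

theorem pow_smul_fixed (x : H) (v : V) (h : x • v = v) (n : ℕ) : x ^ n • v = v := by
  induction n with
  | zero => simp
  | succ n ih => rw [pow_succ, mul_smul, h, ih]

/-- The norm of `v` under an element of order dividing `n` is fixed. -/
theorem norm_fixed (x : H) (n : ℕ) (hx : x ^ n = 1) (v : V) :
    x • ∏ i ∈ Finset.range n, x ^ i • v = ∏ i ∈ Finset.range n, x ^ i • v := by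
  rw [Finset.smul_prod']
  have h1 : ∀ i : ℕ, x • x ^ i • v = x ^ (i + 1) • v := by
    intro i
    rw [← mul_smul, ← pow_succ']
  simp_rw [h1]
  have h2 := Finset.prod_range_succ' (fun i => x ^ i • v) n
  have h3 := Finset.prod_range_succ (fun i => x ^ i • v) n
  rw [h3] at h2
  simp only [hx, one_smul, pow_zero] at h2
  exact (mul_right_cancel h2).symm

/-- Telescoping. -/
theorem telescope (x : H) (n : ℕ) (v : V) :
    ∏ i ∈ Finset.range n, x ^ i • (x • v / v) = x ^ n • v / v := by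
  have h1 : ∀ i : ℕ, x ^ i • (x • v / v) = x ^ (i + 1) • v / x ^ i • v := by
    intro i
    rw [smul_div', ← mul_smul, ← pow_succ]
  simp_rw [h1]
  rw [Finset.prod_range_div (fun i => x ^ i • v) n, pow_zero, one_smul]

theorem smul_comm_of_comm (x y : H) (h : x * y = y * x) (v : V) : x • y • v = y • x • v := by
  rw [← mul_smul, ← mul_smul, h]

end act

section defs
variable {H : Type*} [Group H]

/-- `Ω₁(Z(Q))`. -/
def zOm (q : ℕ) (Q : Subgroup H) : Subgroup H where
  carrier := {z | z ∈ Q ∧ z ^ q = 1 ∧ ∀ u ∈ Q, z * u = u * z}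
  mul_mem' := by
    rintro a b ⟨ha, ha1, hac⟩ ⟨hb, hb1, hbc⟩
    refine ⟨Q.mul_mem ha hb, ?_, fun u hu => ?_⟩
    · have hab : Commute a b := hac b hb
      rw [hab.mul_pow, ha1, hb1, one_mul]
    · rw [mul_assoc, hbc u hu, ← mul_assoc, hac u hu, mul_assoc]
  one_mem' := ⟨Q.one_mem, one_pow q, fun u _ => by rw [one_mul, mul_one]⟩
  inv_mem' := by
    rintro a ⟨ha, ha1, hac⟩
    refine ⟨Q.inv_mem ha, by rw [inv_pow, ha1, inv_one], fun u hu => ?_⟩
    have h := hac u hu
    calc a⁻¹ * u = a⁻¹ * (u * a) * a⁻¹ := by group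
      _ = a⁻¹ * (a * u) * a⁻¹ := by rw [h]
      _ = u * a⁻¹ := by group

theorem zOm_le (q : ℕ) (Q : Subgroup H) : zOm q Q ≤ Q := fun _ hz => hz.1

theorem zOm_pow {q : ℕ} {Q : Subgroup H} {z : H} (hz : z ∈ zOm q Q) : z ^ q = 1 := hz.2.1

theorem zOm_comm {q : ℕ} {Q : Subgroup H} {z : H} (hz : z ∈ zOm q Q) {u : H} (hu : u ∈ Q) :
    z * u = u * z := hz.2.2 u hu

theorem zOm_comm_pow {q : ℕ} {Q : Subgroup H} {z : H} (hz : z ∈ zOm q Q) {u : H} (hu : u ∈ Q)
    (i : ℕ) : z ^ i * u = u * z ^ i :=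
  zOm_comm ((zOm q Q).pow_mem hz i) hu

/-- Conjugation preserves `Ω₁(Z(Q))` for elements normalizing `Q`. -/
theorem zOm_conj {q : ℕ} {Q : Subgroup H} {h : H} (hh : h ∈ Subgroup.normalizer (Q : Set H))
    {z : H} (hz : z ∈ zOm q Q) : h * z * h⁻¹ ∈ zOm q Q := by
  refine ⟨(Subgroup.mem_normalizer_iff.mp hh z).mp hz.1, ?_, fun u hu => ?_⟩
  · rw [conj_pow, hz.2.1, mul_one, mul_inv_cancel]
  · have hu' : h⁻¹ * u * h ∈ Q := by
      have := (Subgroup.mem_normalizer_iff.mp (Subgroup.inv_mem _ hh) u).mp hu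
      rwa [inv_inv] at this
    have h1 := hz.2.2 _ hu'
    calc h * z * h⁻¹ * u = h * (z * (h⁻¹ * u * h)) * h⁻¹ := by group
      _ = h * ((h⁻¹ * u * h) * z) * h⁻¹ := by rw [h1]
      _ = u * (h * z * h⁻¹) := by group

theorem zOm_conj' {q : ℕ} {Q : Subgroup H} {h : H} (hh : h ∈ Subgroup.normalizer (Q : Set H))
    {z : H} (hz : z ∈ zOm q Q) : h⁻¹ * z * h ∈ zOm q Q := by
  have := zOm_conj (Subgroup.inv_mem _ hh) hz
  rwa [inv_inv] at this

/-- The conjugate `h K h⁻¹`. -/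
def cj (h : H) (K : Subgroup H) : Subgroup H := K.comap (MulAut.conj h⁻¹).toMonoidHom

theorem mem_cj {h x : H} {K : Subgroup H} : x ∈ cj h K ↔ h⁻¹ * x * h ∈ K := by
  simp [cj]

theorem cj_one (K : Subgroup H) : cj 1 K = K := by
  ext x
  rw [mem_cj]
  simp

theorem cj_mul (g h : H) (K : Subgroup H) : cj (g * h) K = cj g (cj h K) := by
  ext x
  rw [mem_cj, mem_cj, mem_cj]
  have : (g * h)⁻¹ * x * (g * h) = h⁻¹ * (g⁻¹ * x * g) * h := by group
  rw [this]

theorem cj_inv_cj (h : H) (K : Subgroup H) : cj h⁻¹ (cj h K) = K := by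
  rw [← cj_mul, inv_mul_cancel, cj_one]

theorem cj_cj_inv (h : H) (K : Subgroup H) : cj h (cj h⁻¹ K) = K := by
  rw [← cj_mul, mul_inv_cancel, cj_one]

theorem conj_mem_cj {h k : H} {K : Subgroup H} (hk : k ∈ K) : h * k * h⁻¹ ∈ cj h K := by
  rw [mem_cj]
  have : h⁻¹ * (h * k * h⁻¹) * h = k := by group
  rwa [this]

theorem card_cj (h : H) (K : Subgroup H) : Nat.card (cj h K) = Nat.card K := by
  apply Nat.card_congr
  refine ⟨fun x => ⟨h⁻¹ * x * h, mem_cj.mp x.2⟩, fun k => ⟨h * k * h⁻¹, conj_mem_cj k.2⟩, ?_, ?_⟩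
  · intro x
    apply Subtype.ext
    simp only
    group
  · intro k
    apply Subtype.ext
    simp only
    group

theorem exists_not_mem_cj [Finite H] {h : H} {K : Subgroup H} (hne : cj h K ≠ K) :
    ∃ z ∈ K, z ∉ cj h K := by
  by_contra hcon
  push Not at hcon
  exact hne (Subgroup.eq_of_le_of_card_ge hcon (card_cj h K).le).symm

/-- The stabilizer of `K` under conjugation. -/
def stK (K : Subgroup H) : Subgroup H where
  carrier := {h | cj h K = K}
  mul_mem' := by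
    intro a b ha hb
    change cj (a * b) K = K
    rw [cj_mul, (hb : cj b K = K), (ha : cj a K = K)]
  one_mem' := cj_one K
  inv_mem' := by
    intro a ha
    change cj a⁻¹ K = K
    have h1 : cj a⁻¹ (cj a K) = K := cj_inv_cj a K
    rwa [(ha : cj a K = K)] at h1

theorem mem_stK {h : H} {K : Subgroup H} : h ∈ stK K ↔ cj h K = K := Iff.rfl

theorem cj_le_zOm {q : ℕ} {Q : Subgroup H} {h : H} (hh : h ∈ Subgroup.normalizer (Q : Set H))
    {K : Subgroup H} (hK : K ≤ zOm q Q) : cj h K ≤ zOm q Q := by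
  intro x hx
  have h1 := zOm_conj hh (hK (mem_cj.mp hx))
  have h2 : h * (h⁻¹ * x * h) * h⁻¹ = x := by group
  rwa [h2] at h1

end defs

section comp
variable {H : Type*} [Group H] (V : Type*) [CommGroup V] [MulDistribMulAction H V]

/-- The component of `V` on which `K` acts trivially and the elements of `Ω₁(Z(Q))` outside `K`
act without fixed points (their norms vanish). -/
def tK (q : ℕ) (Q K : Subgroup H) : Subgroup V where
  carrier := {v | (∀ k ∈ K, k • v = v) ∧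
    ∀ z ∈ zOm q Q, z ∉ K → ∏ i ∈ Finset.range q, z ^ i • v = 1}
  mul_mem' := by
    rintro a b ⟨ha, ha'⟩ ⟨hb, hb'⟩
    refine ⟨fun k hk => by rw [smul_mul', ha k hk, hb k hk], fun z hz hzK => ?_⟩
    simp_rw [smul_mul']
    rw [Finset.prod_mul_distrib, ha' z hz hzK, hb' z hz hzK, one_mul]
  one_mem' := ⟨fun k _ => smul_one k, fun z _ _ => by simp⟩
  inv_mem' := by
    rintro a ⟨ha, ha'⟩
    refine ⟨fun k hk => by rw [smul_inv', ha k hk], fun z hz hzK => ?_⟩
    simp_rw [smul_inv']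
    rw [Finset.prod_inv_distrib, ha' z hz hzK, inv_one]

/-- The centralizer in `Q` of the component. -/
def ctK (q : ℕ) (Q K : Subgroup H) : Subgroup H where
  carrier := {u | u ∈ Q ∧ ∀ t ∈ tK V q Q K, u • t = t}
  mul_mem' := by
    rintro a b ⟨ha, ha'⟩ ⟨hb, hb'⟩
    exact ⟨Q.mul_mem ha hb, fun t ht => by rw [mul_smul, hb' t ht, ha' t ht]⟩
  one_mem' := ⟨Q.one_mem, fun t _ => one_smul _ t⟩
  inv_mem' := by
    rintro a ⟨ha, ha'⟩
    exact ⟨Q.inv_mem ha, fun t ht => by rw [inv_smul_eq_iff, ha' t ht]⟩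

variable {V}

theorem ctK_le (q : ℕ) (Q K : Subgroup H) : ctK V q Q K ≤ Q := fun _ h => h.1

/-- Elements of `Ω₁(Z(Q))` outside `K` have no fixed points on the component. -/
theorem tK_fix {q s : ℕ} (hqs : q.Coprime s) (hexp : ∀ v : V, v ^ s = 1) {Q K : Subgroup H}
    {v : V} (hv : v ∈ tK V q Q K) {z : H} (hz : z ∈ zOm q Q) (hzK : z ∉ K) (hfix : z • v = v) :
    v = 1 := by
  have h1 := hv.2 z hz hzK
  simp_rw [pow_smul_fixed z v hfix] at h1
  rw [Finset.prod_const, Finset.card_range] at h1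
  exact eq_one_of_pow_coprime hqs h1 (hexp v)

/-- The component is invariant under `Q` (when `K` is central). -/
theorem tK_smul_Q {q : ℕ} {Q K : Subgroup H} (hK : K ≤ zOm q Q) {u : H} (hu : u ∈ Q) {v : V}
    (hv : v ∈ tK V q Q K) : u • v ∈ tK V q Q K := by
  refine ⟨fun k hk => ?_, fun z hz hzK => ?_⟩
  · rw [smul_comm_of_comm k u (zOm_comm (hK hk) hu), hv.1 k hk]
  · have h1 : ∀ i : ℕ, z ^ i • u • v = u • z ^ i • v := fun i =>
      smul_comm_of_comm _ _ (zOm_comm_pow hz hu i) v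
    simp_rw [h1]
    rw [← Finset.smul_prod', hv.2 z hz hzK, smul_one]

/-- Transport of the component by an element normalizing `Q`. -/
theorem tK_smul {q : ℕ} {Q K : Subgroup H} {h : H} (hh : h ∈ Subgroup.normalizer (Q : Set H))
    {v : V} (hv : v ∈ tK V q Q K) : h • v ∈ tK V q Q (cj h K) := by
  refine ⟨fun k hk => ?_, fun z hz hzK => ?_⟩
  · have h1 : k * h = h * (h⁻¹ * k * h) := by group
    rw [← mul_smul, h1, mul_smul, hv.1 _ (mem_cj.mp hk)]
  · have hz' : h⁻¹ * z * h ∈ zOm q Q := zOm_conj' hh hz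
    have hzK' : h⁻¹ * z * h ∉ K := fun hc => hzK (mem_cj.mpr hc)
    have h1 : ∀ i : ℕ, z ^ i • h • v = h • (h⁻¹ * z * h) ^ i • v := by
      intro i
      rw [← mul_smul, ← mul_smul]
      congr 1
      have : (h⁻¹ * z * h) ^ i = h⁻¹ * z ^ i * h := by
        have := conj_pow (a := h⁻¹) (b := z) (i := i)
        rw [inv_inv] at this
        exact this
      rw [this]
      group
    simp_rw [h1]
    rw [← Finset.smul_prod', hv.2 _ hz' hzK', smul_one]

theorem tK_smul_inv {q : ℕ} {Q K : Subgroup H} {h : H} (hh : h ∈ Subgroup.normalizer (Q : Set H))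
    {v : V} (hv : v ∈ tK V q Q (cj h K)) : h⁻¹ • v ∈ tK V q Q K := by
  have := tK_smul (Subgroup.inv_mem _ hh) hv
  rwa [cj_inv_cj] at this

/-- The centralizer of the component is normalized by `Q`. -/
theorem ctK_conj_Q {q : ℕ} {Q K : Subgroup H} (hK : K ≤ zOm q Q) {u : H} (hu : u ∈ Q) {d : H}
    (hd : d ∈ ctK V q Q K) : u * d * u⁻¹ ∈ ctK V q Q K := by
  refine ⟨Q.mul_mem (Q.mul_mem hu hd.1) (Q.inv_mem hu), fun t ht => ?_⟩
  rw [mul_smul, mul_smul, hd.2 _ (tK_smul_Q hK (Q.inv_mem hu) ht), smul_inv_smul]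

/-- Transport of the centralizer of the component. -/
theorem ctK_conj {q : ℕ} {Q K : Subgroup H} {h : H} (hh : h ∈ Subgroup.normalizer (Q : Set H))
    {d : H} (hd : d ∈ ctK V q Q K) : h * d * h⁻¹ ∈ ctK V q Q (cj h K) := by
  refine ⟨(Subgroup.mem_normalizer_iff.mp hh d).mp hd.1, fun t ht => ?_⟩
  rw [mul_smul, mul_smul, hd.2 _ (tK_smul_inv hh ht), smul_inv_smul]

theorem ctK_conj_inv {q : ℕ} {Q K : Subgroup H} {h : H} (hh : h ∈ Subgroup.normalizer (Q : Set H))
    {d : H} (hd : d ∈ ctK V q Q (cj h K)) : h⁻¹ * d * h ∈ ctK V q Q K := by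
  have := ctK_conj (Subgroup.inv_mem _ hh) hd
  rwa [cj_inv_cj, inv_inv] at this

theorem le_ctK {q : ℕ} {Q K : Subgroup H} (hK : K ≤ zOm q Q) : K ≤ ctK V q Q K :=
  fun k hk => ⟨zOm_le q Q (hK hk), fun _ ht => ht.1 k hk⟩

/-- An element of `Ω₁(Z(Q))` outside `K` does not centralize a nontrivial component. -/
theorem not_mem_ctK {q s : ℕ} (hqs : q.Coprime s) (hexp : ∀ v : V, v ^ s = 1) {Q K : Subgroup H}
    (hT : tK V q Q K ≠ ⊥) {z : H} (hz : z ∈ zOm q Q) (hzK : z ∉ K) : z ∉ ctK V q Q K := by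
  intro hc
  apply hT
  rw [eq_bot_iff]
  intro v hv
  exact Subgroup.mem_bot.mpr (tK_fix hqs hexp hv hz hzK (hc.2 v hv))

end comp

section eop
variable {H V : Type*} [Group H] [CommGroup V] [MulDistribMulAction H V]

/-- The trace operator of a finite subgroup. -/
noncomputable def eK (K : Subgroup H) [Fintype K] : V →* V where
  toFun v := ∏ k : K, (k : H) • v
  map_one' := by simp
  map_mul' a b := by
    simp_rw [smul_mul']
    rw [Finset.prod_mul_distrib]

theorem eK_apply (K : Subgroup H) [Fintype K] (v : V) : eK K v = ∏ k : K, (k : H) • v := rfl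

theorem eK_of_fixed (K : Subgroup H) [Fintype K] {v : V} (hv : ∀ k ∈ K, k • v = v) :
    eK K v = v ^ Nat.card K := by
  rw [eK_apply]
  have h1 : ∀ k : K, (k : H) • v = v := fun k => hv k k.2
  simp_rw [h1]
  rw [Finset.prod_const, Finset.card_univ, Nat.card_eq_fintype_card]

theorem smul_eK (K : Subgroup H) [Fintype K] {z : H} (hz : z ∈ K) (v : V) :
    z • eK K v = eK K v := by
  rw [eK_apply, Finset.smul_prod']
  have h1 : ∀ k : K, z • (k : H) • v = (((⟨z, hz⟩ : K) * k : K) : H) • v := by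
    intro k
    rw [← mul_smul]
    rfl
  simp_rw [h1]
  exact Fintype.prod_equiv (Equiv.mulLeft (⟨z, hz⟩ : K)) _ _ (fun k => rfl)

/-- The trace operator of `K` kills the components of the other subgroups. -/
theorem eK_indep {q s : ℕ} (hqs : q.Coprime s) (hexp : ∀ v : V, v ^ s = 1) {Q K K' : Subgroup H}
    [Fintype K] (hK : K ≤ zOm q Q) (hK' : K' ≤ zOm q Q) {z : H} (hzK : z ∈ K) (hzK' : z ∉ K')
    {t : V} (ht : t ∈ tK V q Q K') : eK K t = 1 := by
  have h1 : eK K t ∈ tK V q Q K' := by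
    rw [eK_apply]
    apply Subgroup.prod_mem
    intro k _
    exact tK_smul_Q hK' (zOm_le q Q (hK k.2)) ht
  exact tK_fix hqs hexp h1 (hK hzK) hzK' (smul_eK K hzK t)

end eop

end Cfsg.Agent.Lib.Helper97.Ward
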