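-- Ward's theorem, part 2: the core lemma. A `q`-group `Q` and a `p'`-group `R` normalizing it,
-- both normalized by an elementary abelian group `A` of order `p²` acting without fixed points
-- on `Q` and on the module `V`, such that the centralizers of the nonidentity elements of `A`
-- behave like nilpotent groups: then `R` centralizes `Q`.
import Mathlib
import Cfsg.Agent.S0022
import Cfsg.Agent.Lib.Helper48.Generation
import Cfsg.Agent.Lib.Helper53.PGroups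
import Cfsg.Agent.Lib.Helper91.Coprime2
import Cfsg.Agent.Lib.Helper97.FrobAct
import Cfsg.Agent.Lib.Helper97.WardT

set_option autoImplicit false

namespace Cfsg.Agent.Lib.Helper97.Ward

open Cfsg.Agent.Lib.Helper97.FrobAct (fp_lemma)

/-- The hypotheses of the core lemma. -/
structure WD {H A : Type*} (V : Type*) [Group H] [CommGroup V] [MulDistribMulAction H V]
    [Group A] (p q s : ℕ) (θ : A →* H) (Q R : Subgroup H) : Prop where
  hp : p.Prime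
  hq : q.Prime
  hs : s.Prime
  hqs : q ≠ s
  hpq : p ≠ q
  hexp : ∀ v : V, v ^ s = 1
  hAc : ∀ x y : A, x * y = y * x
  hAp : ∀ x : A, x ^ p = 1
  hAcard : Nat.card A = p ^ 2
  hQ : IsPGroup q Q
  hR : ¬ p ∣ Nat.card R
  hAQ : ∀ c : A, ∀ u ∈ Q, θ c * u * (θ c)⁻¹ ∈ Q
  hAR : ∀ c : A, ∀ g ∈ R, θ c * g * (θ c)⁻¹ ∈ R
  hRQ : ∀ g ∈ R, ∀ u ∈ Q, g * u * g⁻¹ ∈ Q
  hfaith : ∀ u ∈ Q, (∀ v : V, u • v = v) → u = 1
  hCV : ∀ v : V, (∀ c : A, θ c • v = v) → v = 1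
  hCQ : ∀ u ∈ Q, (∀ c : A, θ c * u = u * θ c) → u = 1
  hT1 : ∀ c : A, c ≠ 1 → ∀ u ∈ Q, θ c * u = u * θ c → ∀ v : V, θ c • v = v → u • v = v
  hT2 : ∀ c : A, c ≠ 1 → ∀ u ∈ Q, θ c * u = u * θ c → ∀ g ∈ R, θ c * g = g * θ c →
    u * g = g * u

section
variable {H A V : Type*} [Group H] [CommGroup V] [MulDistribMulAction H V] [Group A]
  {p q s : ℕ} {θ : A →* H} {Q R : Subgroup H}

namespace WD

theorem finA (D : WD V p q s θ Q R) : Finite A :=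
  Nat.finite_of_card_ne_zero (by rw [D.hAcard]; exact pow_ne_zero _ D.hp.ne_zero)

theorem hqsc (D : WD V p q s θ Q R) : q.Coprime s :=
  (Nat.coprime_primes D.hq D.hs).mpr D.hqs

theorem hpqc (D : WD V p q s θ Q R) : p.Coprime q :=
  (Nat.coprime_primes D.hp D.hq).mpr D.hpq

theorem thp (D : WD V p q s θ Q R) (c : A) : θ c ^ p = 1 := by
  rw [← map_pow, D.hAp, map_one]

theorem nQ (D : WD V p q s θ Q R) (c : A) : θ c ∈ Subgroup.normalizer (Q : Set H) := by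
  rw [Subgroup.mem_normalizer_iff]
  intro u
  refine ⟨D.hAQ c u, fun h => ?_⟩
  have h1 := D.hAQ c⁻¹ _ h
  rw [map_inv, inv_inv] at h1
  have h2 : (θ c)⁻¹ * (θ c * u * (θ c)⁻¹) * θ c = u := by group
  rwa [h2] at h1

theorem nR (D : WD V p q s θ Q R) {g : H} (hg : g ∈ R) :
    g ∈ Subgroup.normalizer (Q : Set H) := by
  rw [Subgroup.mem_normalizer_iff]
  intro u
  refine ⟨D.hRQ g hg u, fun h => ?_⟩
  have h1 := D.hRQ g⁻¹ (R.inv_mem hg) _ h
  rw [inv_inv] at h1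
  have h2 : g⁻¹ * (g * u * g⁻¹) * g = u := by group
  rwa [h2] at h1

theorem nAR (D : WD V p q s θ Q R) (c : A) : θ c ∈ Subgroup.normalizer (R : Set H) := by
  rw [Subgroup.mem_normalizer_iff]
  intro u
  refine ⟨D.hAR c u, fun h => ?_⟩
  have h1 := D.hAR c⁻¹ _ h
  rw [map_inv, inv_inv] at h1
  have h2 : (θ c)⁻¹ * (θ c * u * (θ c)⁻¹) * θ c = u := by group
  rwa [h2] at h1

/-- Orders of subgroups of `Q` are prime to the characteristic. -/
theorem card_coprime [Finite H] (D : WD V p q s θ Q R) {K : Subgroup H} (hK : K ≤ Q) :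
    (Nat.card K).Coprime s := by
  have : Fact q.Prime := ⟨D.hq⟩
  obtain ⟨n, hn⟩ := (D.hQ.to_le hK).exists_card_eq
  rw [hn]
  exact Nat.Coprime.pow_left n D.hqsc

theorem orderOf_coprime [Finite H] (D : WD V p q s θ Q R) {u : H} (hu : u ∈ Q) :
    (orderOf u).Coprime s := by
  have h1 := D.card_coprime (Subgroup.zpowers_le.mpr hu)
  rwa [Nat.card_zpowers] at h1

theorem exists_gens (D : WD V p q s θ Q R) :
    ∃ a₁ a₂ : A, a₂ ≠ 1 ∧ a₁ ∉ Subgroup.zpowers a₂ := by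
  have : Finite A := D.finA
  have h1 : 1 < Nat.card A := by
    rw [D.hAcard]
    exact Nat.one_lt_pow (by norm_num) D.hp.one_lt
  have : Nontrivial A := Finite.one_lt_card_iff_nontrivial.mp h1
  obtain ⟨a₂, h2⟩ := exists_ne (1 : A)
  have h3 : Nat.card (Subgroup.zpowers a₂) ≤ p := by
    rw [Nat.card_zpowers]
    exact Nat.le_of_dvd D.hp.pos (orderOf_dvd_of_pow_eq_one (D.hAp a₂))
  have h4 : Subgroup.zpowers a₂ ≠ ⊤ := by
    intro h
    rw [h, Subgroup.card_top, D.hAcard] at h3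
    have : p < p ^ 2 := by nlinarith [D.hp.one_lt]
    omega
  obtain ⟨a₁, -, h5⟩ := SetLike.exists_of_lt (lt_top_iff_ne_top.mpr h4)
  exact ⟨a₁, a₂, h2, h5⟩

theorem card_zpowers (D : WD V p q s θ Q R) {b : A} (hb : b ≠ 1) :
    Nat.card (Subgroup.zpowers b) = p := by
  rw [Nat.card_zpowers]
  rcases (Nat.dvd_prime D.hp).mp (orderOf_dvd_of_pow_eq_one (D.hAp b)) with h | h
  · exact absurd (orderOf_eq_one_iff.mp h) hb
  · exact h

theorem zpowers_sup (D : WD V p q s θ Q R) {b c : A} (hb : b ≠ 1)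
    (hc : c ∉ Subgroup.zpowers b) : Subgroup.zpowers b ⊔ Subgroup.zpowers c = ⊤ := by
  have : Finite A := D.finA
  have h1 := D.card_zpowers hb
  have h2 : ¬ Nat.card (Subgroup.zpowers b ⊔ Subgroup.zpowers c : Subgroup A) ≤ p := by
    intro hle
    have h3 := Subgroup.eq_of_le_of_card_ge
      (le_sup_left : Subgroup.zpowers b ≤ Subgroup.zpowers b ⊔ Subgroup.zpowers c)
      (by rw [h1]; exact hle)
    apply hc
    rw [h3]
    exact (le_sup_right : Subgroup.zpowers c ≤ _) (Subgroup.mem_zpowers c)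
  have h4 : Nat.card (Subgroup.zpowers b ⊔ Subgroup.zpowers c : Subgroup A) ∣ p ^ 2 := by
    rw [← D.hAcard]
    exact Subgroup.card_subgroup_dvd_card _
  obtain ⟨k, hk, hk'⟩ := (Nat.dvd_prime_pow D.hp).mp h4
  have hk2 : k = 2 := by
    by_contra hne
    apply h2
    rw [hk']
    have : k ≤ 1 := by omega
    calc p ^ k ≤ p ^ 1 := Nat.pow_le_pow_right D.hp.pos this
      _ = p := pow_one p
  rw [hk2, ← D.hAcard] at hk'
  exact (Subgroup.card_eq_iff_eq_top _).mp hk'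

/-- A subgroup containing the images of two independent elements contains the image of `A`. -/
theorem map_mem (D : WD V p q s θ Q R) {b c : A} (hb : b ≠ 1)
    (hc : c ∉ Subgroup.zpowers b) (M : Subgroup H) (h1 : θ b ∈ M) (h2 : θ c ∈ M) (x : A) :
    θ x ∈ M := by
  have h : Subgroup.zpowers b ⊔ Subgroup.zpowers c ≤ M.comap θ :=
    sup_le (Subgroup.zpowers_le.mpr h1) (Subgroup.zpowers_le.mpr h2)
  rw [D.zpowers_sup hb hc] at h
  exact h (Subgroup.mem_top x)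

/-- A nonidentity element of a cyclic subgroup of `A` generates it. -/
theorem mem_zpowers_symm (D : WD V p q s θ Q R) {b c : A} (hc : c ≠ 1)
    (hcb : c ∈ Subgroup.zpowers b) : b ∈ Subgroup.zpowers c := by
  have : Finite A := D.finA
  have hb : b ≠ 1 := by
    rintro rfl
    rw [Subgroup.zpowers_one_eq_bot, Subgroup.mem_bot] at hcb
    exact hc hcb
  have h1 : Subgroup.zpowers c ≤ Subgroup.zpowers b := Subgroup.zpowers_le.mpr hcb
  have h2 := Subgroup.eq_of_le_of_card_ge h1 (by rw [D.card_zpowers hb, D.card_zpowers hc])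
  rw [h2]
  exact Subgroup.mem_zpowers b

/-- Generation of `Q` by the centralizers of the nonidentity elements of `A`. -/
theorem gen [Finite H] (D : WD V p q s θ Q R) (Y : Subgroup H)
    (hY : ∀ c : A, c ≠ 1 → ∀ u ∈ Q, θ c * u = u * θ c → u ∈ Y) : Q ≤ Y := by
  have : Fact p.Prime := ⟨D.hp⟩
  obtain ⟨a₁, a₂, h2, h1⟩ := D.exists_gens
  have hU : IsPGroup p θ.range := by
    rintro ⟨_, c, rfl⟩
    refine ⟨1, Subtype.ext ?_⟩
    rw [pow_one]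
    exact D.thp c
  have hQp : ¬ p ∣ Nat.card Q := by
    have : Fact q.Prime := ⟨D.hq⟩
    obtain ⟨n, hn⟩ := D.hQ.exists_card_eq
    rw [hn]
    intro h
    exact D.hpq ((Nat.prime_dvd_prime_iff_eq D.hp D.hq).mp (D.hp.dvd_of_dvd_pow h))
  have hUQ : θ.range ≤ Subgroup.normalizer (Q : Set H) := by
    rintro _ ⟨c, rfl⟩
    exact D.nQ c
  have h := Cfsg.Agent.Lib.Helper48.coprime_generation Q θ.range hU hQp hUQ (θ a₁) (θ a₂)
    ⟨a₁, rfl⟩ ⟨a₂, rfl⟩ (by rw [← map_mul, ← map_mul, D.hAc]) (D.thp a₁) (D.thp a₂)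
  refine h.trans (sup_le ?_ (iSup_le fun i => ?_))
  · intro u hu
    obtain ⟨hu1, hu2⟩ := Subgroup.mem_inf.mp hu
    exact hY a₂ h2 u hu1 (Subgroup.mem_centralizer_iff.mp hu2 (θ a₂) (Set.mem_singleton _))
  · intro u hu
    obtain ⟨hu1, hu2⟩ := Subgroup.mem_inf.mp hu
    have h3 : θ a₁ * θ a₂ ^ i = θ (a₁ * a₂ ^ i) := by rw [map_mul, map_pow]
    have h4 : a₁ * a₂ ^ i ≠ 1 := by
      intro h5
      apply h1
      have h6 : a₁ = (a₂ ^ i)⁻¹ := eq_inv_of_mul_eq_one_left h5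
      rw [h6]
      exact Subgroup.inv_mem _ (Subgroup.pow_mem _ (Subgroup.mem_zpowers a₂) i)
    have h5 := Subgroup.mem_centralizer_iff.mp hu2 _ (Set.mem_singleton _)
    rw [h3] at h5
    exact hY _ h4 u hu1 h5

end WD

theorem mem_of_pow_mem {G : Type*} [Group G] (S : Subgroup G) {x : G} {m n : ℕ}
    (hn : x ^ n = 1) (hcop : m.Coprime n) (h : x ^ m ∈ S) : x ∈ S := by
  rcases Nat.lt_or_ge 1 n with h1 | h1
  · obtain ⟨k, -, hk⟩ := Nat.exists_mul_mod_eq_one_of_coprime hcop h1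
    have h3 : (x ^ m) ^ k = x := by
      rw [← pow_mul, pow_eq_pow_mod (m * k) hn, hk, pow_one]
    rw [← h3]
    exact S.pow_mem h k
  · interval_cases n
    · rw [Nat.coprime_zero_right] at hcop
      rw [hcop, pow_one] at h
      exact h
    · rw [pow_one] at hn
      rw [hn]
      exact S.one_mem

/-- `Ω₁(Z(Q))` is commutative. -/
@[reducible] def zComm (q : ℕ) (Q : Subgroup H) : CommGroup ↥(zOm q Q) :=
  { (inferInstance : Group ↥(zOm q Q)) with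
    mul_comm := fun a b => Subtype.ext (zOm_comm a.2 (zOm_le q Q b.2)) }

/-- Conjugation on `Ω₁(Z(Q))`. -/
def conjZ (q : ℕ) (Q : Subgroup H) (h : H) (hh : h ∈ Subgroup.normalizer (Q : Set H)) :
    ↥(zOm q Q) →* ↥(zOm q Q) where
  toFun z := ⟨h * z * h⁻¹, zOm_conj hh z.2⟩
  map_one' := Subtype.ext (by simp)
  map_mul' a b := Subtype.ext (by simp [mul_assoc])

theorem conjZ_coe (q : ℕ) (Q : Subgroup H) (h : H) (hh : h ∈ Subgroup.normalizer (Q : Set H))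
    (z : ↥(zOm q Q)) : ((conjZ q Q h hh z : ↥(zOm q Q)) : H) = h * z * h⁻¹ := rfl

/-- The subgroup `[Ω₁(Z(Q)), h]`. -/
def comY (q : ℕ) (Q : Subgroup H) (h : H) (hh : h ∈ Subgroup.normalizer (Q : Set H)) :
    Subgroup H where
  carrier := {y | ∃ z ∈ zOm q Q, y = h * z * h⁻¹ * z⁻¹}
  mul_mem' := by
    rintro _ _ ⟨z, hz, rfl⟩ ⟨z', hz', rfl⟩
    refine ⟨z * z', (zOm q Q).mul_mem hz hz', ?_⟩
    have c1 : z⁻¹ * (h * z' * h⁻¹) = (h * z' * h⁻¹) * z⁻¹ :=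
      zOm_comm ((zOm q Q).inv_mem hz) (zOm_le q Q (zOm_conj hh hz'))
    have c2 : z⁻¹ * z'⁻¹ = z'⁻¹ * z⁻¹ :=
      zOm_comm ((zOm q Q).inv_mem hz) (zOm_le q Q ((zOm q Q).inv_mem hz'))
    calc h * z * h⁻¹ * z⁻¹ * (h * z' * h⁻¹ * z'⁻¹)
        = h * z * h⁻¹ * (z⁻¹ * (h * z' * h⁻¹)) * z'⁻¹ := by group
      _ = h * z * h⁻¹ * ((h * z' * h⁻¹) * z⁻¹) * z'⁻¹ := by rw [c1]
      _ = h * (z * z') * h⁻¹ * (z⁻¹ * z'⁻¹) := by group
      _ = h * (z * z') * h⁻¹ * (z'⁻¹ * z⁻¹) := by rw [c2]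
      _ = h * (z * z') * h⁻¹ * (z * z')⁻¹ := by group
  one_mem' := ⟨1, (zOm q Q).one_mem, by group⟩
  inv_mem' := by
    rintro _ ⟨z, hz, rfl⟩
    refine ⟨z⁻¹, (zOm q Q).inv_mem hz, ?_⟩
    have c : z * (h * z⁻¹ * h⁻¹) = (h * z⁻¹ * h⁻¹) * z :=
      zOm_comm hz (zOm_le q Q (zOm_conj hh ((zOm q Q).inv_mem hz)))
    calc (h * z * h⁻¹ * z⁻¹)⁻¹ = z * (h * z⁻¹ * h⁻¹) := by group
      _ = h * z⁻¹ * h⁻¹ * z := c
      _ = h * z⁻¹ * h⁻¹ * z⁻¹⁻¹ := by rw [inv_inv]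

theorem comY_le (q : ℕ) (Q : Subgroup H) (h : H) (hh : h ∈ Subgroup.normalizer (Q : Set H)) :
    comY q Q h hh ≤ zOm q Q := by
  rintro _ ⟨z, hz, rfl⟩
  exact (zOm q Q).mul_mem (zOm_conj hh hz) ((zOm q Q).inv_mem hz)

theorem comY_conj_inv (q : ℕ) (Q : Subgroup H) (h : H)
    (hh : h ∈ Subgroup.normalizer (Q : Set H)) {y : H} (hy : y ∈ comY q Q h hh) :
    h⁻¹ * y * h ∈ comY q Q h hh := by
  obtain ⟨z, hz, rfl⟩ := hy
  refine ⟨h⁻¹ * z * h, zOm_conj' hh hz, ?_⟩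
  group

/-- An element of order `p` has no fixed points on `[Ω₁(Z(Q)), h]`. -/
theorem comY_fix {p q : ℕ} (hpq : p.Coprime q) (Q : Subgroup H) (h : H)
    (hh : h ∈ Subgroup.normalizer (Q : Set H)) (hp : h ^ p = 1) {y : H}
    (hy : y ∈ comY q Q h hh) (hcomm : h * y = y * h) : y = 1 := by
  obtain ⟨z, hz, rfl⟩ := hy
  letI : CommGroup ↥(zOm q Q) := zComm q Q
  have hn : ∀ i : ℕ, h ^ i ∈ Subgroup.normalizer (Q : Set H) := fun i =>
    Subgroup.pow_mem _ hh i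
  have h1 := Finset.prod_range_div (fun i => conjZ q Q (h ^ i) (hn i) ⟨z, hz⟩) p
  have hy : h * z * h⁻¹ * z⁻¹ ∈ zOm q Q :=
    (zOm q Q).mul_mem (zOm_conj hh hz) ((zOm q Q).inv_mem hz)
  have h2 : ∀ i : ℕ, conjZ q Q (h ^ (i + 1)) (hn (i + 1)) ⟨z, hz⟩ /
      conjZ q Q (h ^ i) (hn i) ⟨z, hz⟩ = ⟨h * z * h⁻¹ * z⁻¹, hy⟩ := by
    intro i
    apply Subtype.ext
    rw [div_eq_mul_inv, Subgroup.coe_mul, Subgroup.coe_inv, conjZ_coe, conjZ_coe]
    have hc : h ^ i * (h * z * h⁻¹ * z⁻¹) = (h * z * h⁻¹ * z⁻¹) * h ^ i :=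
      (Commute.pow_left (show Commute h (h * z * h⁻¹ * z⁻¹) from hcomm) i).eq
    calc h ^ (i + 1) * z * (h ^ (i + 1))⁻¹ * (h ^ i * z * (h ^ i)⁻¹)⁻¹
        = h ^ i * (h * z * h⁻¹ * z⁻¹) * (h ^ i)⁻¹ := by
          rw [pow_succ]; group
      _ = (h * z * h⁻¹ * z⁻¹) * h ^ i * (h ^ i)⁻¹ := by rw [hc]
      _ = h * z * h⁻¹ * z⁻¹ := by group
  simp_rw [h2] at h1
  rw [Finset.prod_const, Finset.card_range] at h1
  have h3 : conjZ q Q (h ^ p) (hn p) ⟨z, hz⟩ / conjZ q Q (h ^ 0) (hn 0) ⟨z, hz⟩ = 1 := by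
    apply Subtype.ext
    rw [div_eq_mul_inv, Subgroup.coe_mul, Subgroup.coe_inv, conjZ_coe, conjZ_coe]
    simp [hp]
  rw [h3] at h1
  have h4 := congrArg Subtype.val h1
  rw [Subgroup.coe_pow, Subgroup.coe_one] at h4
  exact Subgroup.mem_bot.mp (mem_of_pow_mem ⊥ (zOm_pow hy) hpq (by rw [h4]; exact Subgroup.one_mem _))

/-- The elements of `W` whose `u`-norm vanishes. -/
def nSub (W : Subgroup V) (u : H) (m : ℕ) : Subgroup V where
  carrier := {d | d ∈ W ∧ ∏ j ∈ Finset.range m, u ^ j • d = 1}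
  mul_mem' := by
    rintro a b ⟨ha, ha'⟩ ⟨hb, hb'⟩
    refine ⟨W.mul_mem ha hb, ?_⟩
    simp_rw [smul_mul']
    rw [Finset.prod_mul_distrib, ha', hb', one_mul]
  one_mem' := ⟨W.one_mem, by simp⟩
  inv_mem' := by
    rintro a ⟨ha, ha'⟩
    refine ⟨W.inv_mem ha, ?_⟩
    simp_rw [smul_inv']
    rw [Finset.prod_inv_distrib, ha', inv_one]

theorem conj_mem_of_normalizer {Q : Subgroup H} {x : H}
    (hx : x ∈ Subgroup.normalizer (Q : Set H)) {u : H} (hu : u ∈ Q) : x * u * x⁻¹ ∈ Q :=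
  (Subgroup.mem_normalizer_iff.mp hx u).mp hu

theorem conj_inv_mem_of_normalizer {Q : Subgroup H} {x : H}
    (hx : x ∈ Subgroup.normalizer (Q : Set H)) {u : H} (hu : u ∈ Q) : x⁻¹ * u * x ∈ Q := by
  have := (Subgroup.mem_normalizer_iff.mp (Subgroup.inv_mem _ hx) u).mp hu
  rwa [inv_inv] at this

/-- Elements normalizing `Q` and `K` and centralizing `Ω₁(Z(Q))/K`. -/
def mB (q : ℕ) (Q K : Subgroup H) : Subgroup H where
  carrier := {x | x ∈ Subgroup.normalizer (Q : Set H) ∧ cj x K = K ∧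
    ∀ z ∈ zOm q Q, x * z * x⁻¹ * z⁻¹ ∈ K}
  mul_mem' := by
    rintro x y ⟨hx, hxK, hx'⟩ ⟨hy, hyK, hy'⟩
    refine ⟨Subgroup.mul_mem _ hx hy, by rw [cj_mul, hyK, hxK], fun z hz => ?_⟩
    have h1 : x * (y * z * y⁻¹ * z⁻¹) * x⁻¹ ∈ K := by
      have := conj_mem_cj (h := x) (hy' z hz)
      rwa [hxK] at this
    have h2 := K.mul_mem h1 (hx' z hz)
    have h3 : x * (y * z * y⁻¹ * z⁻¹) * x⁻¹ * (x * z * x⁻¹ * z⁻¹) =
        x * y * z * (x * y)⁻¹ * z⁻¹ := by group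
    rwa [h3] at h2
  one_mem' := ⟨Subgroup.one_mem _, cj_one K, fun z _ => by simp⟩
  inv_mem' := by
    rintro x ⟨hx, hxK, hx'⟩
    have hxK' : cj x⁻¹ K = K := by
      have := cj_inv_cj x K
      rwa [hxK] at this
    refine ⟨Subgroup.inv_mem _ hx, hxK', fun z hz => ?_⟩
    have h1 := hx' _ (zOm_conj' hx hz)
    have h2 := K.inv_mem h1
    have h3 : (x * (x⁻¹ * z * x) * x⁻¹ * (x⁻¹ * z * x)⁻¹)⁻¹ = x⁻¹ * z * x⁻¹⁻¹ * z⁻¹ := by group
    rwa [h3] at h2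

/-- Elements of `Q` on which `x` acts trivially modulo the centralizer of the component. -/
def comSub (V : Type*) [CommGroup V] [MulDistribMulAction H V] (q : ℕ) (Q K : Subgroup H)
    (hK : K ≤ zOm q Q) (x : H) : Subgroup H where
  carrier := {u | u ∈ Q ∧ x * u * x⁻¹ * u⁻¹ ∈ ctK V q Q K}
  mul_mem' := by
    rintro a b ⟨ha, ha'⟩ ⟨hb, hb'⟩
    refine ⟨Q.mul_mem ha hb, ?_⟩
    have h1 := (ctK V q Q K).mul_mem ha' (ctK_conj_Q hK ha hb')
    have h2 : x * a * x⁻¹ * a⁻¹ * (a * (x * b * x⁻¹ * b⁻¹) * a⁻¹) =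
        x * (a * b) * x⁻¹ * (a * b)⁻¹ := by group
    rwa [h2] at h1
  one_mem' := ⟨Q.one_mem, by simp⟩
  inv_mem' := by
    rintro a ⟨ha, ha'⟩
    refine ⟨Q.inv_mem ha, ?_⟩
    have h1 := ctK_conj_Q hK (Q.inv_mem ha) ((ctK V q Q K).inv_mem ha')
    have h2 : a⁻¹ * (x * a * x⁻¹ * a⁻¹)⁻¹ * a⁻¹⁻¹ = x * a⁻¹ * x⁻¹ * a⁻¹⁻¹ := by group
    rwa [h2] at h1

/-- Elements normalizing `Q` and `K` and centralizing `Q` modulo the centralizer of the
component. -/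
def mG (V : Type*) [CommGroup V] [MulDistribMulAction H V] (q : ℕ) (Q K : Subgroup H) :
    Subgroup H where
  carrier := {x | x ∈ Subgroup.normalizer (Q : Set H) ∧ cj x K = K ∧
    ∀ u ∈ Q, x * u * x⁻¹ * u⁻¹ ∈ ctK V q Q K}
  mul_mem' := by
    rintro x y ⟨hx, hxK, hx'⟩ ⟨hy, hyK, hy'⟩
    refine ⟨Subgroup.mul_mem _ hx hy, by rw [cj_mul, hyK, hxK], fun u hu => ?_⟩
    have h1 : x * (y * u * y⁻¹ * u⁻¹) * x⁻¹ ∈ ctK V q Q K := by
      have := ctK_conj (V := V) hx (hy' u hu)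
      rwa [hxK] at this
    have h2 := (ctK V q Q K).mul_mem h1 (hx' u hu)
    have h3 : x * (y * u * y⁻¹ * u⁻¹) * x⁻¹ * (x * u * x⁻¹ * u⁻¹) =
        x * y * u * (x * y)⁻¹ * u⁻¹ := by group
    rwa [h3] at h2
  one_mem' := ⟨Subgroup.one_mem _, cj_one K, fun u _ => by simp⟩
  inv_mem' := by
    rintro x ⟨hx, hxK, hx'⟩
    have hxK' : cj x⁻¹ K = K := by
      have := cj_inv_cj x K
      rwa [hxK] at this
    refine ⟨Subgroup.inv_mem _ hx, hxK', fun u hu => ?_⟩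
    have h1 := hx' _ (conj_inv_mem_of_normalizer hx hu)
    have h2 := (ctK V q Q K).inv_mem h1
    have h3 : (x * (x⁻¹ * u * x) * x⁻¹ * (x⁻¹ * u * x)⁻¹)⁻¹ = x⁻¹ * u * x⁻¹⁻¹ * u⁻¹ := by group
    rwa [h3] at h2

theorem mG_conj {K : Subgroup H} {h : H} (hh : h ∈ Subgroup.normalizer (Q : Set H)) {y : H}
    (hy : y ∈ mG V q Q K) : h * y * h⁻¹ ∈ mG V q Q (cj h K) := by
  obtain ⟨hyn, hyK, hy'⟩ := hy
  refine ⟨Subgroup.mul_mem _ (Subgroup.mul_mem _ hh hyn) (Subgroup.inv_mem _ hh), ?_,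
    fun u hu => ?_⟩
  · rw [cj_mul, cj_mul, cj_inv_cj, hyK]
  · have h1 := ctK_conj (V := V) hh (hy' _ (conj_inv_mem_of_normalizer hh hu))
    have h2 : h * (y * (h⁻¹ * u * h) * y⁻¹ * (h⁻¹ * u * h)⁻¹) * h⁻¹ =
        h * y * h⁻¹ * u * (h * y * h⁻¹)⁻¹ * u⁻¹ := by group
    rwa [h2] at h1

theorem mG_conj_inv {K : Subgroup H} {g : H} (hg : g ∈ Subgroup.normalizer (Q : Set H)) {x : H}
    (hx : x ∈ mG V q Q (cj g K)) : g⁻¹ * x * g ∈ mG V q Q K := by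
  have := mG_conj (V := V) (Subgroup.inv_mem _ hg) hx
  rwa [cj_inv_cj, inv_inv] at this

/-- `K` is a proper subgroup of `Ω₁(Z(Q))` with a nontrivial component. -/
def Rel (V : Type*) [CommGroup V] [MulDistribMulAction H V] (q : ℕ) (Q K : Subgroup H) : Prop :=
  K ≤ zOm q Q ∧ (∃ z ∈ zOm q Q, z ∉ K) ∧ tK V q Q K ≠ ⊥

theorem Rel.conj {K : Subgroup H} (hK : Rel V q Q K) {h : H}
    (hh : h ∈ Subgroup.normalizer (Q : Set H)) : Rel V q Q (cj h K) := by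
  obtain ⟨h1, ⟨z, hz, hzK⟩, h3⟩ := hK
  refine ⟨cj_le_zOm hh h1, ⟨h * z * h⁻¹, zOm_conj hh hz, fun hc => hzK ?_⟩, fun hbot => h3 ?_⟩
  · have h4 := mem_cj.mp hc
    have e : h⁻¹ * (h * z * h⁻¹) * h = z := by group
    rwa [e] at h4
  · rw [eq_bot_iff]
    intro v hv
    have h4 := tK_smul hh hv
    rw [hbot, Subgroup.mem_bot] at h4
    rw [Subgroup.mem_bot]
    have h5 : v = h⁻¹ • (h • v) := (inv_smul_smul h v).symm
    rw [h5, h4, smul_one]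

/-- A `p`-subgroup of `L` is conjugate into any subgroup of `L` of index prime to `p`. -/
theorem conj_into [Finite H] {p : ℕ} [Fact p.Prime] (L M P : Subgroup H) (hPL : P ≤ L)
    (hP : IsPGroup p P) (hidx : ¬ p ∣ M.relIndex L) :
    ∃ h ∈ L, ∀ x ∈ P, h⁻¹ * x * h ∈ M := by
  letI : MulAction P (L ⧸ M.subgroupOf L) := MulAction.compHom _ (Subgroup.inclusion hPL)
  have hcard : ¬ p ∣ Nat.card (L ⧸ M.subgroupOf L) := hidx
  obtain ⟨x, hx⟩ := hP.nonempty_fixed_point_of_prime_not_dvd_card (L ⧸ M.subgroupOf L) hcard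
  induction x using QuotientGroup.induction_on with
  | _ h =>
    refine ⟨h, h.2, fun x hxP => ?_⟩
    have h1 := hx ⟨x, hxP⟩
    have h2 : (⟨x, hxP⟩ : P) • (QuotientGroup.mk h : L ⧸ M.subgroupOf L) =
        QuotientGroup.mk ((Subgroup.inclusion hPL ⟨x, hxP⟩) * h) := rfl
    rw [h2, QuotientGroup.eq, Subgroup.mem_subgroupOf] at h1
    have h3 := M.inv_mem h1
    have h4 : (((Subgroup.inclusion hPL ⟨x, hxP⟩ * h)⁻¹ * h : L) : H)⁻¹ = (h : H)⁻¹ * x * h := by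
      simp [mul_assoc]
    rwa [h4] at h3

theorem le_normalizer_of_conj (S T : Subgroup H) (h : ∀ x ∈ T, ∀ d ∈ S, x * d * x⁻¹ ∈ S) :
    T ≤ Subgroup.normalizer (S : Set H) := by
  intro x hx
  rw [Subgroup.mem_normalizer_iff]
  intro d
  refine ⟨h x hx d, fun hd => ?_⟩
  have h1 := h x⁻¹ (T.inv_mem hx) _ hd
  have e : x⁻¹ * (x * d * x⁻¹) * x⁻¹⁻¹ = d := by group
  rwa [e] at h1

theorem mem_normalizer_of_conj (S : Subgroup H) (x : H) (h1 : ∀ d ∈ S, x * d * x⁻¹ ∈ S)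
    (h2 : ∀ d ∈ S, x⁻¹ * d * x ∈ S) : x ∈ Subgroup.normalizer (S : Set H) := by
  rw [Subgroup.mem_normalizer_iff]
  intro d
  refine ⟨h1 d, fun hd => ?_⟩
  have h3 := h2 _ hd
  have e : x⁻¹ * (x * d * x⁻¹) * x = d := by group
  rwa [e] at h3

/-- Elements normalizing `Q` and `D` and acting trivially on `Q/D`. -/
def kerSub (Q D : Subgroup H) : Subgroup H where
  carrier := {x | x ∈ Subgroup.normalizer (Q : Set H) ∧ x ∈ Subgroup.normalizer (D : Set H) ∧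
    ∀ u ∈ Q, x * u * x⁻¹ * u⁻¹ ∈ D}
  mul_mem' := by
    rintro x y ⟨hx, hxD, hx'⟩ ⟨hy, hyD, hy'⟩
    refine ⟨Subgroup.mul_mem _ hx hy, Subgroup.mul_mem _ hxD hyD, fun u hu => ?_⟩
    have h1 := conj_mem_of_normalizer hxD (hy' u hu)
    have h2 := D.mul_mem h1 (hx' u hu)
    have h3 : x * (y * u * y⁻¹ * u⁻¹) * x⁻¹ * (x * u * x⁻¹ * u⁻¹) =
        x * y * u * (x * y)⁻¹ * u⁻¹ := by group
    rwa [h3] at h2
  one_mem' := ⟨Subgroup.one_mem _, Subgroup.one_mem _, fun u _ => by simp⟩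
  inv_mem' := by
    rintro x ⟨hx, hxD, hx'⟩
    refine ⟨Subgroup.inv_mem _ hx, Subgroup.inv_mem _ hxD, fun u hu => ?_⟩
    have h1 := hx' _ (conj_inv_mem_of_normalizer hx hu)
    have h2 := D.inv_mem h1
    have h3 : (x * (x⁻¹ * u * x) * x⁻¹ * (x⁻¹ * u * x)⁻¹)⁻¹ = x⁻¹ * u * x⁻¹⁻¹ * u⁻¹ := by group
    rwa [h3] at h2

theorem kerSub_conj {Q D : Subgroup H} {g x : H} (hg : g ∈ Subgroup.normalizer (Q : Set H))
    (hgD : g ∈ Subgroup.normalizer (D : Set H)) (hx : x ∈ kerSub Q D) :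
    g * x * g⁻¹ ∈ kerSub Q D := by
  obtain ⟨hxQ, hxD, hx'⟩ := hx
  refine ⟨Subgroup.mul_mem _ (Subgroup.mul_mem _ hg hxQ) (Subgroup.inv_mem _ hg),
    Subgroup.mul_mem _ (Subgroup.mul_mem _ hgD hxD) (Subgroup.inv_mem _ hgD), fun u hu => ?_⟩
  have h1 := conj_mem_of_normalizer hgD (hx' _ (conj_inv_mem_of_normalizer hg hu))
  have h2 : g * (x * (g⁻¹ * u * g) * x⁻¹ * (g⁻¹ * u * g)⁻¹) * g⁻¹ =
      g * x * g⁻¹ * u * (g * x * g⁻¹)⁻¹ * u⁻¹ := by group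
  rwa [h2] at h1

/-- The fixed points of a subgroup. -/
def fixS (V : Type*) [CommGroup V] [MulDistribMulAction H V] (K : Subgroup H) : Subgroup V where
  carrier := {v | ∀ k ∈ K, k • v = v}
  mul_mem' := by
    intro a b ha hb k hk
    rw [smul_mul', ha k hk, hb k hk]
  one_mem' := fun k _ => smul_one k
  inv_mem' := by
    intro a ha k hk
    rw [smul_inv', ha k hk]

namespace WD

/-- Lemma 1, case (i): `c` moves `K`. -/
theorem lemma1_i [Finite H] (D : WD V p q s θ Q R) {K : Subgroup H} (hK : K ≤ zOm q Q)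
    {c : A} (hc : c ≠ 1) {u : H} (hu : u ∈ Q) (hcu : θ c * u = u * θ c)
    (hne : cj (θ c) K ≠ K) : ∀ t ∈ tK V q Q K, u • t = t := by
  classical
  have : Fintype K := Fintype.ofFinite K
  have hpow : ∀ i, 0 < i → i < p → cj (θ c ^ i) K ≠ K := by
    intro i hi0 hip hcon
    apply hne
    have h1 : θ c ^ i ∈ stK K := hcon
    have hcop : i.Coprime p :=
      Nat.Coprime.symm ((Nat.Prime.coprime_iff_not_dvd D.hp).mpr (Nat.not_dvd_of_pos_of_lt hi0 hip))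
    obtain ⟨m, -, hm⟩ := Nat.exists_mul_mod_eq_one_of_coprime hcop D.hp.one_lt
    have h2 : (θ c ^ i) ^ m = θ c := by
      rw [← pow_mul, pow_eq_pow_mod (i * m) (D.thp c), hm, pow_one]
    have h3 := (stK K).pow_mem h1 m
    rw [h2] at h3
    exact h3
  intro t ht
  obtain ⟨w, hwdef⟩ : ∃ w : V, w = ∏ i ∈ Finset.range p, θ c ^ i • t := ⟨_, rfl⟩
  have hw : θ c • w = w := by
    rw [hwdef]
    exact norm_fixed (θ c) p (D.thp c) t
  have huw : u • w = w := D.hT1 c hc u hu hcu w hw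
  obtain ⟨d, hd⟩ : ∃ d : V, d = u • t / t := ⟨_, rfl⟩
  have hdT : d ∈ tK V q Q K := by
    rw [hd]
    exact (tK V q Q K).div_mem (tK_smul_Q hK hu ht) ht
  have hprod : ∏ i ∈ Finset.range p, θ c ^ i • d = 1 := by
    have h1 : ∀ i : ℕ, θ c ^ i • d = u • (θ c ^ i • t) / (θ c ^ i • t) := by
      intro i
      rw [hd, smul_div', smul_comm_of_comm (θ c ^ i) u
        (Commute.pow_left (show Commute (θ c) u from hcu) i).eq]
    simp_rw [h1]
    rw [Finset.prod_div_distrib, ← Finset.smul_prod', ← hwdef, huw, div_self']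
  have h2 := congrArg (eK K) hprod
  rw [map_prod, map_one] at h2
  obtain ⟨n, hn⟩ : ∃ n, p = n + 1 := ⟨p - 1, by have := D.hp.pos; omega⟩
  rw [hn, Finset.prod_range_succ'] at h2
  have h3 : ∀ i ∈ Finset.range n, eK K (θ c ^ (i + 1) • d) = 1 := by
    intro i hi
    have hi' : i + 1 < p := by
      rw [hn]
      have := Finset.mem_range.mp hi
      omega
    have hnq : θ c ^ (i + 1) ∈ Subgroup.normalizer (Q : Set H) :=
      Subgroup.pow_mem _ (D.nQ c) _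
    obtain ⟨z, hzK, hzK'⟩ := exists_not_mem_cj (hpow (i + 1) (Nat.succ_pos i) hi')
    exact eK_indep D.hqsc D.hexp hK (cj_le_zOm hnq hK) hzK hzK' (tK_smul hnq hdT)
  rw [Finset.prod_eq_one h3, one_mul, pow_zero, one_smul,
    eK_of_fixed K (fun k hk => hdT.1 k hk)] at h2
  have h4 : d = 1 :=
    eq_one_of_pow_coprime (D.card_coprime (hK.trans (zOm_le q Q))) h2 (D.hexp d)
  rw [hd, div_eq_one] at h4
  exact h4

/-- Lemma 1, case (ii): `c` normalizes `K` and acts nontrivially on `Ω₁(Z(Q))/K`. -/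
theorem lemma1_ii [Finite H] (D : WD V p q s θ Q R) {K : Subgroup H} (hK : K ≤ zOm q Q)
    {c : A} (hc : c ≠ 1) {u : H} (hu : u ∈ Q) (hcu : θ c * u = u * θ c)
    (hst : cj (θ c) K = K) {z₂ : H} (hz₂ : z₂ ∈ zOm q Q)
    (hy₂ : θ c * z₂ * (θ c)⁻¹ * z₂⁻¹ ∉ K) : ∀ t ∈ tK V q Q K, u • t = t := by
  have hy₂mem : θ c * z₂ * (θ c)⁻¹ * z₂⁻¹ ∈ comY q Q (θ c) (D.nQ c) := ⟨z₂, hz₂, rfl⟩
  have hYZ := comY_le q Q (θ c) (D.nQ c)
  have hN : nSub (tK V q Q K) u (orderOf u) = ⊥ := by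
    apply fp_lemma (comY q Q (θ c) (D.nQ c)) (θ c) D.hp (D.thp c)
      (fun y hy => comY_conj_inv q Q (θ c) (D.nQ c) hy)
      (fun y hy hcomm => comY_fix D.hpqc Q (θ c) (D.nQ c) (D.thp c) hy hcomm)
    · intro y hy w hw
      refine ⟨tK_smul_Q hK (zOm_le q Q (hYZ hy)) hw.1, ?_⟩
      have h1 : ∀ j : ℕ, u ^ j • y • w = y • u ^ j • w := fun j =>
        smul_comm_of_comm _ _ (zOm_comm (hYZ hy) (Q.pow_mem hu j)).symm w
      simp_rw [h1]
      rw [← Finset.smul_prod', hw.2, smul_one]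
    · intro w hw
      refine ⟨?_, ?_⟩
      · have h1 := tK_smul (D.nQ c) hw.1
        rwa [hst] at h1
      · have h1 : ∀ j : ℕ, u ^ j • θ c • w = θ c • u ^ j • w := fun j =>
          smul_comm_of_comm _ _ (Commute.pow_right (show Commute (θ c) u from hcu) j).eq.symm w
        simp_rw [h1]
        rw [← Finset.smul_prod', hw.2, smul_one]
    · intro w _ hw
      exact eq_one_of_pow_coprime (D.card_coprime (hYZ.trans (zOm_le q Q))) hw (D.hexp w)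
    · intro w hw hfixed
      exact tK_fix D.hqsc D.hexp hw.1 (hYZ hy₂mem) hy₂ (hfixed _ hy₂mem)
    · intro w hw hfixed
      have h1 : u • w = w := D.hT1 c hc u hu hcu w hfixed
      have h2 := hw.2
      simp_rw [pow_smul_fixed u w h1] at h2
      rw [Finset.prod_const, Finset.card_range] at h2
      exact eq_one_of_pow_coprime (D.orderOf_coprime hu) h2 (D.hexp w)
  intro t ht
  have h1 : u • t / t ∈ nSub (tK V q Q K) u (orderOf u) := by
    refine ⟨(tK V q Q K).div_mem (tK_smul_Q hK hu ht) ht, ?_⟩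
    rw [telescope, pow_orderOf_eq_one, one_smul, div_self']
  rw [hN, Subgroup.mem_bot, div_eq_one] at h1
  exact h1

/-- Lemma 1. -/
theorem lemma1 [Finite H] (D : WD V p q s θ Q R) {K : Subgroup H} (hK : K ≤ zOm q Q)
    {c : A} (hc : c ≠ 1) {u : H} (hu : u ∈ Q) (hcu : θ c * u = u * θ c) :
    (∀ t ∈ tK V q Q K, u • t = t) ∨
      (cj (θ c) K = K ∧ ∀ z ∈ zOm q Q, θ c * z * (θ c)⁻¹ * z⁻¹ ∈ K) := by
  by_cases h1 : cj (θ c) K = K
  · by_cases h2 : ∀ z ∈ zOm q Q, θ c * z * (θ c)⁻¹ * z⁻¹ ∈ K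
    · exact Or.inr ⟨h1, h2⟩
    · push Not at h2
      obtain ⟨z₂, hz₂, hy₂⟩ := h2
      exact Or.inl (D.lemma1_ii hK hc hu hcu h1 hz₂ hy₂)
  · exact Or.inl (D.lemma1_i hK hc hu hcu h1)

/-- `A` cannot centralize a proper quotient of `Ω₁(Z(Q))`. -/
theorem no_central (D : WD V p q s θ Q R) {K₁ : Subgroup H} {z₁ : H} (hz₁ : z₁ ∈ zOm q Q)
    (hz₁K : z₁ ∉ K₁) (h : ∀ c : A, ∀ z ∈ zOm q Q, θ c * z * (θ c)⁻¹ * z⁻¹ ∈ K₁) : False := by
  classical
  have : Finite A := D.finA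
  have : Fintype A := Fintype.ofFinite A
  letI : CommGroup ↥(zOm q Q) := zComm q Q
  obtain ⟨P, hPdef⟩ : ∃ P : ↥(zOm q Q), P = ∏ c : A, conjZ q Q (θ c) (D.nQ c) ⟨z₁, hz₁⟩ :=
    ⟨_, rfl⟩
  have hP : ∀ c' : A, conjZ q Q (θ c') (D.nQ c') P = P := by
    intro c'
    rw [hPdef, map_prod]
    apply Fintype.prod_equiv (Equiv.mulLeft c')
    intro c
    apply Subtype.ext
    rw [conjZ_coe, conjZ_coe, conjZ_coe]
    simp only [Equiv.coe_mulLeft, map_mul, mul_inv_rev]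
    group
  have hP1 : (P : H) = 1 := by
    apply D.hCQ _ (zOm_le q Q P.2)
    intro c
    have h1 := congrArg Subtype.val (hP c)
    rw [conjZ_coe] at h1
    calc θ c * (P : H) = θ c * (P : H) * (θ c)⁻¹ * θ c := by group
      _ = (P : H) * θ c := by rw [h1]
  obtain ⟨kc, hkc⟩ : ∃ kc : A → ↥(zOm q Q), ∀ c, ((kc c : ↥(zOm q Q)) : H) =
      θ c * z₁ * (θ c)⁻¹ * z₁⁻¹ :=
    ⟨fun c => ⟨θ c * z₁ * (θ c)⁻¹ * z₁⁻¹,
      (zOm q Q).mul_mem (zOm_conj (D.nQ c) hz₁) ((zOm q Q).inv_mem hz₁)⟩, fun c => rfl⟩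
  have hdecomp : P = (∏ c : A, kc c) * (⟨z₁, hz₁⟩ : ↥(zOm q Q)) ^ Fintype.card A := by
    rw [hPdef, ← Finset.card_univ, ← Finset.prod_const, ← Finset.prod_mul_distrib]
    apply Finset.prod_congr rfl
    intro c _
    apply Subtype.ext
    rw [conjZ_coe, Subgroup.coe_mul, hkc]
    group
  have hk : ((∏ c : A, kc c : ↥(zOm q Q)) : H) ∈ K₁ := by
    have h1 : (∏ c : A, kc c) ∈ K₁.subgroupOf (zOm q Q) :=
      Subgroup.prod_mem _ (fun c _ => by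
        rw [Subgroup.mem_subgroupOf, hkc]
        exact h c z₁ hz₁)
    exact Subgroup.mem_subgroupOf.mp h1
  have hz : z₁ ^ Fintype.card A ∈ K₁ := by
    have h1 := congrArg Subtype.val hdecomp
    rw [hP1, Subgroup.coe_mul, Subgroup.coe_pow] at h1
    have h2 : z₁ ^ Fintype.card A = ((∏ c : A, kc c : ↥(zOm q Q)) : H)⁻¹ :=
      eq_inv_of_mul_eq_one_right h1.symm
    rw [h2]
    exact K₁.inv_mem hk
  have hcard : Fintype.card A = p ^ 2 := by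
    rw [← Nat.card_eq_fintype_card, D.hAcard]
  rw [hcard] at hz
  have hcop : (p ^ 2).Coprime q := Nat.Coprime.pow_left 2 D.hpqc
  obtain ⟨m, -, hm⟩ := Nat.exists_mul_mod_eq_one_of_coprime hcop D.hq.one_lt
  apply hz₁K
  have h3 : (z₁ ^ p ^ 2) ^ m = z₁ := by
    rw [← pow_mul, pow_eq_pow_mod (p ^ 2 * m) (zOm_pow hz₁), hm, pow_one]
  rw [← h3]
  exact K₁.pow_mem hz m

theorem pA (D : WD V p q s θ Q R) : IsPGroup p θ.range := by
  rintro ⟨_, c, rfl⟩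
  refine ⟨1, Subtype.ext ?_⟩
  rw [pow_one]
  exact D.thp c

/-- Step 1: every relevant `K` has a good element of `A`. -/
theorem exists_good [Finite H] (D : WD V p q s θ Q R) {K : Subgroup H} (hK : Rel V q Q K) :
    ∃ b : A, b ≠ 1 ∧ θ b ∈ mG V q Q K := by
  obtain ⟨hKZ, ⟨z₁, hz₁, hz₁K⟩, hT⟩ := hK
  have hz₁c : z₁ ∉ ctK V q Q K := not_mem_ctK D.hqsc D.hexp hT hz₁ hz₁K
  have h1 : ∃ b : A, b ≠ 1 ∧ ∃ u₀ ∈ Q, θ b * u₀ = u₀ * θ b ∧ u₀ ∉ ctK V q Q K := by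
    by_contra hcon
    push Not at hcon
    exact hz₁c (D.gen (ctK V q Q K) (fun c hc u hu hcu => hcon c hc u hu hcu) (zOm_le q Q hz₁))
  obtain ⟨b, hb, u₀, hu₀, hbu₀, hu₀c⟩ := h1
  have h2 : cj (θ b) K = K ∧ ∀ z ∈ zOm q Q, θ b * z * (θ b)⁻¹ * z⁻¹ ∈ K := by
    rcases D.lemma1 hKZ hb hu₀ hbu₀ with h | h
    · exact absurd ⟨hu₀, h⟩ hu₀c
    · exact h
  have hbB : θ b ∈ mB q Q K := ⟨D.nQ b, h2.1, h2.2⟩
  have h3 : ∀ c : A, c ∉ Subgroup.zpowers b → ∀ u ∈ Q, θ c * u = u * θ c →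
      u ∈ ctK V q Q K := by
    intro c hc u hu hcu
    have hc1 : c ≠ 1 := fun h => hc (h ▸ Subgroup.one_mem _)
    rcases D.lemma1 hKZ hc1 hu hcu with h | h
    · exact ⟨hu, h⟩
    · exfalso
      have hcB : θ c ∈ mB q Q K := ⟨D.nQ c, h.1, h.2⟩
      exact D.no_central hz₁ hz₁K
        (fun x z hz => (D.map_mem hb hc (mB q Q K) hbB hcB x).2.2 z hz)
  have hQM : Q ≤ comSub V q Q K hKZ (θ b) := by
    apply D.gen
    intro c hc u hu hcu
    refine ⟨hu, ?_⟩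
    by_cases hcb : c ∈ Subgroup.zpowers b
    · obtain ⟨k, hk⟩ := Subgroup.mem_zpowers_iff.mp (D.mem_zpowers_symm hc hcb)
      have hbu : θ b * u = u * θ b := by
        rw [← hk, map_zpow]
        exact (Commute.zpow_left (show Commute (θ c) u from hcu) k).eq
      have e : θ b * u * (θ b)⁻¹ * u⁻¹ = 1 := by
        rw [hbu]
        group
      rw [e]
      exact Subgroup.one_mem _
    · have h4 := h3 c hcb u hu hcu
      have h5 := ctK_conj (V := V) (D.nQ b) h4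
      rw [h2.1] at h5
      exact Subgroup.mul_mem _ h5 (Subgroup.inv_mem _ h4)
  exact ⟨b, hb, D.nQ b, h2.1, fun u hu => (hQM hu).2⟩

/-- Two independent elements conjugate into `M` give a conjugate of `θ(A)` inside `M`. -/
theorem conj_A [Finite H] (D : WD V p q s θ Q R) (M : Subgroup H) {b c : A} (hb : b ≠ 1)
    (hc : c ∉ Subgroup.zpowers b) {g : H} (hg : g ∈ R) (hbM : θ b ∈ M)
    (hcM : g⁻¹ * θ c * g ∈ M) :
    ∃ h ∈ Subgroup.normalizer (Q : Set H), ∀ x : A, h⁻¹ * θ x * h ∈ M := by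
  have : Fact p.Prime := ⟨D.hp⟩
  obtain ⟨L, hL⟩ : ∃ L : Subgroup H, L = R ⊔ θ.range := ⟨_, rfl⟩
  have hRL : R ≤ L := hL ▸ le_sup_left
  have hAL : θ.range ≤ L := hL ▸ le_sup_right
  have hLn : L ≤ Subgroup.normalizer (Q : Set H) := by
    rw [hL]
    refine sup_le (fun g hg => D.nR hg) ?_
    rintro _ ⟨c, rfl⟩
    exact D.nQ c
  have hLR : L ≤ Subgroup.normalizer (R : Set H) := by
    rw [hL]
    refine sup_le Subgroup.le_normalizer ?_
    rintro _ ⟨c, rfl⟩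
    exact D.nAR c
  obtain ⟨M', hM'⟩ : ∃ M' : Subgroup H, M' = M ⊓ L := ⟨_, rfl⟩
  have hM'L : M' ≤ L := hM' ▸ inf_le_right
  have hM'M : M' ≤ M := hM' ▸ inf_le_left
  have hsup : R ⊔ M' = L := by
    apply le_antisymm (sup_le hRL hM'L)
    rw [hL]
    apply sup_le le_sup_left
    rintro _ ⟨x, rfl⟩
    apply D.map_mem hb hc (R ⊔ M')
    · apply (le_sup_right : M' ≤ R ⊔ M')
      rw [hM']
      exact ⟨hbM, hAL ⟨b, rfl⟩⟩
    · have hm : g⁻¹ * θ c * g ∈ M' := by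
        rw [hM']
        exact ⟨hcM, L.mul_mem (L.mul_mem (L.inv_mem (hRL hg)) (hAL ⟨c, rfl⟩)) (hRL hg)⟩
      have hρ : θ c * g⁻¹ * (θ c)⁻¹ * g ∈ R := R.mul_mem (D.hAR c _ (R.inv_mem hg)) hg
      have e : θ c = (θ c * g⁻¹ * (θ c)⁻¹ * g) * (g⁻¹ * θ c * g) := by group
      rw [e]
      exact Subgroup.mul_mem _ ((le_sup_left : R ≤ R ⊔ M') hρ) ((le_sup_right : M' ≤ R ⊔ M') hm)
  have hidx : ¬ p ∣ M'.relIndex L := by
    have h1 := Cfsg.Agent.Lib.Helper91.card_sup_mul_card_inf_of_le_normalizer R M'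
      (hM'L.trans hLR)
    rw [hsup] at h1
    have h2 : Nat.card L = Nat.card M' * M'.relIndex L :=
      Cfsg.Agent.Lib.Helper1.card_eq_card_mul_relIndex hM'L
    rw [h2, mul_assoc, mul_comm (Nat.card R)] at h1
    have h3 : M'.relIndex L * Nat.card (R ⊓ M' : Subgroup H) = Nat.card R :=
      Nat.eq_of_mul_eq_mul_left Nat.card_pos h1
    intro hdvd
    exact D.hR (h3 ▸ Dvd.dvd.mul_right hdvd _)
  obtain ⟨h, hhL, hh⟩ := conj_into L M' θ.range hAL D.pA hidx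
  exact ⟨h, hLn hhL, fun x => hM'M (hh (θ x) ⟨x, rfl⟩)⟩

/-- No conjugate of `θ(A)` is good for a relevant `K`. -/
theorem no_conj [Finite H] (D : WD V p q s θ Q R) {K : Subgroup H} (hK : Rel V q Q K) {h : H}
    (hh : h ∈ Subgroup.normalizer (Q : Set H)) (hA : ∀ x : A, h⁻¹ * θ x * h ∈ mG V q Q K) :
    False := by
  obtain ⟨-, ⟨z₁, hz₁, hz₁K⟩, hT⟩ := hK.conj hh
  apply D.no_central hz₁ hz₁K
  intro c z hz
  have h1 : θ c ∈ mG V q Q (cj h K) := by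
    have h2 := mG_conj (V := V) hh (hA c)
    have e : h * (h⁻¹ * θ c * h) * h⁻¹ = θ c := by group
    rwa [e] at h2
  have h2 := h1.2.2 z (zOm_le q Q hz)
  by_contra hcon
  exact not_mem_ctK D.hqsc D.hexp hT
    ((zOm q Q).mul_mem (zOm_conj (D.nQ c) hz) ((zOm q Q).inv_mem hz)) hcon h2

/-- Step 2a: a good element for `K` is good for the `R`-conjugates of `K`. -/
theorem good_conj [Finite H] (D : WD V p q s θ Q R) {K : Subgroup H} (hK : Rel V q Q K)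
    {b : A} (hb : b ≠ 1) (hbG : θ b ∈ mG V q Q K) {g : H} (hg : g ∈ R) :
    θ b ∈ mG V q Q (cj g K) := by
  have hgn := D.nR hg
  obtain ⟨b', hb', hb'G⟩ := D.exists_good (hK.conj hgn)
  by_cases hbb : b' ∈ Subgroup.zpowers b
  · obtain ⟨k, hk⟩ := Subgroup.mem_zpowers_iff.mp (D.mem_zpowers_symm hb' hbb)
    rw [← hk, map_zpow]
    exact Subgroup.zpow_mem _ hb'G k
  · exfalso
    obtain ⟨h, hh, hA⟩ := D.conj_A (mG V q Q K) hb hbb hg hbG (mG_conj_inv hgn hb'G)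
    exact D.no_conj hK hh hA

/-- Step 2b: `[Q, R]` centralizes every component. -/
theorem comm_mem_ct [Finite H] (D : WD V p q s θ Q R) {K : Subgroup H} (hK : Rel V q Q K) :
    ∀ g ∈ R, ∀ u ∈ Q, g * u * g⁻¹ * u⁻¹ ∈ ctK V q Q K := by
  obtain ⟨b, hb, hbG⟩ := D.exists_good hK
  have hbGg : ∀ g ∈ R, θ b ∈ mG V q Q (cj g K) := fun g hg => D.good_conj hK hb hbG hg
  have hKZ := hK.1
  obtain ⟨Dg, hDg⟩ : ∃ Dg : Subgroup H, Dg = ⨅ g : R, ctK V q Q (cj (g : H) K) := ⟨_, rfl⟩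
  have hmem : ∀ d, d ∈ Dg ↔ ∀ g ∈ R, d ∈ ctK V q Q (cj g K) := by
    intro d
    rw [hDg, Subgroup.mem_iInf]
    exact ⟨fun h g hg => h ⟨g, hg⟩, fun h g => h g g.2⟩
  have hDQ : Dg ≤ Q := fun d hd => ctK_le q Q _ ((hmem d).mp hd 1 R.one_mem)
  have hDK : Dg ≤ ctK V q Q K := fun d hd => by
    have := (hmem d).mp hd 1 R.one_mem
    rwa [cj_one] at this
  have hd2 : ∀ u ∈ Q, ∀ d ∈ Dg, u * d * u⁻¹ ∈ Dg := by
    intro u hu d hd
    rw [hmem]
    intro g hg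
    exact ctK_conj_Q (cj_le_zOm (D.nR hg) hKZ) hu ((hmem d).mp hd g hg)
  have hd3 : ∀ g' ∈ R, ∀ d ∈ Dg, g' * d * g'⁻¹ ∈ Dg := by
    intro g' hg' d hd
    rw [hmem]
    intro g hg
    have h1 := (hmem d).mp hd (g'⁻¹ * g) (R.mul_mem (R.inv_mem hg') hg)
    have h2 := ctK_conj (V := V) (D.nR hg') h1
    rwa [← cj_mul, mul_inv_cancel_left] at h2
  have hd4 : ∀ d ∈ Dg, θ b * d * (θ b)⁻¹ ∈ Dg := by
    intro d hd
    rw [hmem]
    intro g hg
    have h2 := ctK_conj (V := V) (D.nQ b) ((hmem d).mp hd g hg)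
    rwa [(hbGg g hg).2.1] at h2
  have hd4' : ∀ d ∈ Dg, (θ b)⁻¹ * d * θ b ∈ Dg := by
    intro d hd
    rw [hmem]
    intro g hg
    have hinv : (θ b)⁻¹ ∈ mG V q Q (cj g K) := Subgroup.inv_mem _ (hbGg g hg)
    have h2 := ctK_conj (V := V) hinv.1 ((hmem d).mp hd g hg)
    rwa [hinv.2.1, inv_inv] at h2
  have hd5 : ∀ u ∈ Q, θ b * u * (θ b)⁻¹ * u⁻¹ ∈ Dg := by
    intro u hu
    rw [hmem]
    intro g hg
    exact (hbGg g hg).2.2 u hu
  have hQnD : Q ≤ Subgroup.normalizer (Dg : Set H) := le_normalizer_of_conj Dg Q hd2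
  have hRnD : R ≤ Subgroup.normalizer (Dg : Set H) := le_normalizer_of_conj Dg R hd3
  have hbnD : θ b ∈ Subgroup.normalizer (Dg : Set H) := mem_normalizer_of_conj Dg (θ b) hd4 hd4'
  have hbM : θ b ∈ kerSub Q Dg := ⟨D.nQ b, hbnD, hd5⟩
  have hzM : Subgroup.zpowers (θ b) ≤ kerSub Q Dg := Subgroup.zpowers_le.mpr hbM
  have hzpQ : Subgroup.zpowers (θ b) ≤ Subgroup.normalizer (Q : Set H) :=
    Subgroup.zpowers_le.mpr (D.nQ b)
  have hzpR : Subgroup.zpowers (θ b) ≤ Subgroup.normalizer (R : Set H) :=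
    Subgroup.zpowers_le.mpr (D.nAR b)
  have hzpD : Subgroup.zpowers (θ b) ≤ Subgroup.normalizer (Dg : Set H) :=
    Subgroup.zpowers_le.mpr hbnD
  have hcardz : Nat.card (Subgroup.zpowers (θ b)) ∣ p := by
    rw [Nat.card_zpowers]
    exact orderOf_dvd_of_pow_eq_one (D.thp b)
  have hsolvz : Group.IsSolvable (Subgroup.zpowers (θ b)) :=
    Group.isSolvable_of_comm (fun a b => mul_comm' a b)
  have hcopQ : (Nat.card (Subgroup.zpowers (θ b))).Coprime (Nat.card Q) := by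
    have : Fact q.Prime := ⟨D.hq⟩
    obtain ⟨n, hn⟩ := D.hQ.exists_card_eq
    rw [hn]
    exact Nat.Coprime.coprime_dvd_left hcardz (Nat.Coprime.pow_right n D.hpqc)
  have hcopR : (Nat.card (Subgroup.zpowers (θ b))).Coprime (Nat.card R) :=
    Nat.Coprime.coprime_dvd_left hcardz ((Nat.Prime.coprime_iff_not_dvd D.hp).mpr D.hR)
  have hCR : ∀ g ∈ R, θ b * g = g * θ b → g ∈ kerSub Q Dg := by
    intro g hg hbg
    refine ⟨D.nR hg, hRnD hg, fun u hu => ?_⟩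
    obtain ⟨c₁, hc₁, hc₁D⟩ := Cfsg.Agent.S0022.result (Subgroup.zpowers (θ b)) Q hzpQ hcopQ
      (Or.inl hsolvz) Dg hDQ hQnD hzpD u hu (fun a ha => (hzM ha).2.2 u hu)
    obtain ⟨hc₁Q, hc₁c⟩ := Subgroup.mem_inf.mp hc₁
    have hc₁b : θ b * c₁ = c₁ * θ b :=
      Subgroup.mem_centralizer_iff.mp hc₁c (θ b) (Subgroup.mem_zpowers _)
    have hcomm : c₁ * g = g * c₁ := D.hT2 b hb c₁ hc₁Q hc₁b g hg hbg
    have h1 : g * u * g⁻¹ * u⁻¹ = c₁ * (g * (u⁻¹ * c₁)⁻¹ * g⁻¹ * (u⁻¹ * c₁)) * c₁⁻¹ := by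
      have e1 : g * u * g⁻¹ * u⁻¹ = g * c₁ * (u⁻¹ * c₁)⁻¹ * g⁻¹ * (u⁻¹ * c₁) * c₁⁻¹ := by group
      rw [e1, ← hcomm]
      group
    rw [h1]
    exact hd2 c₁ hc₁Q _ (Dg.mul_mem (hd3 g hg _ (Dg.inv_mem hc₁D)) hc₁D)
  have hR : ∀ g ∈ R, g ∈ kerSub Q Dg := by
    intro g hg
    have hNn : R ≤ Subgroup.normalizer ((R ⊓ kerSub Q Dg : Subgroup H) : Set H) := by
      apply le_normalizer_of_conj
      rintro g' hg' x hx
      obtain ⟨hxR, hxM⟩ := Subgroup.mem_inf.mp hx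
      exact Subgroup.mem_inf.mpr ⟨R.mul_mem (R.mul_mem hg' hxR) (R.inv_mem hg'),
        kerSub_conj (D.nR hg') (hRnD hg') hxM⟩
    have hNA : Subgroup.zpowers (θ b) ≤
        Subgroup.normalizer ((R ⊓ kerSub Q Dg : Subgroup H) : Set H) := by
      apply le_normalizer_of_conj
      rintro a ha x hx
      obtain ⟨hxR, hxM⟩ := Subgroup.mem_inf.mp hx
      exact Subgroup.mem_inf.mpr ⟨conj_mem_of_normalizer (hzpR ha) hxR,
        Subgroup.mul_mem _ (Subgroup.mul_mem _ (hzM ha) hxM) (Subgroup.inv_mem _ (hzM ha))⟩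
    obtain ⟨c₂, hc₂, hc₂N⟩ := Cfsg.Agent.S0022.result (Subgroup.zpowers (θ b)) R hzpR hcopR
      (Or.inl hsolvz) (R ⊓ kerSub Q Dg) inf_le_left hNn hNA g hg (fun a ha => by
        have haM := hzM ha
        refine Subgroup.mem_inf.mpr
          ⟨R.mul_mem (conj_mem_of_normalizer (hzpR ha) hg) (R.inv_mem hg), ?_⟩
        have e : a * g * a⁻¹ * g⁻¹ = a * (g * a⁻¹ * g⁻¹) := by group
        rw [e]
        exact Subgroup.mul_mem _ haM
          (kerSub_conj (D.nR hg) (hRnD hg) (Subgroup.inv_mem _ haM)))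
    obtain ⟨hc₂R, hc₂c⟩ := Subgroup.mem_inf.mp hc₂
    have hc₂b : θ b * c₂ = c₂ * θ b :=
      Subgroup.mem_centralizer_iff.mp hc₂c (θ b) (Subgroup.mem_zpowers _)
    have h1 := hCR c₂ hc₂R hc₂b
    have h2 : g = c₂ * (g⁻¹ * c₂)⁻¹ := by group
    rw [h2]
    exact Subgroup.mul_mem _ h1 (Subgroup.inv_mem _ (Subgroup.mem_inf.mp hc₂N).2)
  intro g hg u hu
  exact hDK ((hR g hg).2.2 u hu)

/-- Step 3b: a nonidentity element of `Ω₁(Z(Q))` lies outside some relevant `K`. -/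
theorem exists_rel [Finite H] (D : WD V p q s θ Q R) {z₀ : H} (hz₀ : z₀ ∈ zOm q Q)
    (hz₀1 : z₀ ≠ 1) : ∃ K : Subgroup H, Rel V q Q K ∧ z₀ ∉ K := by
  obtain ⟨V₁, hV₁def⟩ : ∃ V₁ : Subgroup V, V₁ = nSub ⊤ z₀ q := ⟨_, rfl⟩
  have hV₁mem : ∀ v, v ∈ V₁ ↔ ∏ j ∈ Finset.range q, z₀ ^ j • v = 1 := by
    intro v
    rw [hV₁def]
    exact ⟨fun h => h.2, fun h => ⟨Subgroup.mem_top _, h⟩⟩
  have hV₁ : V₁ ≠ ⊥ := by
    intro hbot
    apply hz₀1
    apply D.hfaith z₀ (zOm_le q Q hz₀)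
    intro v
    have h1 : z₀ • v / v ∈ V₁ := by
      rw [hV₁mem, telescope, zOm_pow hz₀, one_smul, div_self']
    rw [hbot, Subgroup.mem_bot, div_eq_one] at h1
    exact h1
  have hV₁inv : ∀ x ∈ Q, ∀ v ∈ V₁, x • v ∈ V₁ := by
    intro x hx v hv
    rw [hV₁mem] at hv ⊢
    have h1 : ∀ j : ℕ, z₀ ^ j • x • v = x • z₀ ^ j • v := fun j =>
      smul_comm_of_comm _ _ (zOm_comm_pow hz₀ hx j) v
    simp_rw [h1]
    rw [← Finset.smul_prod', hv, smul_one]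
  have hbot : (⊥ : Subgroup H) ∈ {K : Subgroup H | K ≤ zOm q Q ∧ V₁ ⊓ fixS V K ≠ ⊥} := by
    refine ⟨bot_le, fun h => hV₁ ?_⟩
    rw [eq_bot_iff, ← h]
    intro v hv
    refine Subgroup.mem_inf.mpr ⟨hv, fun k hk => ?_⟩
    rw [Subgroup.mem_bot.mp hk, one_smul]
  obtain ⟨K, -, hKmax⟩ := (Set.toFinite
    {K : Subgroup H | K ≤ zOm q Q ∧ V₁ ⊓ fixS V K ≠ ⊥}).exists_le_maximal hbot
  obtain ⟨⟨hKZ, hKne⟩, hKm⟩ := hKmax
  have hz₀K : z₀ ∉ K := by
    intro hzK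
    apply hKne
    rw [eq_bot_iff]
    intro v hv
    obtain ⟨hv1, hv2⟩ := Subgroup.mem_inf.mp hv
    have h1 := (hV₁mem v).mp hv1
    simp_rw [pow_smul_fixed z₀ v (hv2 z₀ hzK)] at h1
    rw [Finset.prod_const, Finset.card_range] at h1
    exact Subgroup.mem_bot.mpr (eq_one_of_pow_coprime D.hqsc h1 (D.hexp v))
  have hle : V₁ ⊓ fixS V K ≤ tK V q Q K := by
    intro v hv
    obtain ⟨hv1, hv2⟩ := Subgroup.mem_inf.mp hv
    refine ⟨hv2, fun z hz hzK => ?_⟩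
    by_contra hne
    apply hzK
    have hK' : K ⊔ Subgroup.zpowers z ∈
        {K : Subgroup H | K ≤ zOm q Q ∧ V₁ ⊓ fixS V K ≠ ⊥} := by
      refine ⟨sup_le hKZ (Subgroup.zpowers_le.mpr hz), fun h => hne ?_⟩
      have h1 : ∏ i ∈ Finset.range q, z ^ i • v ∈ V₁ ⊓ fixS V (K ⊔ Subgroup.zpowers z) := by
        refine Subgroup.mem_inf.mpr ⟨?_, ?_⟩
        · apply Subgroup.prod_mem
          intro i _
          exact hV₁inv _ (zOm_le q Q ((zOm q Q).pow_mem hz i)) v hv1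
        · have hstab : K ⊔ Subgroup.zpowers z ≤
              MulAction.stabilizer H (∏ i ∈ Finset.range q, z ^ i • v) := by
            refine sup_le (fun k hk => ?_) (Subgroup.zpowers_le.mpr ?_)
            · rw [MulAction.mem_stabilizer_iff, Finset.smul_prod']
              apply Finset.prod_congr rfl
              intro i _
              rw [smul_comm_of_comm k (z ^ i)
                (zOm_comm (hKZ hk) (zOm_le q Q ((zOm q Q).pow_mem hz i))), hv2 k hk]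
            · rw [MulAction.mem_stabilizer_iff]
              exact norm_fixed z q (zOm_pow hz) v
          intro k hk
          exact MulAction.mem_stabilizer_iff.mp (hstab hk)
      rw [h] at h1
      exact Subgroup.mem_bot.mp h1
    exact hKm hK' le_sup_left (le_sup_right (a := K) (Subgroup.mem_zpowers z))
  refine ⟨K, ⟨hKZ, ⟨z₀, hz₀, hz₀K⟩, fun h => hKne ?_⟩, hz₀K⟩
  rw [eq_bot_iff, ← h]
  exact hle

/-- **The core lemma.** -/
theorem core [Finite H] (D : WD V p q s θ Q R) : ∀ u ∈ Q, ∀ g ∈ R, u * g = g * u := by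
  classical
  by_contra hcon
  push Not at hcon
  obtain ⟨u, hu, g, hg, hne⟩ := hcon
  have : Fact q.Prime := ⟨D.hq⟩
  obtain ⟨Di, hDi⟩ : ∃ Di : Subgroup H,
      Di = Q ⊓ ⨅ K : {K : Subgroup H // Rel V q Q K}, ctK V q Q K.1 := ⟨_, rfl⟩
  have hmem : ∀ d, d ∈ Di ↔ d ∈ Q ∧ ∀ K, Rel V q Q K → d ∈ ctK V q Q K := by
    intro d
    rw [hDi, Subgroup.mem_inf, Subgroup.mem_iInf]
    exact ⟨fun h => ⟨h.1, fun K hK => h.2 ⟨K, hK⟩⟩, fun h => ⟨h.1, fun K => h.2 K.1 K.2⟩⟩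
  have hDQ : Di ≤ Q := fun d hd => ((hmem d).mp hd).1
  have hQn : Q ≤ Subgroup.normalizer (Di : Set H) :=
    le_normalizer_of_conj Di Q (fun x hx d hd => (hmem _).mpr
      ⟨Q.mul_mem (Q.mul_mem hx (hDQ hd)) (Q.inv_mem hx),
        fun K hK => ctK_conj_Q hK.1 hx (((hmem d).mp hd).2 K hK)⟩)
  have hcomm : g * u * g⁻¹ * u⁻¹ ∈ Di := (hmem _).mpr
    ⟨Q.mul_mem (D.hRQ g hg u hu) (Q.inv_mem hu), fun K hK => D.comm_mem_ct hK g hg u hu⟩
  have hne1 : g * u * g⁻¹ * u⁻¹ ≠ 1 := by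
    intro h
    apply hne
    have h1 : g * u = u * g := by
      calc g * u = g * u * g⁻¹ * u⁻¹ * (u * g) := by group
        _ = u * g := by rw [h, one_mul]
    exact h1.symm
  have hDne : Di ≠ ⊥ := fun h => hne1 (by
    rw [h] at hcomm
    exact Subgroup.mem_bot.mp hcomm)
  obtain ⟨w, hwD, hw1, hwc⟩ :=
    Cfsg.Agent.Lib.Helper53.exists_mem_center_of_normal_subgroup D.hQ hDQ hQn hDne
  have hex : ∃ k : ℕ, w ^ q ^ k = 1 := by
    obtain ⟨k, hk⟩ := D.hQ ⟨w, hDQ hwD⟩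
    exact ⟨k, by
      have := congrArg Subtype.val hk
      simpa using this⟩
  have hk := Nat.find_spec hex
  have hk0 : Nat.find hex ≠ 0 := by
    intro h0
    rw [h0, pow_zero, pow_one] at hk
    exact hw1 hk
  obtain ⟨j, hj⟩ := Nat.exists_eq_succ_of_ne_zero hk0
  have hz1 : w ^ q ^ j ≠ 1 := Nat.find_min hex (by rw [hj]; exact Nat.lt_succ_self j)
  have hzq : (w ^ q ^ j) ^ q = 1 := by
    rw [← pow_mul, ← pow_succ, ← Nat.succ_eq_add_one, ← hj]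
    exact hk
  have hzZ : w ^ q ^ j ∈ zOm q Q :=
    ⟨Q.pow_mem (hDQ hwD) _, hzq, fun x hx =>
      (Commute.pow_left (show Commute w x from (hwc x hx).symm) _).eq⟩
  obtain ⟨K, hK, hzK⟩ := D.exists_rel hzZ hz1
  exact not_mem_ctK D.hqsc D.hexp hK.2.2 hzZ hzK
    (((hmem _).mp (Di.pow_mem hwD _)).2 K hK)

end WD

end

end Cfsg.Agent.Lib.Helper97.Ward
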